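import Mathlib
import Cfsg.Agent.Helper90.HTDefs

/-!
# CALL S5953, piece HORTH (helper47, written as the base of HTIB)

The perp of `W` inside a nondegenerate `D`.
-/

set_option autoImplicit false

namespace Cfsg.Agent.Helper47.HT5953

open Module Polynomial Cfsg.Agent.Helper90.HT

section geom

variable {F : Type*} [Field F] {V : Type*} [AddCommGroup V] [Module F V] [FiniteDimensional F V]
  (σ : F →+* F) (h : V → V → F)

/-- HORTH: the perp of `W` inside a nondegenerate `D`. -/
theorem ht_orth (hh : IsHerm σ h) (D W : Submodule F V) (hD : HNondegOn h D) (hW : W ≤ D) :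
    ∃ P : Submodule F V, (∀ v, v ∈ P ↔ v ∈ D ∧ ∀ w ∈ W, h v w = 0) ∧
      finrank F P + finrank F W = finrank F D := by
  classical
  obtain ⟨b⟩ : Nonempty (Basis (Fin (finrank F W)) F W) := ⟨Module.finBasis F W⟩
  obtain ⟨ψ, hψ⟩ : ∃ ψ : D →ₗ[F] (Fin (finrank F W) → F),
      ∀ v i, ψ v i = h (v : V) (b i : V) :=
    ⟨{ toFun := fun v i => h (v : V) (b i : V)
       map_add' := fun u v => by
        funext i
        show h ((u : V) + (v : V)) (b i : V) = h (u : V) (b i : V) + h (v : V) (b i : V)
        rw [hh.add_left]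
       map_smul' := fun a v => by
        funext i
        show h (a • (v : V)) (b i : V) = a * h (v : V) (b i : V)
        rw [hh.smul_left] }, fun _ _ => rfl⟩
  have hexp : ∀ (v : V) (w : W), h v (w : V) = ∑ i, σ (b.repr w i) * h v (b i : V) := by
    intro v w
    have hw : (w : V) = ∑ i, (b.repr w i) • (b i : V) := by
      conv_lhs => rw [← b.sum_repr w]
      rw [Submodule.coe_sum]
      rfl
    rw [hw, hh.sum_right]
    refine Finset.sum_congr rfl fun i _ => ?_
    rw [hh.smul_right]
  refine ⟨(LinearMap.ker ψ).map D.subtype, ?_, ?_⟩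
  · intro v
    constructor
    · rintro ⟨d, hd, rfl⟩
      refine ⟨d.2, fun w hw => ?_⟩
      rw [hexp (D.subtype d) ⟨w, hw⟩]
      refine Finset.sum_eq_zero fun i _ => ?_
      have h0 : ψ d i = 0 := by
        rw [LinearMap.mem_ker.1 hd]; rfl
      rw [hψ] at h0
      show σ _ * h (d : V) (b i : V) = 0
      rw [h0, mul_zero]
    · rintro ⟨hv, hw⟩
      refine ⟨⟨v, hv⟩, ?_, rfl⟩
      show (⟨v, hv⟩ : D) ∈ LinearMap.ker ψ
      rw [LinearMap.mem_ker]
      funext i
      rw [hψ]
      exact hw _ (b i).2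
  · rw [Submodule.finrank_map_subtype_eq]
    have hsurj : LinearMap.range ψ = ⊤ := by
      by_contra hne
      obtain ⟨f, hf0, hf⟩ := Submodule.exists_le_ker_of_lt_top _ (lt_top_iff_ne_top.2 hne)
      obtain ⟨c, hc⟩ : ∃ c : Fin (finrank F W) → F, ∀ i, c i = f (Pi.single i 1) :=
        ⟨_, fun _ => rfl⟩
      have hfx : ∀ x : Fin (finrank F W) → F, f x = ∑ i, x i * c i := by
        intro x
        rw [LinearMap.pi_apply_eq_sum_univ f x]
        refine Finset.sum_congr rfl fun i _ => ?_
        rw [smul_eq_mul, hc]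
        congr 2
        funext j
        simp [Pi.single_apply, eq_comm]
      obtain ⟨w₀, hw₀def⟩ : ∃ w₀ : W, w₀ = ∑ i, σ (c i) • b i := ⟨_, rfl⟩
      have hrepr : ∀ i, b.repr w₀ i = σ (c i) := by
        intro i
        rw [hw₀def]
        exact congrFun (b.repr_sum_self (fun i => σ (c i))) i
      have hw₀ : ∀ v ∈ D, h v (w₀ : V) = 0 := by
        intro v hv
        rw [hexp v w₀]
        have h0 : f (ψ ⟨v, hv⟩) = 0 := LinearMap.mem_ker.1 (hf ⟨⟨v, hv⟩, rfl⟩)
        rw [hfx] at h0
        rw [← h0]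
        refine Finset.sum_congr rfl fun i _ => ?_
        rw [hrepr, hh.invol, hψ, mul_comm]
      have hw₀0 : (w₀ : V) = 0 := by
        apply hD _ (hW w₀.2)
        intro v hv
        rw [hh.symm v (w₀ : V), hw₀ v hv, map_zero]
      have hc0 : ∀ i, c i = 0 := by
        intro i
        have h1 : w₀ = 0 := Subtype.ext hw₀0
        have h2 : b.repr w₀ i = 0 := by rw [h1]; simp
        rw [hrepr] at h2
        rw [← hh.invol (c i), h2, map_zero]
      apply hf0
      apply LinearMap.ext
      intro x
      rw [hfx]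
      simp [hc0]
    have h1 := LinearMap.finrank_range_add_finrank_ker ψ
    rw [hsurj, finrank_top, Module.finrank_fin_fun] at h1
    omega

end geom

end Cfsg.Agent.Helper47.HT5953
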