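import Mathlib
import Cfsg.Agent.Helper71.SQDefs
import Cfsg.Agent.Helper71.T4Main

/-!
# Helper47: PIECE KS of CALL S5867 (helper71): `kron_of_pure` with the factors swapped.
-/

set_option autoImplicit false

namespace Cfsg.Agent.Helper47.SQKS

open Matrix Cfsg.Agent.Helper71.T4 Cfsg.Agent.Helper71.SO Cfsg.Agent.Helper71.SQ
open scoped Kronecker

variable {F : Type*} [Field F] {m n : ℕ}

/-! ## Piece KS -/
theorem kron_of_pure_gt (hnm : n < m) (g : Matrix (Fin m × Fin n) (Fin m × Fin n) F)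
    (hg : g.det ≠ 0)
    (h : ∀ (u : Fin m → F) (w : Fin n → F), ∃ (u' : Fin m → F) (w' : Fin n → F),
      g *ᵥ pt u w = pt u' w') : IsKron g := by
  classical
  obtain ⟨e, he⟩ : ∃ e : Fin n × Fin m ≃ Fin m × Fin n, e = Equiv.prodComm (Fin n) (Fin m) :=
    ⟨_, rfl⟩
  have hdet : (g.submatrix e e).det ≠ 0 := by
    rw [Matrix.det_submatrix_equiv_self]
    exact hg
  have hpure : ∀ (w : Fin n → F) (u : Fin m → F), ∃ (w' : Fin n → F) (u' : Fin m → F),
      (g.submatrix e e) *ᵥ pt w u = pt w' u' := by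
    intro w u
    obtain ⟨u', w', huw⟩ := h u w
    refine ⟨w', u', ?_⟩
    rw [Matrix.submatrix_mulVec_equiv]
    have h1 : pt w u ∘ ⇑e.symm = pt u w := by
      funext p
      subst he
      simp [pt, mul_comm]
    rw [h1, huw]
    funext p
    subst he
    simp [pt, mul_comm]
  obtain ⟨B, A, hBA⟩ := Cfsg.Agent.Helper71.T4Main.kron_of_pure hnm (g.submatrix e e) hdet hpure
  refine ⟨A, B, ?_⟩
  ext ⟨i, j⟩ ⟨i', j'⟩
  have h2 := congrFun (congrFun hBA (j, i)) (j', i')
  subst he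
  simp only [Matrix.submatrix_apply, Equiv.prodComm_apply, Prod.swap_prod_mk,
    Matrix.kroneckerMap_apply] at h2 ⊢
  rw [h2, mul_comm]

end Cfsg.Agent.Helper47.SQKS
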