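import Mathlib
import Cfsg.Agent.Helper13.TLDefs
import Cfsg.Agent.Helper31.TLUDSUM
import Cfsg.Agent.Helper31.TLUMONO1

/-!
# CALL S5954, piece UMONO (helper47)

Orthogonal sum of `k` monomial cycles of length `r`.
-/

set_option autoImplicit false

namespace Cfsg.Agent.Helper47.TI5954

open Module Polynomial
open Cfsg.Agent.Helper13.TIu Cfsg.Agent.Helper13.TIsp
open Cfsg.Agent.Helper31.TI5954

theorem dsum_pow {F : Type*} [Field F] {n₁ n₂ n : ℕ} (T₁ : Module.End F (Fin n₁ → F))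
    (T₂ : Module.End F (Fin n₂ → F)) (T : Module.End F (Fin n → F))
    (Φ : ((Fin n₁ → F) × (Fin n₂ → F)) ≃ₗ[F] (Fin n → F))
    (hTΦ : ∀ x, T (Φ x) = Φ (T₁ x.1, T₂ x.2)) (k : ℕ) :
    ∀ x, (T ^ k) (Φ x) = Φ ((T₁ ^ k) x.1, (T₂ ^ k) x.2) := by
  induction k with
  | zero => intro x; simp
  | succ k ih =>
    intro x
    rw [pow_succ', Module.End.mul_apply, ih, hTΦ, pow_succ', pow_succ']
    rfl

section std2

variable {F : Type*} [Field F] {σ : F →+* F}

/-- UMONO (cases B, C; uses UMONO1, UDSUM; induction on `k`, `subst`). -/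
theorem ubad_mono (z : F) (hz : σ z * z = 1) (r k n : ℕ) (hr : 0 < r) (hn : n = r * k) :
    ∃ T : Module.End F (Fin n → F), UPres (stdH σ n) T ∧
      T ^ r = z • (1 : Module.End F (Fin n → F)) ∧ LinearMap.det T = ((-1) ^ (r - 1) * z) ^ k := by
  induction k generalizing n with
  | zero =>
    subst hn
    refine ⟨1, fun u v => rfl, ?_, ?_⟩
    · apply LinearMap.ext
      intro x
      funext i
      exact Fin.elim0 i
    · simp
  | succ k ih =>
    obtain ⟨Ta, hTa, hTar, hTad⟩ := ih (r * k) rfl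
    obtain ⟨Tb, hTb, hTbr, hTbd⟩ := ubad_mono_one (σ := σ) z hz r hr
    obtain ⟨T, Φ, hT, hTΦ, hdet⟩ := u_dsum (r * k) r Ta Tb hTa hTb
    obtain rfl : n = r * k + r := by rw [hn, Nat.mul_succ]
    have hpow := dsum_pow Ta Tb T Φ hTΦ
    refine ⟨T, hT, ?_, ?_⟩
    · apply LinearMap.ext
      intro y
      obtain ⟨x, rfl⟩ := Φ.surjective y
      rw [hpow, hTar, hTbr]
      show Φ (z • x.1, z • x.2) = z • Φ x
      rw [← map_smul]
      rfl
    · rw [hdet, hTad, hTbd, pow_succ]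

end std2

end Cfsg.Agent.Helper47.TI5954
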