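import Mathlib
import Cfsg.Agent.Helper90.HTDefs
import Cfsg.Agent.Helper47.HTHORTH

/-!
# CALL S5953, piece HTIB (helper47)

A totally isotropic subspace of a nondegenerate subspace has at most half its dimension.
-/

set_option autoImplicit false

namespace Cfsg.Agent.Helper47.HT5953

open Module Polynomial Cfsg.Agent.Helper90.HT

section geom2

variable {F : Type*} [Field F] {V : Type*} [AddCommGroup V] [Module F V] [FiniteDimensional F V]
  (σ : F →+* F) (h : V → V → F)

/-- HTIB (uses HORTH) -/
theorem ht_bound (hh : IsHerm σ h) (C W : Submodule F V) (hC : HNondegOn h C) (hW : W ≤ C)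
    (hTI : HTI h W) : 2 * finrank F W ≤ finrank F C := by
  obtain ⟨P, hP, hdim⟩ := ht_orth σ h hh C W hC hW
  have hWP : W ≤ P := fun w hw => (hP w).2 ⟨hW hw, fun w' hw' => hTI w hw w' hw'⟩
  have := Submodule.finrank_mono hWP
  omega

end geom2

end Cfsg.Agent.Helper47.HT5953
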