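import Mathlib

/-!
# S2719, piece SEMI: no semilinear similarity of a symmetric form of non-square determinant
squares to a scalar, if the fixed elements of the field automorphism are squares.
-/

set_option autoImplicit false

namespace Cfsg.Agent.Helper47.GmSEMI

open Matrix

/-- **SEMI** -/
theorem no_semi_involution {ι : Type*} [Fintype ι] [DecidableEq ι] {F : Type*} [Field F]
    (σ : F ≃+* F) (hσ2 : ∀ x, σ (σ x) = x) (hL : ∀ c : F, σ c = c → IsSquare c)
    (A J : Matrix ι ι F) (μ lam : F) (hμ : μ ≠ 0) (hJ : ¬ IsSquare J.det)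
    (hAJ : Aᵀ * J * A = μ • J.map σ) (hAA : A * A.map σ = lam • (1 : Matrix ι ι F))
    (hlam : lam * lam = μ * σ μ) (n : ℕ) (hcard : Fintype.card ι = 2 * n) : False := by
  have hD0 : J.det ≠ 0 := fun h => hJ (h ▸ ⟨0, by simp⟩)
  have hdJ : (J.map σ).det = σ J.det := (RingHom.map_det (σ : F →+* F) J).symm
  have hdA : (A.map σ).det = σ A.det := (RingHom.map_det (σ : F →+* F) A).symm
  have h1 : A.det * J.det * A.det = μ ^ (2 * n) * σ J.det := by
    have h := congrArg Matrix.det hAJ
    rw [Matrix.det_mul, Matrix.det_mul, Matrix.det_transpose, Matrix.det_smul, hdJ, hcard] at h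
    exact h
  have h2 : A.det * σ A.det = lam ^ (2 * n) := by
    have h := congrArg Matrix.det hAA
    rw [Matrix.det_mul, hdA, Matrix.det_smul, Matrix.det_one, mul_one, hcard] at h
    exact h
  have h3 : lam ^ (2 * n) = μ ^ n * σ μ ^ n := by
    rw [pow_mul, pow_two, hlam, mul_pow]
  have hμn : μ ^ n ≠ 0 := pow_ne_zero n hμ
  have hσμ : σ μ ≠ 0 := by
    intro h
    apply hμ
    have h' := congrArg σ h
    rw [hσ2, map_zero] at h'
    exact h'
  have hσμn : σ μ ^ n ≠ 0 := pow_ne_zero n hσμ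
  have hσD : σ J.det ≠ 0 := by
    intro h
    apply hD0
    have h' := congrArg σ h
    rw [hσ2, map_zero] at h'
    exact h'
  obtain ⟨x, hx⟩ : ∃ x, x = A.det / μ ^ n := ⟨_, rfl⟩
  have hxa : x * μ ^ n = A.det := by rw [hx]; field_simp
  have hσxa : σ x * σ μ ^ n = σ A.det := by rw [← hxa, map_mul, map_pow]
  have hxx : x * σ x = 1 := by
    have h4 : (x * σ x) * (μ ^ n * σ μ ^ n) = 1 * (μ ^ n * σ μ ^ n) := by
      have h5 : (x * μ ^ n) * (σ x * σ μ ^ n) = μ ^ n * σ μ ^ n := by rw [hxa, hσxa, h2, h3]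
      linear_combination h5
    exact mul_right_cancel₀ (mul_ne_zero hμn hσμn) h4
  have hx2 : x * x * J.det = σ J.det := by
    have h4 : (x * x * J.det) * μ ^ (2 * n) = σ J.det * μ ^ (2 * n) := by
      rw [mul_comm (σ J.det), ← h1, ← hxa]
      ring
    exact mul_right_cancel₀ (pow_ne_zero _ hμ) h4
  by_cases hx1 : x = -1
  · apply hJ
    apply hL
    rw [hx1] at hx2
    rw [← hx2]
    ring
  · have hy : 1 + σ x ≠ 0 := by
      intro h
      apply hx1
      have h5 : σ x = -1 := by linear_combination h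
      have h' := congrArg σ h5
      rw [hσ2, map_neg, map_one] at h'
      exact h'
    have hσy : σ (1 + σ x) = x * (1 + σ x) := by
      rw [map_add, map_one, hσ2]
      linear_combination -hxx
    have hx0 : x ≠ 0 := left_ne_zero_of_mul_eq_one hxx
    have hfix : σ (J.det / (1 + σ x) ^ 2) = J.det / (1 + σ x) ^ 2 := by
      rw [map_div₀, map_pow, hσy, ← hx2]
      field_simp
    obtain ⟨e, he⟩ := hL _ hfix
    apply hJ
    refine ⟨e * (1 + σ x), ?_⟩
    rw [div_eq_iff (pow_ne_zero 2 hy)] at he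
    rw [he]
    ring

end Cfsg.Agent.Helper47.GmSEMI
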