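import Mathlib
import Cfsg.Prelude.Def_GeometricClasses
import Cfsg.Prelude.Def_Classical
import Cfsg.Agent.Helper98.ELPDefs

set_option autoImplicit false

/-!
# CALL ELP piece APP (helper47): the action of the Siegel matrix.
-/

namespace Cfsg.Agent.Helper47.ELP

open Matrix Cfsg.Agent.Helper98.ELP
open scoped MatrixGroups

variable {n : Type} [Fintype n] [DecidableEq n] {F : Type*} [Field F]

theorem siegM_mulVec_inl (T : Matrix n n F) (v : n ⊕ n → F) (i : n) :
    (siegM T *ᵥ v) (.inl i) = v (.inl i) + ((T - Tᵀ) *ᵥ (fun j => v (.inr j))) i := by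
  have hv : v = Sum.elim (fun j => v (.inl j)) (fun j => v (.inr j)) := by
    funext x; cases x <;> rfl
  conv_lhs => rw [hv]
  rw [siegM, Matrix.fromBlocks_mulVec]
  simp [Matrix.one_mulVec]

theorem siegM_mulVec_inr (T : Matrix n n F) (v : n ⊕ n → F) (i : n) :
    (siegM T *ᵥ v) (.inr i) = v (.inr i) := by
  have hv : v = Sum.elim (fun j => v (.inl j)) (fun j => v (.inr j)) := by
    funext x; cases x <;> rfl
  conv_lhs => rw [hv]
  rw [siegM, Matrix.fromBlocks_mulVec]
  simp [Matrix.one_mulVec]

end Cfsg.Agent.Helper47.ELP
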