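import Mathlib
import Cfsg.Prelude.Def_GeometricClasses
import Cfsg.Prelude.Def_Classical
import Cfsg.Agent.Helper98.ELPDefs

set_option autoImplicit false

/-!
# CALL ELP piece T0KER (helper47): `t0 - t0ᵀ` kills only vectors vanishing on the first
`2 (d / 2)` coordinates.
-/

namespace Cfsg.Agent.Helper47.ELP

open Matrix Cfsg.Agent.Helper98.ELP
open scoped MatrixGroups

variable {n : Type} [Fintype n] [DecidableEq n] {F : Type*} [Field F]

theorem t0_ker (d : ℕ) (u : Fin d → F) (h : (t0 d F - (t0 d F)ᵀ) *ᵥ u = 0) (b : Fin d)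
    (hb : (b : ℕ) < 2 * (d / 2)) : u b = 0 := by
  have hd : 2 * (d / 2) ≤ d := Nat.mul_div_le d 2
  by_cases hbk : (b : ℕ) < d / 2
  · have ha : (b : ℕ) + d / 2 < d := by omega
    have h1 := congrFun h ⟨(b : ℕ) + d / 2, ha⟩
    simp only [Matrix.mulVec, dotProduct, Pi.zero_apply] at h1
    rw [Finset.sum_eq_single b] at h1
    · have h2 : (t0 d F - (t0 d F)ᵀ) ⟨(b : ℕ) + d / 2, ha⟩ b = -1 := by
        simp only [Matrix.sub_apply, Matrix.transpose_apply, t0]
        rw [if_neg (by omega), if_pos ⟨hbk, trivial⟩]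
        simp
      rw [h2] at h1
      simpa using h1
    · intro c _ hc
      have h2 : (t0 d F - (t0 d F)ᵀ) ⟨(b : ℕ) + d / 2, ha⟩ c = 0 := by
        simp only [Matrix.sub_apply, Matrix.transpose_apply, t0]
        rw [if_neg (by omega),
          if_neg (by rintro ⟨-, h3⟩; exact hc (Fin.ext (by omega)))]
        simp
      rw [h2, zero_mul]
    · intro hb'
      exact absurd (Finset.mem_univ b) hb'
  · have ha : (b : ℕ) - d / 2 < d := by omega
    have h1 := congrFun h ⟨(b : ℕ) - d / 2, ha⟩
    simp only [Matrix.mulVec, dotProduct, Pi.zero_apply] at h1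
    rw [Finset.sum_eq_single b] at h1
    · have h2 : (t0 d F - (t0 d F)ᵀ) ⟨(b : ℕ) - d / 2, ha⟩ b = 1 := by
        simp only [Matrix.sub_apply, Matrix.transpose_apply, t0]
        rw [if_pos (by omega), if_neg (by omega)]
        simp
      rw [h2] at h1
      simpa using h1
    · intro c _ hc
      have h2 : (t0 d F - (t0 d F)ᵀ) ⟨(b : ℕ) - d / 2, ha⟩ c = 0 := by
        simp only [Matrix.sub_apply, Matrix.transpose_apply, t0]
        rw [if_neg (by rintro ⟨-, h3⟩; exact hc (Fin.ext (by omega))),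
          if_neg (by omega)]
        simp
      rw [h2, zero_mul]
    · intro hb'
      exact absurd (Finset.mem_univ b) hb'

end Cfsg.Agent.Helper47.ELP
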