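import Mathlib
import Cfsg.Agent.Helper30.UGDefs
import Cfsg.Agent.Helper42.UGA6

set_option autoImplicit false

/-!
Helper library (helper47): piece CJ1 of CALL S2708 (helper30), matrix core: from a unitary
conjugacy of two descent data to a congruence of the Gram matrices over the fixed field.
-/

namespace Cfsg.Agent.Helper47.UGCJ1

open Matrix Cfsg.Agent.Helper44.PSLn Cfsg.Agent.Helper44.PSUn Cfsg.Agent.Helper43.GraphAut
open Cfsg.Agent.Helper30.UG

universe u v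

variable {F : Type u} [Field F] [Fintype F] {q n : ℕ}

omit [Fintype F] in
/-- cancelling an invertible matrix from a scalar identity -/
theorem smul_cancel_of_det (hn : 1 ≤ n) (M : Mn n F) (hM : M.det ≠ 0) (s s' : F)
    (h : s • M = s' • M) : s = s' := by
  have h1 : M * M⁻¹ = 1 := Matrix.mul_nonsing_inv M (isUnit_iff_ne_zero.mpr hM)
  have h2 := congrArg (fun Z => Z * M⁻¹) h
  simp only [Matrix.smul_mul, h1] at h2
  exact lang_smul_one_inj hn s s' h2

theorem gl_det_ne_zero {R : Type*} [Field R] (M : GL (Fin n) R) : (M : Mn n R).det ≠ 0 :=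
  ((Matrix.isUnit_iff_isUnit_det _).mp (Units.isUnit M)).ne_zero

theorem ug_tau_order' (hF : Fintype.card F = q ^ 2) : orderOf (ulang_tau hF) = 2 := by
  have : Fact (Nat.Prime 2) := ⟨Nat.prime_two⟩
  apply orderOf_eq_prime
  · apply RingEquiv.ext
    intro a
    rw [pow_two]
    exact ulang_tau_tau hF a
  · exact ulang_tau_ne_one hF

section Dict

variable {F₀ : Type v} [Field F₀] (hF : Fintype.card F = q ^ 2) (ι : F₀ →+* F)
  (hι : ∀ x, ulang_tau hF x = x ↔ x ∈ Set.range ι)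

include hι

/-- the matrix core of CJ1 -/
theorem cj1_matrix (hn : 1 ≤ n) (G G' H K K' Ki' : Mn n F) (B B' : Mn n F₀)
    (hK' : K' * Ki' = 1) (hdetH : H.det ≠ 0) (hdetK : K.det ≠ 0) (hdetB : B.det ≠ 0)
    (a a' u u' c : F) (ha : a ≠ 0) (hu : u ≠ 0)
    (h1 : (a • G) * K.map (ulang_tau hF) = K) (h2 : (a' • G') * K'.map (ulang_tau hF) = K')
    (h5 : Kᵀ * K.map (ulang_tau hF) = u • B.map ι)
    (h6 : K'ᵀ * K'.map (ulang_tau hF) = u' • B'.map ι)
    (h3 : G' * H.map (ulang_tau hF) = c • (H * G)) (h4 : Hᵀ * H.map (ulang_tau hF) = 1) :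
    ∃ (x0 : Mn n F₀) (s0 : F₀), x0.det ≠ 0 ∧ B = s0 • (x0ᵀ * B' * x0) := by
  have hK'' : Ki' * K' = 1 := mul_eq_one_comm.mp hK'
  obtain ⟨h0, hh0def⟩ : ∃ h0 : Mn n F, h0 = Ki' * H * K := ⟨_, rfl⟩
  -- (i)
  have e1 : K' * h0 = H * K := by
    rw [hh0def, ← Matrix.mul_assoc, ← Matrix.mul_assoc, hK', Matrix.one_mul]
  -- (ii)
  have e2 : K'.map (ulang_tau hF) * h0.map (ulang_tau hF) =
      H.map (ulang_tau hF) * K.map (ulang_tau hF) := by
    rw [← ug_map_mul, ← ug_map_mul, e1]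
  have hGK : G * K.map (ulang_tau hF) = a⁻¹ • K := by
    rw [Matrix.smul_mul] at h1
    have h7 : a⁻¹ • (a • (G * K.map (ulang_tau hF))) = a⁻¹ • K := by rw [h1]
    rw [inv_smul_smul₀ ha] at h7
    exact h7
  -- (iii)
  obtain ⟨c1, hc1def⟩ : ∃ c1 : F, c1 = a' * c * a⁻¹ := ⟨_, rfl⟩
  have e3 : K' * h0.map (ulang_tau hF) = c1 • (K' * h0) := by
    calc K' * h0.map (ulang_tau hF)
        = (a' • G') * K'.map (ulang_tau hF) * h0.map (ulang_tau hF) := by rw [h2]
      _ = (a' • G') * (H.map (ulang_tau hF) * K.map (ulang_tau hF)) := by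
          rw [Matrix.mul_assoc, e2]
      _ = a' • ((G' * H.map (ulang_tau hF)) * K.map (ulang_tau hF)) := by
          rw [Matrix.smul_mul, Matrix.mul_assoc]
      _ = a' • ((c • (H * G)) * K.map (ulang_tau hF)) := by rw [h3]
      _ = a' • (c • (H * (G * K.map (ulang_tau hF)))) := by
          rw [Matrix.smul_mul, Matrix.mul_assoc]
      _ = a' • (c • (H * (a⁻¹ • K))) := by rw [hGK]
      _ = c1 • (H * K) := by
          rw [Matrix.mul_smul, smul_smul, smul_smul, hc1def]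
      _ = c1 • (K' * h0) := by rw [e1]
  -- (iv)
  have e4 : h0.map (ulang_tau hF) = c1 • h0 := by
    calc h0.map (ulang_tau hF) = Ki' * (K' * h0.map (ulang_tau hF)) := by
          rw [← Matrix.mul_assoc, hK'', Matrix.one_mul]
      _ = Ki' * (c1 • (K' * h0)) := by rw [e3]
      _ = c1 • h0 := by
          rw [Matrix.mul_smul, ← Matrix.mul_assoc, hK'', Matrix.one_mul]
  have hdetKi' : Ki'.det ≠ 0 := by
    intro h
    have h7 := congrArg Matrix.det hK'
    rw [Matrix.det_mul, h, mul_zero, Matrix.det_one] at h7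
    exact zero_ne_one h7
  have hdeth0 : h0.det ≠ 0 := by
    rw [hh0def, Matrix.det_mul, Matrix.det_mul]
    exact mul_ne_zero (mul_ne_zero hdetKi' hdetH) hdetK
  -- (v)
  have e5 : ulang_tau hF c1 * c1 = 1 := by
    have h7 : (ulang_tau hF c1 * c1) • h0 = (1 : F) • h0 := by
      rw [one_smul, ← smul_smul, ← e4, ← ug_map_smul, ← e4, ug_map_map]
    exact smul_cancel_of_det hn h0 hdeth0 _ _ h7
  -- (vi)
  obtain ⟨b, hb0, hb⟩ := lang_h90_scalar (ulang_tau hF) 2 (ug_tau_order' hF) (by norm_num) c1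
    (by
      simp only [twR, RingEquiv.coe_toRingHom, map_one, mul_one]
      rw [mul_comm]
      exact e5)
  -- (vii)
  have e7 : (b • h0).map (ulang_tau hF) = b • h0 := by
    rw [ug_map_smul, e4, smul_smul, mul_comm, hb]
  obtain ⟨x0, hx0⟩ := ug_iota_pullback hF ι hι (b • h0) e7
  -- (viii)
  have hdetx0 : x0.det ≠ 0 := by
    intro h
    have h7 := ug_iota_det ι x0
    rw [hx0, h, map_zero, Matrix.det_smul] at h7
    exact mul_ne_zero (pow_ne_zero _ hb0) hdeth0 h7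
  -- (ix)
  have e9 : h0ᵀ * (K'ᵀ * K'.map (ulang_tau hF)) * h0.map (ulang_tau hF) =
      Kᵀ * K.map (ulang_tau hF) := by
    have h7 : h0ᵀ * K'ᵀ = Kᵀ * Hᵀ := by
      rw [← Matrix.transpose_mul, ← Matrix.transpose_mul, e1]
    calc h0ᵀ * (K'ᵀ * K'.map (ulang_tau hF)) * h0.map (ulang_tau hF)
        = (h0ᵀ * K'ᵀ) * (K'.map (ulang_tau hF) * h0.map (ulang_tau hF)) := by
          simp only [Matrix.mul_assoc]
      _ = (Kᵀ * Hᵀ) * (H.map (ulang_tau hF) * K.map (ulang_tau hF)) := by rw [h7, e2]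
      _ = Kᵀ * (Hᵀ * H.map (ulang_tau hF)) * K.map (ulang_tau hF) := by
          simp only [Matrix.mul_assoc]
      _ = Kᵀ * K.map (ulang_tau hF) := by rw [h4, Matrix.mul_one]
  -- (x)
  obtain ⟨Y, hYdef⟩ : ∃ Y : Mn n F₀, Y = x0ᵀ * B' * x0 := ⟨_, rfl⟩
  have hYmap : Y.map ι = (b • h0)ᵀ * B'.map ι * (b • h0) := by
    rw [hYdef, ug_iota_mul, ug_iota_mul, ug_iota_transpose, hx0]
  have e10 : (u' * c1) • Y.map ι = (b * b * u) • B.map ι := by
    rw [h6, h5, e4] at e9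
    rw [hYmap, mul_smul (b * b) u, ← e9]
    simp only [Matrix.transpose_smul, Matrix.smul_mul, Matrix.mul_smul, smul_smul]
    congr 1
    ring
  obtain ⟨v, hvdef⟩ : ∃ v : F, v = (b * b * u)⁻¹ * (u' * c1) := ⟨_, rfl⟩
  have hbbu : b * b * u ≠ 0 := mul_ne_zero (mul_ne_zero hb0 hb0) hu
  have e11 : B.map ι = v • Y.map ι := by
    rw [hvdef, ← smul_smul, e10, inv_smul_smul₀ hbbu]
  -- (xi)
  have e12 : ulang_tau hF v = v := by
    have h7 : B.map ι = ulang_tau hF v • Y.map ι := by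
      have h8 := congrArg (fun Z : Mn n F => Z.map (ulang_tau hF)) e11
      simp only [ug_map_smul, ug_iota_fixed hF ι hι] at h8
      exact h8
    have h9 : ulang_tau hF v • B.map ι = v • B.map ι := by
      calc ulang_tau hF v • B.map ι = ulang_tau hF v • (v • Y.map ι) := by rw [← e11]
        _ = v • (ulang_tau hF v • Y.map ι) := by rw [smul_comm]
        _ = v • B.map ι := by rw [← h7]
    have hdetBι : (B.map ι).det ≠ 0 := by
      rw [ug_iota_det]
      intro h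
      exact hdetB (ι.injective (by rw [h, map_zero]))
    exact smul_cancel_of_det hn _ hdetBι _ _ h9
  -- (xii)
  obtain ⟨s0, hs0⟩ := (hι v).mp e12
  refine ⟨x0, s0, hdetx0, ?_⟩
  apply ug_iota_inj ι
  rw [ug_iota_smul, hs0, ← hYdef]
  exact e11

/-- **CJ1, core**: unitary conjugacy of the descent data gives conjugacy of the graph
automorphisms over the fixed field. -/
theorem ug_conj_mp_core (hn : 3 ≤ n) (g g' : ↥(Cfsg.GU n F q)) (k k' : GL (Fin n) F)
    (B B' : GL (Fin n) F₀) (hd : UDat hF ι g k B) (hd' : UDat hF ι g' k' B')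
    (h : ∃ (h : ↥(Cfsg.GU n F q)) (c : F),
        ((g' : GL (Fin n) F) : Mn n F) * ((h : GL (Fin n) F) : Mn n F).map (ulang_tau hF)
          = c • (((h : GL (Fin n) F) : Mn n F) * ((g : GL (Fin n) F) : Mn n F))) :
    Cfsg.IsConjUnder (Cfsg.inndiagPSL n F₀) (grph B) (grph B') := by
  obtain ⟨a, u, ha, hu, h1, h5⟩ := hd
  obtain ⟨a', u', -, -, h2, h6⟩ := hd'
  obtain ⟨hh, c, h3⟩ := h
  obtain ⟨x0, s0, hx0, hB⟩ := cj1_matrix hF ι hι (by omega) _ _ _ _ _
    ((k'⁻¹ : GL (Fin n) F) : Mn n F) _ _ (Units.mul_inv k') (gl_det_ne_zero (hh : GL (Fin n) F))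
    (gl_det_ne_zero k) (gl_det_ne_zero B) a a' u u' c ha hu h1 h2 h5 h6 h3 (ug_GU hF hh)
  apply isConjUnder_symm
  rw [isConjUnder_grph (by omega) B' B]
  exact ⟨Matrix.GeneralLinearGroup.mkOfDetNeZero x0 hx0, s0, hB⟩

/-- CJ1 -/
theorem ug_conj_mp (p : ℕ) [Fact p.Prime] [CharP F p] (hn : 3 ≤ n) (h32 : ¬ (n = 3 ∧ q = 2))
    (g g' : ↥(Cfsg.GU n F q)) (k k' : GL (Fin n) F) (B B' : GL (Fin n) F₀)
    (hd : UDat hF ι g k B) (hd' : UDat hF ι g' k' B')
    (h : Cfsg.IsConjUnder (Cfsg.inndiagPSU n F q) (ugr hF g) (ugr hF g')) :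
    Cfsg.IsConjUnder (Cfsg.inndiagPSL n F₀) (grph B) (grph B') :=
  ug_conj_mp_core hF ι hι hn g g' k k' B B' hd hd'
    ((Cfsg.Agent.Helper42.UGA6.ug_isConj hF p hn h32 g g').mp h)

end Dict

end Cfsg.Agent.Helper47.UGCJ1
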