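import Mathlib
import Cfsg.Agent.Helper30.UGDefs
import Cfsg.Agent.Helper47.UGCJ1

set_option autoImplicit false

/-!
Helper library (helper47): piece CJ2 of CALL S2708 (helper30), matrix core: from a congruence
of the Gram matrices over the fixed field to a unitary conjugacy of the descent data.
-/

namespace Cfsg.Agent.Helper47.UGCJ2

open Matrix Cfsg.Agent.Helper44.PSLn Cfsg.Agent.Helper44.PSUn Cfsg.Agent.Helper43.GraphAut
open Cfsg.Agent.Helper30.UG Cfsg.Agent.Helper47.UGCJ1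

universe u v

variable {F : Type u} [Field F] [Fintype F] {q n : ℕ}

section Dict

variable {F₀ : Type v} [Field F₀] (hF : Fintype.card F = q ^ 2) (ι : F₀ →+* F)
  (hι : ∀ x, ulang_tau hF x = x ↔ x ∈ Set.range ι)

include hι

/-- the matrix core of CJ2 -/
theorem cj2_matrix (hn : 1 ≤ n) (G G' K K' Ki : Mn n F) (B B' x xi : Mn n F₀)
    (hK : K * Ki = 1) (hx : x * xi = 1) (hdetB' : B'.det ≠ 0)
    (a a' u u' : F) (c₀ : F₀) (ha : a ≠ 0) (ha' : a' ≠ 0) (hu : u ≠ 0) (hu' : u' ≠ 0)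
    (h1 : (a • G) * K.map (ulang_tau hF) = K) (h2 : (a' • G') * K'.map (ulang_tau hF) = K')
    (h5 : Kᵀ * K.map (ulang_tau hF) = u • B.map ι)
    (h6 : K'ᵀ * K'.map (ulang_tau hF) = u' • B'.map ι)
    (hB' : B' = c₀ • (xᵀ * B * x)) :
    ∃ (Hm : Mn n F) (c : F), Hmᵀ * Hm.map (ulang_tau hF) = 1 ∧
      G' * Hm.map (ulang_tau hF) = c • (Hm * G) := by
  have : Nonempty (Fin n) := ⟨⟨0, by omega⟩⟩
  have hKi : Ki * K = 1 := mul_eq_one_comm.mp hK
  have hc₀ : c₀ ≠ 0 := by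
    intro h
    apply hdetB'
    rw [hB', h, zero_smul, Matrix.det_zero]
  have hιc₀ : ι c₀ ≠ 0 := by
    intro h
    exact hc₀ (ι.injective (by rw [h, map_zero]))
  have hτc₀ : ulang_tau hF (ι c₀) = ι c₀ := (hι _).mpr ⟨c₀, rfl⟩
  -- symmetry defects
  have hstar : ∀ (K₁ : Mn n F) (B₁ : Mn n F₀) (u₁ : F),
      K₁ᵀ * K₁.map (ulang_tau hF) = u₁ • B₁.map ι →
      ulang_tau hF u₁ • B₁.map ι = u₁ • (B₁ᵀ).map ι := by
    intro K₁ B₁ u₁ h
    have e1 : (K₁.map (ulang_tau hF))ᵀ * K₁ = ulang_tau hF u₁ • B₁.map ι := by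
      have h7 := congrArg (fun Z : Mn n F => Z.map (ulang_tau hF)) h
      simp only [ug_map_mul, ug_map_smul, ug_map_map, ug_map_transpose,
        ug_iota_fixed hF ι hι] at h7
      exact h7
    have e2 : (K₁.map (ulang_tau hF))ᵀ * K₁ = u₁ • (B₁ᵀ).map ι := by
      have h7 := congrArg Matrix.transpose h
      rw [Matrix.transpose_mul, Matrix.transpose_transpose, Matrix.transpose_smul,
        ← ug_iota_transpose] at h7
      exact h7
    rw [← e1, e2]
  have hs := hstar K B u h5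
  have hs' := hstar K' B' u' h6
  have hB'map : B'.map ι = ι c₀ • ((x.map ι)ᵀ * B.map ι * x.map ι) := by
    rw [hB', ug_iota_smul, ug_iota_mul, ug_iota_mul, ug_iota_transpose]
  have hB'tmap : (B'ᵀ).map ι = ι c₀ • ((x.map ι)ᵀ * (Bᵀ).map ι * x.map ι) := by
    rw [hB', Matrix.transpose_smul, Matrix.transpose_mul, Matrix.transpose_mul,
      Matrix.transpose_transpose, ug_iota_smul, ug_iota_mul, ug_iota_mul, ug_iota_transpose,
      Matrix.mul_assoc]
  have e3 : u • (B'ᵀ).map ι = ulang_tau hF u • B'.map ι := by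
    rw [hB'tmap, hB'map, smul_comm u, smul_comm (ulang_tau hF u)]
    congr 1
    rw [← Matrix.smul_mul, ← Matrix.mul_smul, ← hs, Matrix.mul_smul, Matrix.smul_mul]
  have hdetB'ι : (B'.map ι).det ≠ 0 := by
    rw [ug_iota_det]
    intro h
    exact hdetB' (ι.injective (by rw [h, map_zero]))
  have e4 : u' * ulang_tau hF u = u * ulang_tau hF u' := by
    apply smul_cancel_of_det hn _ hdetB'ι
    rw [← smul_smul, ← e3, ← smul_smul, hs', smul_comm]
  obtain ⟨w, hwdef⟩ : ∃ w : F, w = u / (u' * ι c₀) := ⟨_, rfl⟩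
  have hw0 : w ≠ 0 := by
    rw [hwdef]
    exact div_ne_zero hu (mul_ne_zero hu' hιc₀)
  have hτu' : ulang_tau hF u' ≠ 0 := by
    intro h
    apply hu'
    have h7 := congrArg (ulang_tau hF) h
    rw [ulang_tau_tau, map_zero] at h7
    exact h7
  have hwfix : ulang_tau hF w = w := by
    rw [hwdef, map_div₀, map_mul, hτc₀]
    rw [div_eq_div_iff (mul_ne_zero hτu' hιc₀) (mul_ne_zero hu' hιc₀)]
    linear_combination (ι c₀) * e4
  obtain ⟨b, hb0, hb⟩ := lang_norm_surj (ulang_tau hF) 2 (ug_tau_order' hF) (by norm_num) w hw0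
    hwfix
  have hbb : b * ulang_tau hF b = w := by
    simp only [twR, RingEquiv.coe_toRingHom, map_one, mul_one] at hb
    exact hb
  obtain ⟨Xi, hXidef⟩ : ∃ Xi : Mn n F, Xi = xi.map ι := ⟨_, rfl⟩
  have hXifix : Xi.map (ulang_tau hF) = Xi := by
    rw [hXidef]
    exact ug_iota_fixed hF ι hι xi
  obtain ⟨Z, hZdef⟩ : ∃ Z : Mn n F, Z = K' * Xi * Ki.map (ulang_tau hF) := ⟨_, rfl⟩
  obtain ⟨Hm, hHmdef⟩ : ∃ Hm : Mn n F, Hm = b • (K' * Xi * Ki) := ⟨_, rfl⟩
  have hHmt : Hm.map (ulang_tau hF) =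
      ulang_tau hF b • (K'.map (ulang_tau hF) * Xi * Ki.map (ulang_tau hF)) := by
    rw [hHmdef, ug_map_smul, ug_map_mul, ug_map_mul, hXifix]
  have hHmT : Hmᵀ = b • (Kiᵀ * (Xiᵀ * K'ᵀ)) := by
    rw [hHmdef, Matrix.transpose_smul, Matrix.transpose_mul, Matrix.transpose_mul]
  -- the Gram matrix of `xi`
  have hxx : Xiᵀ * B'.map ι * Xi = ι c₀ • B.map ι := by
    have h7 : xiᵀ * B' * xi = c₀ • B := by
      rw [hB', Matrix.mul_smul, Matrix.smul_mul]
      congr 1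
      calc xiᵀ * (xᵀ * B * x) * xi = (xiᵀ * xᵀ) * B * (x * xi) := by
            simp only [Matrix.mul_assoc]
        _ = B := by
            rw [← Matrix.transpose_mul, hx, Matrix.transpose_one, Matrix.one_mul,
              Matrix.mul_one]
    rw [hXidef, ← ug_iota_transpose, ← ug_iota_mul, ← ug_iota_mul, h7, ug_iota_smul]
  have hKK : Kiᵀ * B.map ι * Ki.map (ulang_tau hF) = u⁻¹ • (1 : Mn n F) := by
    have h7 : u • (Kiᵀ * B.map ι * Ki.map (ulang_tau hF)) = 1 := by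
      calc u • (Kiᵀ * B.map ι * Ki.map (ulang_tau hF))
          = Kiᵀ * (u • B.map ι) * Ki.map (ulang_tau hF) := by
            rw [Matrix.mul_smul, Matrix.smul_mul]
        _ = (Kiᵀ * Kᵀ) * (K.map (ulang_tau hF) * Ki.map (ulang_tau hF)) := by
            rw [← h5]
            simp only [Matrix.mul_assoc]
        _ = 1 := by
            rw [← Matrix.transpose_mul, hK, ← ug_map_mul, hK, Matrix.transpose_one,
              ug_map_one, Matrix.one_mul]
    rw [← h7, inv_smul_smul₀ hu]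
  have hGK : G * K.map (ulang_tau hF) = a⁻¹ • K := by
    rw [Matrix.smul_mul] at h1
    have h7 : a⁻¹ • (a • (G * K.map (ulang_tau hF))) = a⁻¹ • K := by rw [h1]
    rw [inv_smul_smul₀ ha] at h7
    exact h7
  have hG'K' : G' * K'.map (ulang_tau hF) = a'⁻¹ • K' := by
    rw [Matrix.smul_mul] at h2
    have h7 : a'⁻¹ • (a' • (G' * K'.map (ulang_tau hF))) = a'⁻¹ • K' := by rw [h2]
    rw [inv_smul_smul₀ ha'] at h7
    exact h7
  have hKiG : Ki * G = a⁻¹ • Ki.map (ulang_tau hF) := by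
    calc Ki * G = Ki * (G * K.map (ulang_tau hF)) * Ki.map (ulang_tau hF) := by
          rw [Matrix.mul_assoc, Matrix.mul_assoc, ← ug_map_mul, hK, ug_map_one, Matrix.mul_one]
      _ = a⁻¹ • Ki.map (ulang_tau hF) := by
          rw [hGK, Matrix.mul_smul, hKi, Matrix.smul_mul, Matrix.one_mul]
  refine ⟨Hm, ulang_tau hF b * a'⁻¹ * (b * a⁻¹)⁻¹, ?_, ?_⟩
  · -- unitary
    rw [hHmT, hHmt]
    have h7 : Kiᵀ * (Xiᵀ * K'ᵀ) * (K'.map (ulang_tau hF) * Xi * Ki.map (ulang_tau hF)) =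
        (u' * ι c₀ * u⁻¹) • (1 : Mn n F) := by
      calc Kiᵀ * (Xiᵀ * K'ᵀ) * (K'.map (ulang_tau hF) * Xi * Ki.map (ulang_tau hF))
          = Kiᵀ * (Xiᵀ * (K'ᵀ * K'.map (ulang_tau hF)) * Xi) * Ki.map (ulang_tau hF) := by
            simp only [Matrix.mul_assoc]
        _ = Kiᵀ * (u' • (Xiᵀ * B'.map ι * Xi)) * Ki.map (ulang_tau hF) := by
            rw [h6, Matrix.mul_smul, Matrix.smul_mul]
        _ = (u' * ι c₀) • (Kiᵀ * B.map ι * Ki.map (ulang_tau hF)) := by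
            rw [hxx, smul_smul, Matrix.mul_smul, Matrix.smul_mul]
        _ = (u' * ι c₀ * u⁻¹) • (1 : Mn n F) := by
            rw [hKK, smul_smul]
    rw [Matrix.smul_mul, Matrix.mul_smul, h7, smul_smul, smul_smul]
    have h8 : b * ulang_tau hF b * (u' * ι c₀ * u⁻¹) = 1 := by
      rw [hbb, hwdef]
      field_simp
    rw [h8, one_smul]
  · -- the relation
    have hL : G' * Hm.map (ulang_tau hF) = (ulang_tau hF b * a'⁻¹) • Z := by
      rw [hHmt, hZdef, Matrix.mul_smul, ← Matrix.mul_assoc, ← Matrix.mul_assoc, hG'K',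
        Matrix.smul_mul, Matrix.smul_mul, smul_smul]
    have hR : Hm * G = (b * a⁻¹) • Z := by
      rw [hHmdef, hZdef, Matrix.smul_mul, Matrix.mul_assoc, hKiG, Matrix.mul_smul, smul_smul]
    have hba : b * a⁻¹ ≠ 0 := mul_ne_zero hb0 (inv_ne_zero ha)
    rw [hL, hR, smul_smul, mul_assoc, inv_mul_cancel₀ hba, mul_one]

/-- **CJ2, core**: conjugacy of the graph automorphisms over the fixed field gives a unitary
conjugacy of the descent data. -/
theorem ug_conj_mpr_core (hn : 3 ≤ n) (g g' : ↥(Cfsg.GU n F q)) (k k' : GL (Fin n) F)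
    (B B' : GL (Fin n) F₀) (hd : UDat hF ι g k B) (hd' : UDat hF ι g' k' B')
    (h : Cfsg.IsConjUnder (Cfsg.inndiagPSL n F₀) (grph B) (grph B')) :
    ∃ (h : ↥(Cfsg.GU n F q)) (c : F),
        ((g' : GL (Fin n) F) : Mn n F) * ((h : GL (Fin n) F) : Mn n F).map (ulang_tau hF)
          = c • (((h : GL (Fin n) F) : Mn n F) * ((g : GL (Fin n) F) : Mn n F)) := by
  obtain ⟨a, u, ha, hu, h1, h5⟩ := hd
  obtain ⟨a', u', ha', hu', h2, h6⟩ := hd'
  obtain ⟨x, c₀, hB'⟩ := (isConjUnder_grph (by omega) B B').mp h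
  obtain ⟨Hm, c, hU, hrel⟩ := cj2_matrix hF ι hι (by omega) _ _ _ _
    ((k⁻¹ : GL (Fin n) F) : Mn n F) _ _ _ ((x⁻¹ : GL (Fin n) F₀) : Mn n F₀) (Units.mul_inv k)
    (Units.mul_inv x) (gl_det_ne_zero B') a a' u u' c₀ ha ha' hu hu' h1 h2 h5 h6 hB'
  have hdet : Hm.det ≠ 0 := by
    intro h0
    have h7 := congrArg Matrix.det hU
    rw [Matrix.det_mul, Matrix.det_transpose, h0, zero_mul, Matrix.det_one] at h7
    exact zero_ne_one h7
  have hmem : Matrix.GeneralLinearGroup.mkOfDetNeZero Hm hdet ∈ Cfsg.GU n F q :=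
    (ug_mem_GU hF _).mpr hU
  exact ⟨⟨Matrix.GeneralLinearGroup.mkOfDetNeZero Hm hdet, hmem⟩, c, hrel⟩

/-- CJ2 -/
theorem ug_conj_mpr (p : ℕ) [Fact p.Prime] [CharP F p] (hn : 3 ≤ n) (h32 : ¬ (n = 3 ∧ q = 2))
    (g g' : ↥(Cfsg.GU n F q)) (k k' : GL (Fin n) F) (B B' : GL (Fin n) F₀)
    (hd : UDat hF ι g k B) (hd' : UDat hF ι g' k' B')
    (h : Cfsg.IsConjUnder (Cfsg.inndiagPSL n F₀) (grph B) (grph B')) :
    Cfsg.IsConjUnder (Cfsg.inndiagPSU n F q) (ugr hF g) (ugr hF g') :=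
  (Cfsg.Agent.Helper42.UGA6.ug_isConj hF p hn h32 g g').mpr
    (ug_conj_mpr_core hF ι hι hn g g' k k' B B' hd hd' h)

end Dict

end Cfsg.Agent.Helper47.UGCJ2
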