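import Mathlib
import Cfsg.Agent.Helper90.HTDefs

/-!
# Tools for the finite-field pieces of CALL S5953 (helper47)

`F` a finite field with `q ^ 2` elements: `q ≥ 2`, a generator of the unit group of order
`(q - 1) * (q + 1)`, and the norm `w * σ w = w ^ (q + 1)`.
-/

set_option autoImplicit false

namespace Cfsg.Agent.Helper47.HTF

variable {F : Type*} [Field F] [Fintype F]

theorem two_le_q (q : ℕ) (hq : Fintype.card F = q ^ 2) : 2 ≤ q := by
  have h1 : 1 < Fintype.card F := Fintype.one_lt_card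
  rw [hq] at h1
  by_contra hlt
  have hq1 : q ≤ 1 := by omega
  have : q ^ 2 ≤ 1 ^ 2 := Nat.pow_le_pow_left hq1 2
  omega

theorem exists_gen (q : ℕ) (hq : Fintype.card F = q ^ 2) :
    ∃ g : Fˣ, orderOf g = (q - 1) * (q + 1) ∧ ∀ x : F, x ≠ 0 → ∃ k : ℕ, ((g ^ k : Fˣ) : F) = x := by
  classical
  have hq2 := two_le_q q hq
  obtain ⟨g, hg⟩ := IsCyclic.exists_monoid_generator (α := Fˣ)
  refine ⟨g, ?_, fun x hx => ?_⟩
  · rw [orderOf_eq_card_of_forall_mem_powers hg, Nat.card_eq_fintype_card, Fintype.card_units, hq]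
    obtain ⟨k, rfl⟩ : ∃ k, q = k + 1 := ⟨q - 1, by omega⟩
    have : (k + 1) ^ 2 = (k + 1 - 1) * (k + 1 + 1) + 1 := by
      simp only [Nat.add_sub_cancel]; ring
    rw [this, Nat.add_sub_cancel]
  · obtain ⟨k, hk⟩ := (Submonoid.mem_powers_iff (Units.mk0 x hx) g).1 (hg (Units.mk0 x hx))
    refine ⟨k, ?_⟩
    rw [hk]; rfl

omit [Fintype F] in
theorem norm_eq (q : ℕ) (σ : F →+* F) (hσ : ∀ a, σ a = a ^ q) (w : F) :
    w * σ w = w ^ (q + 1) := by
  rw [hσ, pow_succ, mul_comm]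

/-- the `p`-part splitting of a positive integer -/
theorem exists_padic_split (p n : ℕ) [Fact p.Prime] (hn : n ≠ 0) :
    ∃ s, n = p ^ padicValNat p n * s ∧ ¬ p ∣ s := by
  obtain ⟨s, hs⟩ : p ^ padicValNat p n ∣ n := pow_padicValNat_dvd
  refine ⟨s, hs, ?_⟩
  rintro ⟨s', rfl⟩
  have : p ^ (padicValNat p n + 1) ∣ n := ⟨s', by rw [pow_succ, mul_assoc]; exact hs⟩
  exact pow_succ_padicValNat_not_dvd hn this

end Cfsg.Agent.Helper47.HTF
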