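import Mathlib
import Cfsg.Agent.Helper90.HTDefs
import Cfsg.Agent.Helper47.HTFld

/-!
# CALL S5953, piece TWZ (helper47)

A norm-one scalar which is not an `r`-th power, of order `(q+1)_r`.
-/

set_option autoImplicit false

namespace Cfsg.Agent.Helper47.HT5953

open Module Polynomial Cfsg.Agent.Helper90.HT

section field

variable {F : Type*} [Field F] [Fintype F] (q : ℕ) (hq : Fintype.card F = q ^ 2) (σ : F →+* F)
  (hσ : ∀ a, σ a = a ^ q)

include hq hσ

/-- TWZ: a norm-one scalar which is not an `r`-th power, of order `(q+1)_r`. -/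
theorem ht_twist_z (r : ℕ) [Fact r.Prime] (hr2 : 2 < r) (hrq : r ∣ q + 1) :
    ∃ z : F, z * σ z = 1 ∧ (∀ b : F, b ^ r ≠ z) ∧ z ^ (r ^ padicValNat r (q + 1)) = 1 := by
  have hr : r.Prime := Fact.out
  have hq2 := Cfsg.Agent.Helper47.HTF.two_le_q q hq
  obtain ⟨g, hg, hgen⟩ := Cfsg.Agent.Helper47.HTF.exists_gen q hq
  obtain ⟨s, hs, hrs⟩ := Cfsg.Agent.Helper47.HTF.exists_padic_split r (q + 1) (by omega)
  obtain ⟨a, ha⟩ : ∃ a, a = padicValNat r (q + 1) := ⟨_, rfl⟩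
  rw [← ha] at hs ⊢
  have hrq1 : ¬ r ∣ q - 1 := by
    intro hd
    have h1 : r ∣ (q + 1) - (q - 1) := Nat.dvd_sub hrq hd
    have h2 : (q + 1) - (q - 1) = 2 := by omega
    rw [h2] at h1
    have := Nat.le_of_dvd (by norm_num) h1
    omega
  refine ⟨((g ^ ((q - 1) * s) : Fˣ) : F), ?_, ?_, ?_⟩
  · rw [Cfsg.Agent.Helper47.HTF.norm_eq q σ hσ, ← Units.val_pow_eq_pow_val, ← pow_mul]
    have h1 : (q - 1) * s * (q + 1) = ((q - 1) * (q + 1)) * s := by ring
    rw [h1, pow_mul, ← hg, pow_orderOf_eq_one, one_pow]; rfl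
  · intro b hb
    have hb0 : b ≠ 0 := by
      rintro rfl
      rw [zero_pow hr.ne_zero] at hb
      exact (Units.ne_zero _) hb.symm
    obtain ⟨l, hl⟩ := hgen b hb0
    have h1 : g ^ (l * r) = g ^ ((q - 1) * s) := by
      apply Units.ext
      rw [pow_mul, Units.val_pow_eq_pow_val, hl, hb]
    rw [pow_eq_pow_iff_modEq, hg] at h1
    have hrN : r ∣ (q - 1) * (q + 1) := Dvd.dvd.mul_left hrq _
    have h2 : r ∣ (q - 1) * s := (h1.dvd_iff hrN).1 (Dvd.intro_left l rfl)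
    rcases (Nat.Prime.dvd_mul hr).1 h2 with h3 | h3
    · exact hrq1 h3
    · exact hrs h3
  · rw [← Units.val_pow_eq_pow_val, ← pow_mul]
    have h1 : (q - 1) * s * r ^ a = (q - 1) * (q + 1) := by rw [hs]; ring
    rw [h1, ← hg, pow_orderOf_eq_one]; rfl

end field

end Cfsg.Agent.Helper47.HT5953
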