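import Mathlib
import Cfsg.Prelude.Def_GeometricClasses
import Cfsg.Agent.Helper90.SFRDefs
import Cfsg.Agent.Helper41.IMSSC

/-!
# S5965, piece CENT: the centraliser of a semisimple `T` (with `T ^ r` scalar) over a finite
field contains elements of every nonzero determinant.
-/

set_option autoImplicit false

namespace Cfsg.Agent.Helper47

open Module Polynomial Cfsg.Agent.Helper90.SFR

section fin
variable {F : Type*} [Field F] [Fintype F]

/-- PIECE CENT -/
theorem cent_det {V : Type*} [AddCommGroup V] [Module F V] [FiniteDimensional F V]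
    (hV : 0 < finrank F V) (T : V →ₗ[F] V) (r : ℕ) (hr : 0 < r) (hrF : (r : F) ≠ 0) (z : F)
    (hz : z ≠ 0) (hT : T ^ r = z • (1 : Module.End F V)) (δ : F) (hδ : δ ≠ 0) :
    ∃ C : V →ₗ[F] V, C ∘ₗ T = T ∘ₗ C ∧ LinearMap.det C = δ := by
  classical
  have hnt : Nontrivial V := Module.finrank_pos_iff.mp hV
  have hint : IsIntegral F T := Algebra.IsIntegral.isIntegral T
  have hμ0 : minpoly F T ≠ 0 := minpoly.ne_zero hint
  have hμu : ¬ IsUnit (minpoly F T) := minpoly.not_isUnit F T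
  obtain ⟨g, hg, hgd⟩ := WfDvdMonoid.exists_irreducible_factor hμu hμ0
  obtain ⟨h, hh⟩ := hgd
  have hh0 : h ≠ 0 := by
    rintro rfl
    rw [mul_zero] at hh
    exact hμ0 hh
  have hker : ∃ u₀ : V, u₀ ≠ 0 ∧ aeval T g u₀ = 0 := by
    by_contra hcon
    push Not at hcon
    have h0 : aeval T h = 0 := by
      ext v
      have h1 : aeval T g (aeval T h v) = 0 := by
        have h2 : aeval T (g * h) v = 0 := by
          rw [← hh, minpoly.aeval]; rfl
        rw [map_mul] at h2
        exact h2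
      by_contra hne
      exact hcon _ hne h1
    have h3 := minpoly.dvd F T h0
    rw [hh] at h3
    have h4 : g * h ∣ 1 * h := by simpa using h3
    have h5 := (mul_dvd_mul_iff_right hh0).mp h4
    exact hg.not_isUnit (isUnit_of_dvd_one h5)
  obtain ⟨u₀, hu₀, hgu₀⟩ := hker
  have hg0 : g ≠ 0 := hg.ne_zero
  have hfact : Fact (Irreducible g) := ⟨hg⟩
  have hfin1 : Module.Finite F (AdjoinRoot g) := (AdjoinRoot.powerBasis hg0).finite
  have hfin2 : Finite (AdjoinRoot g) := Module.finite_of_finite F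
  -- the map `f ↦ f(T) u₀` factors through `AdjoinRoot g`
  let φ₀ : F[X] →ₗ[F] V := (LinearMap.applyₗ u₀) ∘ₗ (aeval T).toLinearMap
  have hφ₀ : ∀ f, φ₀ f = aeval T f u₀ := fun f => rfl
  let π : F[X] →ₗ[F] AdjoinRoot g := (AdjoinRoot.mkₐ g).toLinearMap
  have hπ : ∀ f, π f = AdjoinRoot.mk g f := fun f => rfl
  have hπs : Function.Surjective π := AdjoinRoot.mk_surjective
  have hgk : ∀ k : F[X], aeval T (g * k) u₀ = 0 := by
    intro k
    rw [mul_comm, map_mul, Module.End.mul_apply, hgu₀, map_zero]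
  have hle : LinearMap.ker π ≤ LinearMap.ker φ₀ := by
    intro f hf
    rw [LinearMap.mem_ker, hπ, AdjoinRoot.mk_eq_zero] at hf
    obtain ⟨k, rfl⟩ := hf
    rw [LinearMap.mem_ker, hφ₀, hgk]
  let φ : AdjoinRoot g →ₗ[F] V :=
    ((LinearMap.ker π).liftQ φ₀ hle) ∘ₗ
      ((π.quotKerEquivOfSurjective hπs).symm : AdjoinRoot g →ₗ[F] (F[X] ⧸ LinearMap.ker π))
  have hφmk : ∀ f, φ (AdjoinRoot.mk g f) = aeval T f u₀ := by
    intro f
    change ((LinearMap.ker π).liftQ φ₀ hle) ((π.quotKerEquivOfSurjective hπs).symm (π f)) = _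
    rw [LinearMap.quotKerEquivOfSurjective_symm_apply]
    rfl
  have hφmul : ∀ (k : F[X]) (a : AdjoinRoot g), φ (AdjoinRoot.mk g k * a) = aeval T k (φ a) := by
    intro k a
    obtain ⟨f, rfl⟩ := AdjoinRoot.mk_surjective a
    rw [← map_mul, hφmk, hφmk, map_mul, Module.End.mul_apply]
  have hφT : ∀ a, T (φ a) = φ (AdjoinRoot.root g * a) := by
    intro a
    rw [← AdjoinRoot.mk_X, hφmul, aeval_X]
  have hφ1 : φ 1 = u₀ := by
    have h1 := hφmk 1
    rw [map_one (AdjoinRoot.mk g), map_one (aeval T)] at h1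
    exact h1
  have hφinj : ∀ a, φ a = 0 → a = 0 := by
    intro a ha
    by_contra hne
    obtain ⟨k, hk⟩ := AdjoinRoot.mk_surjective (a⁻¹)
    have h2 := hφmul k a
    rw [hk, inv_mul_cancel₀ hne, hφ1, ha, map_zero] at h2
    exact hu₀ h2
  -- an invariant complement of the image of `φ`
  have hWinv : (LinearMap.range φ).map T ≤ LinearMap.range φ := by
    rintro _ ⟨_, ⟨a, rfl⟩, rfl⟩
    exact ⟨_, (hφT a).symm⟩
  obtain ⟨W', -, hW'inv, hinf, hsup⟩ :=
    Cfsg.Agent.Helper41.ss_compl T r hrF z hz hT (LinearMap.range φ) ⊤ le_top hWinv (by simp)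
  have hW' : ∀ v ∈ W', T v ∈ W' := fun v hv => hW'inv ⟨v, hv, rfl⟩
  have hbij : Function.Bijective (φ.coprod W'.subtype) := by
    constructor
    · rw [injective_iff_map_eq_zero]
      rintro ⟨a, w⟩ haw
      rw [LinearMap.coprod_apply] at haw
      have h1 : φ a ∈ LinearMap.range φ ⊓ W' := by
        refine ⟨⟨a, rfl⟩, ?_⟩
        have h2 : φ a = -(w : V) := eq_neg_of_add_eq_zero_left haw
        rw [h2]
        exact W'.neg_mem w.2
      rw [hinf, Submodule.mem_bot] at h1
      have ha : a = 0 := hφinj a h1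
      have hw : (w : V) = 0 := by
        rw [h1, zero_add] at haw
        exact haw
      have hw' : w = 0 := Subtype.ext hw
      rw [ha, hw']
      rfl
    · intro v
      have hv : v ∈ LinearMap.range φ ⊔ W' := by rw [hsup]; trivial
      obtain ⟨_, ⟨a, rfl⟩, w, hw, rfl⟩ := Submodule.mem_sup.mp hv
      exact ⟨(a, ⟨w, hw⟩), by simp⟩
  let e : (AdjoinRoot g × W') ≃ₗ[F] V := LinearEquiv.ofBijective _ hbij
  have he : ∀ p : AdjoinRoot g × W', e p = φ p.1 + (p.2 : V) := fun p => rfl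
  obtain ⟨a, ha⟩ := FiniteField.norm_surjective F (AdjoinRoot g) δ
  let A : AdjoinRoot g →ₗ[F] AdjoinRoot g := LinearMap.mulLeft F a
  have hAdet : LinearMap.det A = δ := by
    rw [← ha, Algebra.norm_apply]
    rfl
  have hkey : ∀ p : AdjoinRoot g × W',
      T (e p) = e (AdjoinRoot.root g * p.1, T.restrict hW' p.2) := by
    intro p
    rw [he, he, map_add, hφT]
    rfl
  refine ⟨(e : (AdjoinRoot g × W') →ₗ[F] V) ∘ₗ (A.prodMap LinearMap.id) ∘ₗ
    (e.symm : V →ₗ[F] (AdjoinRoot g × W')), ?_, ?_⟩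
  · refine LinearMap.ext fun v => ?_
    obtain ⟨p, rfl⟩ := e.surjective v
    obtain ⟨x, w⟩ := p
    simp only [LinearMap.comp_apply, LinearEquiv.coe_coe, hkey, LinearEquiv.symm_apply_apply,
      LinearMap.prodMap_apply, LinearMap.id_apply, A, LinearMap.mulLeft_apply]
    rw [mul_left_comm]
  · rw [LinearMap.det_conj, LinearMap.det_prodMap, hAdet, LinearMap.det_id, mul_one]

end fin

end Cfsg.Agent.Helper47
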