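import Mathlib
import Cfsg.Agent.Helper43.C3ODefs

/-!
# Helper47: PIECE ACASE of CALL C3O (helper43).
-/

set_option autoImplicit false

namespace Cfsg.Agent.Helper47

open Matrix Module Polynomial
open Cfsg.Agent.Helper43.C3O

universe u

section quad

variable {F : Type u} [Field F] [Fintype F] {ι : Type} [Fintype ι] [DecidableEq ι]

/-- PIECE ACASE (AEV, JSUB, GLUEM, ARHO are hypotheses) -/
theorem c3o_acase (h2 : (2 : F) ≠ 0) (Q : QuadraticForm F (ι → F))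
    (hQ : (QuadraticMap.polarBilin Q).Nondegenerate) (hcard : Even (Fintype.card ι)) (n : F)
    (g : ↥(Cfsg.isometryGroup F ⇑Q)) (hg : gm g * gm g = 1)
    (haev : Even (Module.finrank F (LinearMap.ker (Matrix.toLin' (gm g) + 1))))
    (hjsub : ∀ W : Submodule F (ι → F),
      (∀ w ∈ W, (∀ w' ∈ W, QuadraticMap.polar ⇑Q w w' = 0) → w = 0) →
      Even (Module.finrank F W) →
      ∃ J : W →ₗ[F] W, (∀ w, J (J w) = n • w) ∧
        ∀ u v : W, QuadraticMap.polar ⇑Q (J u : ι → F) (v : ι → F) =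
          QuadraticMap.polar ⇑Q (u : ι → F) (J v : ι → F))
    (hglue : ∀ W₁ W₂ : Submodule F (ι → F), IsCompl W₁ W₂ →
      (∀ u ∈ W₁, ∀ v ∈ W₂, QuadraticMap.polar ⇑Q u v = 0) →
      ∀ (J₁ : W₁ →ₗ[F] W₁) (J₂ : W₂ →ₗ[F] W₂), (∀ w, J₁ (J₁ w) = n • w) →
      (∀ w, J₂ (J₂ w) = n • w) →
      (∀ u v : W₁, QuadraticMap.polar ⇑Q (J₁ u : ι → F) (v : ι → F) =
        QuadraticMap.polar ⇑Q (u : ι → F) (J₁ v : ι → F)) →
      (∀ u v : W₂, QuadraticMap.polar ⇑Q (J₂ u : ι → F) (v : ι → F) =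
        QuadraticMap.polar ⇑Q (u : ι → F) (J₂ v : ι → F)) →
      ∃ J' : Matrix ι ι F, IsJ Q n J' ∧ (∀ w ∈ W₁, J'.mulVec w ∈ W₁) ∧
        ∀ w ∈ W₂, J'.mulVec w ∈ W₂)
    (ρ : ↥(Cfsg.isometryGroup F ⇑Q)) (hρ : (gm ρ).det = -1) (hρg : ρ * g = g * ρ) :
    ∃ J' : Matrix ι ι F, IsJ Q n J' ∧ gm g * J' = J' * gm g ∧
      gm g * (gm ρ * J' * gm ρ⁻¹) = (gm ρ * J' * gm ρ⁻¹) * gm g := by
  classical
  -- the two eigenspaces
  have hm1 : ∀ w : ι → F, w ∈ LinearMap.ker (Matrix.toLin' (gm g) - 1) ↔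
      (gm g).mulVec w = w := by
    intro w
    rw [LinearMap.mem_ker, LinearMap.sub_apply, Matrix.toLin'_apply, Module.End.one_apply,
      sub_eq_zero]
  have hm2 : ∀ w : ι → F, w ∈ LinearMap.ker (Matrix.toLin' (gm g) + 1) ↔
      (gm g).mulVec w = -w := by
    intro w
    rw [LinearMap.mem_ker, LinearMap.add_apply, Matrix.toLin'_apply, Module.End.one_apply,
      add_eq_zero_iff_eq_neg]
  have hMM : ∀ v : ι → F, (gm g).mulVec ((gm g).mulVec v) = v := by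
    intro v
    rw [Matrix.mulVec_mulVec, hg, Matrix.one_mulVec]
  have hiso : ∀ v : ι → F, Q ((gm g).mulVec v) = Q v := fun v => g.2 v v
  have hpol : ∀ u v : ι → F, QuadraticMap.polar ⇑Q ((gm g).mulVec u) ((gm g).mulVec v) =
      QuadraticMap.polar ⇑Q u v := by
    intro u v
    unfold QuadraticMap.polar
    rw [← Matrix.mulVec_add, hiso, hiso, hiso]
  have h2inv : (2 : F) * 2⁻¹ = 1 := mul_inv_cancel₀ h2
  -- decomposition of a vector
  have hdec : ∀ v : ι → F, ∃ w₁ ∈ LinearMap.ker (Matrix.toLin' (gm g) - 1),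
      ∃ w₂ ∈ LinearMap.ker (Matrix.toLin' (gm g) + 1), v = w₁ + w₂ := by
    intro v
    refine ⟨(2⁻¹ : F) • (v + (gm g).mulVec v), ?_, (2⁻¹ : F) • (v - (gm g).mulVec v), ?_, ?_⟩
    · rw [hm1, Matrix.mulVec_smul, Matrix.mulVec_add, hMM, add_comm]
    · rw [hm2, Matrix.mulVec_smul, Matrix.mulVec_sub, hMM, ← smul_neg, neg_sub]
    · rw [← smul_add]
      have : v + (gm g).mulVec v + (v - (gm g).mulVec v) = (2 : F) • v := by
        rw [two_smul]; abel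
      rw [this, smul_smul, mul_comm, h2inv, one_smul]
  have hc : IsCompl (LinearMap.ker (Matrix.toLin' (gm g) - 1))
      (LinearMap.ker (Matrix.toLin' (gm g) + 1)) := by
    constructor
    · rw [Submodule.disjoint_def]
      intro w h1 h2'
      rw [hm1] at h1
      rw [hm2] at h2'
      have h3 : (2 : F) • w = 0 := by
        rw [two_smul]
        nth_rewrite 1 [← h1]
        rw [h2', neg_add_cancel]
      rcases smul_eq_zero.mp h3 with h4 | h4
      · exact absurd h4 h2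
      · exact h4
    · rw [codisjoint_iff, Submodule.eq_top_iff']
      intro v
      obtain ⟨w₁, hw₁, w₂, hw₂, rfl⟩ := hdec v
      exact Submodule.add_mem_sup hw₁ hw₂
  have ho : ∀ u ∈ LinearMap.ker (Matrix.toLin' (gm g) - 1),
      ∀ v ∈ LinearMap.ker (Matrix.toLin' (gm g) + 1), QuadraticMap.polar ⇑Q u v = 0 := by
    intro u hu v hv
    rw [hm1] at hu
    rw [hm2] at hv
    have h3 := hpol u v
    rw [hu, hv, QuadraticMap.polar_neg_right] at h3
    have h4 : (2 : F) * QuadraticMap.polar ⇑Q u v = 0 := by linear_combination -h3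
    rcases mul_eq_zero.mp h4 with h5 | h5
    · exact absurd h5 h2
    · exact h5
  have ho' : ∀ v ∈ LinearMap.ker (Matrix.toLin' (gm g) + 1),
      ∀ u ∈ LinearMap.ker (Matrix.toLin' (gm g) - 1), QuadraticMap.polar ⇑Q v u = 0 := by
    intro v hv u hu
    rw [QuadraticMap.polar_comm]
    exact ho u hu v hv
  -- non-degeneracy of the eigenspaces
  have hnd1 : ∀ w ∈ LinearMap.ker (Matrix.toLin' (gm g) - 1),
      (∀ w' ∈ LinearMap.ker (Matrix.toLin' (gm g) - 1), QuadraticMap.polar ⇑Q w w' = 0) →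
      w = 0 := by
    intro w hw h
    apply hQ.1
    intro y
    show QuadraticMap.polar ⇑Q w y = 0
    obtain ⟨w₁, hw₁, w₂, hw₂, rfl⟩ := hdec y
    rw [QuadraticMap.polar_add_right, h w₁ hw₁, ho w hw w₂ hw₂, add_zero]
  have hnd2 : ∀ w ∈ LinearMap.ker (Matrix.toLin' (gm g) + 1),
      (∀ w' ∈ LinearMap.ker (Matrix.toLin' (gm g) + 1), QuadraticMap.polar ⇑Q w w' = 0) →
      w = 0 := by
    intro w hw h
    apply hQ.1
    intro y
    show QuadraticMap.polar ⇑Q w y = 0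
    obtain ⟨w₁, hw₁, w₂, hw₂, rfl⟩ := hdec y
    rw [QuadraticMap.polar_add_right, h w₂ hw₂, ho' w hw w₁ hw₁, add_zero]
  -- parities
  have hsum := Submodule.finrank_add_eq_of_isCompl hc
  rw [Module.finrank_fintype_fun_eq_card] at hsum
  have hev1 : Even (Module.finrank F (LinearMap.ker (Matrix.toLin' (gm g) - 1))) := by
    have h3 : Even (Module.finrank F (LinearMap.ker (Matrix.toLin' (gm g) - 1)) +
        Module.finrank F (LinearMap.ker (Matrix.toLin' (gm g) + 1))) := by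
      rw [hsum]; exact hcard
    exact (Nat.even_add.mp h3).mpr haev
  obtain ⟨J₁, hJ₁, hs₁⟩ := hjsub _ hnd1 hev1
  obtain ⟨J₂, hJ₂, hs₂⟩ := hjsub _ hnd2 haev
  obtain ⟨J', hJ', hst1, hst2⟩ := hglue _ _ hc ho J₁ J₂ hJ₁ hJ₂ hs₁ hs₂
  have hcomm : gm g * J' = J' * gm g := by
    apply Matrix.toLin'.injective
    apply LinearMap.ext
    intro v
    rw [Matrix.toLin'_apply, Matrix.toLin'_apply, ← Matrix.mulVec_mulVec, ← Matrix.mulVec_mulVec]
    obtain ⟨w₁, hw₁, w₂, hw₂, rfl⟩ := hdec v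
    have e1 := (hm1 _).mp (hst1 w₁ hw₁)
    have e2 := (hm2 _).mp (hst2 w₂ hw₂)
    rw [Matrix.mulVec_add, Matrix.mulVec_add, e1, e2, Matrix.mulVec_add, (hm1 _).mp hw₁,
      (hm2 _).mp hw₂, Matrix.mulVec_add, Matrix.mulVec_neg]
  refine ⟨J', hJ', hcomm, ?_⟩
  have hρg' : gm ρ * gm g = gm g * gm ρ := by
    have h3 := congrArg (fun x : ↥(Cfsg.isometryGroup F ⇑Q) => gm x) hρg
    exact h3
  have hρinv : gm ρ⁻¹ * gm ρ = 1 := by
    have h3 : gm (ρ⁻¹ * ρ) = 1 := by rw [inv_mul_cancel]; rfl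
    exact h3
  have hρinv' : gm ρ * gm ρ⁻¹ = 1 := by
    have h3 : gm (ρ * ρ⁻¹) = 1 := by rw [mul_inv_cancel]; rfl
    exact h3
  have hρg'' : gm ρ⁻¹ * gm g = gm g * gm ρ⁻¹ := by
    calc gm ρ⁻¹ * gm g = gm ρ⁻¹ * gm g * (gm ρ * gm ρ⁻¹) := by rw [hρinv', Matrix.mul_one]
      _ = gm ρ⁻¹ * (gm g * gm ρ) * gm ρ⁻¹ := by simp only [Matrix.mul_assoc]
      _ = gm ρ⁻¹ * (gm ρ * gm g) * gm ρ⁻¹ := by rw [hρg']
      _ = (gm ρ⁻¹ * gm ρ) * gm g * gm ρ⁻¹ := by simp only [Matrix.mul_assoc]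
      _ = gm g * gm ρ⁻¹ := by rw [hρinv, Matrix.one_mul]
  calc gm g * (gm ρ * J' * gm ρ⁻¹) = (gm g * gm ρ) * J' * gm ρ⁻¹ := by
        simp only [Matrix.mul_assoc]
    _ = gm ρ * (gm g * J') * gm ρ⁻¹ := by rw [← hρg']; simp only [Matrix.mul_assoc]
    _ = gm ρ * J' * (gm g * gm ρ⁻¹) := by rw [hcomm]; simp only [Matrix.mul_assoc]
    _ = (gm ρ * J' * gm ρ⁻¹) * gm g := by rw [← hρg'']; simp only [Matrix.mul_assoc]

end quad

end Cfsg.Agent.Helper47
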