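import Mathlib

/-!
# Helper47: PIECE FROBPOW of CALL C3O (helper43).
-/

set_option autoImplicit false

namespace Cfsg.Agent.Helper47

open Matrix Module Polynomial

universe u

/-- PIECE FROBPOW -/
theorem c3o_frobpow {F : Type*} [Field F] [Fintype F] {A : Type*} [Ring A] [Algebra F A] (a : A)
    (R : F[X]) (m : ℕ) :
    (aeval a R) ^ (Fintype.card F ^ m) = aeval (a ^ (Fintype.card F ^ m)) R := by
  have h1 : ∀ (b : A), (aeval b R) ^ (Fintype.card F) = aeval (b ^ (Fintype.card F)) R := by
    intro b
    rw [← map_pow, ← FiniteField.expand_card, expand_aeval]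
  induction m with
  | zero => simp
  | succ m ih => rw [pow_succ, pow_mul, ih, h1, ← pow_mul]

end Cfsg.Agent.Helper47
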