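import Mathlib
import Cfsg.Agent.Helper45.IDMinus
import Cfsg.Agent.Helper43.OrthSemi
import Cfsg.Agent.Helper43.USimDet
import Cfsg.Agent.Helper43.NormGen

/-!
# S2720, piece SKEW: the determinant of a similarity commuting with a fixed-point-free isometry
of odd order.
-/

set_option autoImplicit false

namespace Cfsg.Agent.Helper47.PFSKEW

open Cfsg Matrix Polynomial Cfsg.Agent.Helper45 Cfsg.Agent.Helper45.ID

universe u

variable {ι : Type} [Fintype ι] [DecidableEq ι] {F : Type u} [Field F] [Fintype F]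

/-- SKEW -/
theorem pf_skew_det (Q : QuadraticForm F (ι → F)) {n : ℕ} {J : Matrix ι ι F} {v₀ : ι → F}
    (D : KData ⇑Q n J v₀) (g : ↥(isometryGroup F ⇑Q)) {r : ℕ} (hro : Odd r) (hgr : g ^ r = 1)
    (hfix : ∀ v : ι → F, mv ⇑Q g v = v → v = 0) (c : GL ι F)
    (hc : c ∈ Geo.quadSimilarityGroup (F := F) ⇑Q)
    (hcg : c * (g : GL ι F) = (g : GL ι F) * c) :
    (c : Matrix ι ι F).det = mult ⇑Q v₀ c ^ n := by
  classical
  obtain ⟨hμ, hμ0⟩ := D.mult_spec hc
  obtain ⟨μ, hμdef⟩ : ∃ μ, μ = mult ⇑Q v₀ c := ⟨_, rfl⟩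
  rw [← hμdef] at hμ hμ0 ⊢
  obtain ⟨G, hG⟩ : ∃ G : Matrix ι ι F, G = ((g : GL ι F) : Matrix ι ι F) := ⟨_, rfl⟩
  obtain ⟨Gi, hGi⟩ : ∃ Gi : Matrix ι ι F, Gi = (((g : GL ι F)⁻¹ : GL ι F) : Matrix ι ι F) :=
    ⟨_, rfl⟩
  obtain ⟨C, hC⟩ : ∃ C : Matrix ι ι F, C = (c : Matrix ι ι F) := ⟨_, rfl⟩
  rw [← hC] at hμ ⊢
  have hGGi : G * Gi = 1 := by rw [hG, hGi, ← Units.val_mul, mul_inv_cancel, Units.val_one]
  have hGiG : Gi * G = 1 := by rw [hG, hGi, ← Units.val_mul, inv_mul_cancel, Units.val_one]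
  have hmv : ∀ v, mv ⇑Q g v = G *ᵥ v := fun v => by rw [hG]
  have hgiso : ∀ v, Q (G *ᵥ v) = 1 * Q v := by
    intro v
    rw [one_mul, hG]
    exact (mem_iso_iff (⇑Q) (g : GL ι F)).mp g.2 v
  have hGJ : Gᵀ * J * G = J := by
    have h := gram_of_sim ⇑Q J D.h2 D.hJ D.hJs G 1 hgiso
    rw [one_smul] at h
    exact h
  have hCJ : Cᵀ * J * C = μ • J := gram_of_sim ⇑Q J D.h2 D.hJ D.hJs C μ hμ
  have hCG : C * G = G * C := by
    have h := congrArg (fun u : GL ι F => (u : Matrix ι ι F)) hcg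
    simp only [Units.val_mul] at h
    rw [hC, hG]
    exact h
  have hCGi : C * Gi = Gi * C := by
    calc C * Gi = Gi * G * C * Gi := by rw [hGiG, one_mul]
      _ = Gi * (C * G) * Gi := by rw [hCG, ← mul_assoc]
      _ = Gi * C * (G * Gi) := by simp only [mul_assoc]
      _ = Gi * C := by rw [hGGi, mul_one]
  have h1 : Gᵀ * J = J * Gi := by
    calc Gᵀ * J = Gᵀ * J * (G * Gi) := by rw [hGGi, mul_one]
      _ = (Gᵀ * J * G) * Gi := by simp only [mul_assoc]
      _ = J * Gi := by rw [hGJ]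
  have h2 : Giᵀ * J = J * G := by
    calc Giᵀ * J = Giᵀ * (Gᵀ * J * G) := by rw [hGJ]
      _ = (Giᵀ * Gᵀ) * J * G := by simp only [mul_assoc]
      _ = J * G := by rw [← Matrix.transpose_mul, hGGi, Matrix.transpose_one, one_mul]
  obtain ⟨S, hS⟩ : ∃ S : Matrix ι ι F, S = J * (G - Gi) := ⟨_, rfl⟩
  have hSskew : Sᵀ = -S := by
    rw [hS, Matrix.transpose_mul, Matrix.transpose_sub, D.hJs, Matrix.sub_mul, h1, h2,
      Matrix.mul_sub]
    abel
  have hSdiag : ∀ i, S i i = 0 := by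
    intro i
    have h := congrFun (congrFun hSskew i) i
    rw [Matrix.transpose_apply, Matrix.neg_apply] at h
    have h2' : (2 : F) * S i i = 0 := by linear_combination h
    exact (mul_eq_zero.mp h2').resolve_left D.h2
  have hSC : Cᵀ * S * C = μ • S := by
    rw [hS]
    have e : (G - Gi) * C = C * (G - Gi) := by rw [Matrix.sub_mul, Matrix.mul_sub, hCG, hCGi]
    calc Cᵀ * (J * (G - Gi)) * C = Cᵀ * J * ((G - Gi) * C) := by simp only [mul_assoc]
      _ = Cᵀ * J * (C * (G - Gi)) := by rw [e]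
      _ = (Cᵀ * J * C) * (G - Gi) := by simp only [mul_assoc]
      _ = μ • (J * (G - Gi)) := by rw [hCJ, Matrix.smul_mul]
  -- `G ^ r = 1`
  have hGr : G ^ r = 1 := by
    have h := congrArg (fun u : ↥(isometryGroup F ⇑Q) => ((u : GL ι F) : Matrix ι ι F)) hgr
    simp only [Subgroup.coe_pow, Units.val_pow_eq_pow_val, Subgroup.coe_one, Units.val_one] at h
    rw [hG]
    exact h
  have hSdet : S.det ≠ 0 := by
    rw [hS, Matrix.det_mul]
    refine mul_ne_zero D.hJdet ?_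
    intro h0
    obtain ⟨v, hv, hMv⟩ := Matrix.exists_mulVec_eq_zero_iff.mpr h0
    rw [Matrix.sub_mulVec, sub_eq_zero] at hMv
    -- `G (G v) = v`
    have h3 : G *ᵥ (G *ᵥ v) = v := by
      rw [hMv, Matrix.mulVec_mulVec, hGGi, Matrix.one_mulVec]
    -- w := G v + v is fixed, so zero
    have h4 : G *ᵥ v + v = 0 := by
      apply hfix
      rw [hmv, Matrix.mulVec_add, h3, add_comm]
    have h5 : G *ᵥ v = -v := eq_neg_of_add_eq_zero_left h4
    have h6 : ∀ k : ℕ, (G ^ k) *ᵥ v = (-1 : F) ^ k • v := by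
      intro k
      induction k with
      | zero => simp
      | succ k ih =>
        rw [pow_succ, ← Matrix.mulVec_mulVec, h5, Matrix.mulVec_neg, ih, pow_succ]
        simp
    have h7 := h6 r
    rw [hGr, Matrix.one_mulVec, hro.neg_one_pow, neg_one_smul] at h7
    have h8 : (2 : F) • v = 0 := by
      rw [two_smul]
      nth_rewrite 1 [h7]
      exact neg_add_cancel v
    rcases smul_eq_zero.mp h8 with h9 | h9
    · exact D.h2 h9
    · exact hv h9
  -- reindex
  obtain ⟨ε⟩ : Nonempty (ι ≃ Fin (n + n)) := ⟨Fintype.equivFinOfCardEq D.hcard⟩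
  have hCdet : (Matrix.reindex ε ε C).det ≠ 0 := by
    rw [Matrix.det_reindex_self, hC]
    exact ((Matrix.isUnit_iff_isUnit_det _).mp c.isUnit).ne_zero
  have key := Cfsg.Agent.Helper43.USimDet.skew_det (K := F) (m := n) finSumFinEquiv
    (Matrix.reindex ε ε S) (by rw [Matrix.det_reindex_self]; exact hSdet)
    (by
      rw [Matrix.reindex_apply, Matrix.transpose_submatrix, hSskew]
      rfl)
    (by
      intro i
      rw [Matrix.reindex_apply, Matrix.submatrix_apply]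
      exact hSdiag _)
    (Matrix.GeneralLinearGroup.mkOfDetNeZero (Matrix.reindex ε ε C) hCdet) μ
    (by
      show (Matrix.reindex ε ε C)ᵀ * Matrix.reindex ε ε S * Matrix.reindex ε ε C
        = μ • Matrix.reindex ε ε S
      rw [Matrix.reindex_apply, Matrix.reindex_apply, Matrix.transpose_submatrix,
        Matrix.submatrix_mul_equiv, Matrix.submatrix_mul_equiv, hSC]
      rfl)
  have hkey : (Matrix.reindex ε ε C).det = μ ^ n := key
  rw [Matrix.det_reindex_self] at hkey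
  exact hkey

end Cfsg.Agent.Helper47.PFSKEW
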