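import Mathlib
import Cfsg.Agent.Helper44.SPCDefs

/-!
# CALL S2676, piece CONGEQV (helper47)

Congruence of invertible `(-1)^i`-symmetric matrices is an equivalence relation.
-/

set_option autoImplicit false

namespace Cfsg.Agent.Helper47.SPCCONGEQV

open Matrix Cfsg.Agent.Helper21.JCent Cfsg.Agent.Helper44.UC Cfsg.Agent.Helper44.SPC

/-- CONGEQV: congruence is an equivalence relation. -/
theorem spc_congeqv {F : Type*} [Field F] {κ : Type*} [Fintype κ] [DecidableEq κ] (i : ℕ) :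
    Equivalence (congRel (F := F) (ι := κ) i) := by
  refine ⟨?_, ?_, ?_⟩
  · intro β
    refine ⟨1, by simp, by simp⟩
  · rintro β β' ⟨g, hg, h⟩
    have h1 : g * g⁻¹ = 1 := Matrix.mul_nonsing_inv g hg
    have h2 : g⁻¹ᵀ * gᵀ = 1 := by rw [← Matrix.transpose_mul, h1, Matrix.transpose_one]
    refine ⟨g⁻¹, ?_, ?_⟩
    · exact Matrix.isUnit_nonsing_inv_det g hg
    · rw [h]
      calc β.1 = (g⁻¹ᵀ * gᵀ) * β.1 * (g * g⁻¹) := by rw [h1, h2, Matrix.one_mul, Matrix.mul_one]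
        _ = g⁻¹ᵀ * (gᵀ * β.1 * g) * g⁻¹ := by simp only [Matrix.mul_assoc]
  · rintro β β' β'' ⟨g, hg, h⟩ ⟨g', hg', h'⟩
    refine ⟨g * g', ?_, ?_⟩
    · rw [Matrix.det_mul]; exact hg.mul hg'
    · rw [h', h, Matrix.transpose_mul]
      simp only [Matrix.mul_assoc]

end Cfsg.Agent.Helper47.SPCCONGEQV
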