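import Mathlib
import Cfsg.Agent.Helper44.SPCDefs

/-!
# CALL S2676, piece QPROD (helper47)

Quotient of a relation pulled back from a product of equivalence relations.
-/

set_option autoImplicit false

namespace Cfsg.Agent.Helper47.SPCQPROD

/-- QPROD: quotient of a relation pulled back from a product. -/
theorem spc_qprod {X : Type*} {I : Type*} [Fintype I] {Y : I → Type*} [∀ i, Finite (Y i)]
    (r : X → X → Prop) (s : ∀ i, Y i → Y i → Prop) (hs : ∀ i, Equivalence (s i))
    (f : X → ∀ i, Y i) (h1 : ∀ x x', r x x' → ∀ i, s i (f x i) (f x' i))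
    (h2 : ∀ x x', (∀ i, s i (f x i) (f x' i)) → r x x') (h3 : Function.Surjective f) :
    Nat.card (Quot r) = ∏ i, Nat.card (Quot (s i)) := by
  classical
  let φ : Quot r → ∀ i, Quot (s i) :=
    Quot.lift (fun x i => Quot.mk (s i) (f x i))
      (fun x x' h => funext fun i => Quot.sound (h1 x x' h i))
  have hinj : Function.Injective φ := by
    intro a b hab
    induction a using Quot.ind with
    | _ x =>
      induction b using Quot.ind with
      | _ x' =>
        apply Quot.sound
        apply h2
        intro i
        have hi : Quot.mk (s i) (f x i) = Quot.mk (s i) (f x' i) := congrFun hab i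
        exact (hs i).eqvGen_iff.1 (Quot.eq.1 hi)
  have hsurj : Function.Surjective φ := by
    intro g
    have hrep : ∀ i, ∃ y : Y i, Quot.mk (s i) y = g i := fun i => Quot.exists_rep (g i)
    choose y hy using hrep
    obtain ⟨x, hx⟩ := h3 y
    refine ⟨Quot.mk r x, ?_⟩
    funext i
    show Quot.mk (s i) (f x i) = g i
    rw [hx, hy]
  rw [Nat.card_congr (Equiv.ofBijective φ ⟨hinj, hsurj⟩), Nat.card_pi]

end Cfsg.Agent.Helper47.SPCQPROD
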