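import Mathlib
import Cfsg.Agent.Helper44.SPCDefs

/-!
# CALL S2676, piece REIDX (helper47)

Reindexing along an equivalence of index types does not change the number of orbits of the
centraliser on the invariant forms.
-/

set_option autoImplicit false

namespace Cfsg.Agent.Helper47.SPCREIDX

open Matrix Cfsg.Agent.Helper21.JCent Cfsg.Agent.Helper44.UC Cfsg.Agent.Helper44.SPC

theorem isInvF_submatrix {F : Type*} [Field F] {ι ι' : Type*} [Fintype ι] [DecidableEq ι]
    [Fintype ι'] [DecidableEq ι'] (e : ι' ≃ ι) (U ψ : Matrix ι ι F) (h : IsInvF U ψ) :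
    IsInvF (U.submatrix e e) (ψ.submatrix e e) := by
  obtain ⟨h1, h2, h3⟩ := h
  refine ⟨?_, ?_, ?_⟩
  · rw [Matrix.transpose_submatrix, h1]; rfl
  · rw [Matrix.det_submatrix_equiv_self]; exact h2
  · rw [Matrix.transpose_submatrix, Matrix.submatrix_mul_equiv, Matrix.submatrix_mul_equiv, h3]

theorem invRel_submatrix {F : Type*} [Field F] {ι ι' : Type*} [Fintype ι] [DecidableEq ι]
    [Fintype ι'] [DecidableEq ι'] (e : ι' ≃ ι) (U : Matrix ι ι F)
    (ψ ψ' : {ψ : Matrix ι ι F // IsInvF U ψ}) (h : invRel U ψ ψ') :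
    invRel (U.submatrix e e) ⟨ψ.1.submatrix e e, isInvF_submatrix e U ψ.1 ψ.2⟩
      ⟨ψ'.1.submatrix e e, isInvF_submatrix e U ψ'.1 ψ'.2⟩ := by
  obtain ⟨c, hc, hcU, hcψ⟩ := h
  refine ⟨c.submatrix e e, ?_, ?_, ?_⟩
  · rw [Matrix.det_submatrix_equiv_self]; exact hc
  · rw [Matrix.submatrix_mul_equiv, Matrix.submatrix_mul_equiv, hcU]
  · show ψ'.1.submatrix e e = (c.submatrix e e)ᵀ * ψ.1.submatrix e e * c.submatrix e e
    rw [Matrix.transpose_submatrix, Matrix.submatrix_mul_equiv, Matrix.submatrix_mul_equiv, hcψ]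

/-- REIDX: reindexing. -/
theorem spc_reidx {F : Type*} [Field F] {ι ι' : Type*} [Fintype ι] [DecidableEq ι] [Fintype ι']
    [DecidableEq ι'] (e : ι ≃ ι') (U : Matrix ι ι F) :
    Nat.card (Quot (invRel (Matrix.reindex e e U))) = Nat.card (Quot (invRel U)) := by
  have hU : (Matrix.reindex e e U).submatrix e e = U := by
    ext i j; simp [Matrix.reindex_apply]
  have hback : ∀ ψ : Matrix ι' ι' F, (ψ.submatrix e e).submatrix e.symm e.symm = ψ := by
    intro ψ; ext i j; simp
  have hfwd : ∀ ψ : Matrix ι ι F, (ψ.submatrix e.symm e.symm).submatrix e e = ψ := by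
    intro ψ; ext i j; simp
  have hmem : ∀ ψ : Matrix ι' ι' F, IsInvF (Matrix.reindex e e U) ψ → IsInvF U (ψ.submatrix e e) := by
    intro ψ hψ
    have := isInvF_submatrix e (Matrix.reindex e e U) ψ hψ
    rwa [hU] at this
  have hmem' : ∀ ψ : Matrix ι ι F, IsInvF U ψ →
      IsInvF (Matrix.reindex e e U) (ψ.submatrix e.symm e.symm) := by
    intro ψ hψ
    exact isInvF_submatrix e.symm U ψ hψ
  let E : {ψ : Matrix ι' ι' F // IsInvF (Matrix.reindex e e U) ψ} ≃
      {ψ : Matrix ι ι F // IsInvF U ψ} :=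
    { toFun := fun ψ => ⟨ψ.1.submatrix e e, hmem ψ.1 ψ.2⟩
      invFun := fun ψ => ⟨ψ.1.submatrix e.symm e.symm, hmem' ψ.1 ψ.2⟩
      left_inv := fun ψ => Subtype.ext (hback ψ.1)
      right_inv := fun ψ => Subtype.ext (hfwd ψ.1) }
  have h1 : ∀ a b, invRel (Matrix.reindex e e U) a b → invRel U (E a) (E b) := by
    rintro a b ⟨c, hc, hcU, hcψ⟩
    refine ⟨c.submatrix e e, ?_, ?_, ?_⟩
    · rw [Matrix.det_submatrix_equiv_self]; exact hc
    · have := congrArg (fun X => X.submatrix e e) hcU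
      simp only [← Matrix.submatrix_mul_equiv _ _ e e e] at this
      rwa [hU] at this
    · show b.1.submatrix e e = (c.submatrix e e)ᵀ * a.1.submatrix e e * c.submatrix e e
      rw [Matrix.transpose_submatrix, Matrix.submatrix_mul_equiv, Matrix.submatrix_mul_equiv, hcψ]
  have h2 : ∀ a b, invRel U a b → invRel (Matrix.reindex e e U) (E.symm a) (E.symm b) := by
    rintro a b h
    exact invRel_submatrix e.symm U a b h
  refine Nat.card_congr (Quot.congr E (fun a b => ⟨h1 a b, fun h => ?_⟩))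
  have h3 := h2 _ _ h
  rw [E.symm_apply_apply, E.symm_apply_apply] at h3
  exact h3

end Cfsg.Agent.Helper47.SPCREIDX
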