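import Mathlib
import Cfsg.Agent.Helper44.SPCDefs

/-!
# CALL S2676, piece SKC (helper47)

Skew forms of similar matrices: `ψ ↦ Pᵀ ψ P`, `c ↦ P⁻¹ c P`.
-/

set_option autoImplicit false

namespace Cfsg.Agent.Helper47.SPCSKC

open Matrix Cfsg.Agent.Helper21.JCent Cfsg.Agent.Helper44.UC Cfsg.Agent.Helper44.SPC

theorem isSkF_conj {F : Type*} [Field F] {ι : Type*} [Fintype ι] [DecidableEq ι]
    (M N P Q : Matrix ι ι F) (hPQ : P * Q = 1) (h : P * N = M * P)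
    (ψ : Matrix ι ι F) (hψ : IsSkF M ψ) : IsSkF N (Pᵀ * ψ * P) := by
  obtain ⟨h1, h2, h3⟩ := hψ
  have hdP : IsUnit P.det := by
    have : P.det * Q.det = 1 := by rw [← Matrix.det_mul, hPQ, Matrix.det_one]
    exact IsUnit.of_mul_eq_one _ this
  refine ⟨?_, ?_, ?_⟩
  · rw [Matrix.transpose_mul, Matrix.transpose_mul, Matrix.transpose_transpose, h1]
    simp [Matrix.mul_assoc]
  · rw [Matrix.det_mul, Matrix.det_mul, Matrix.det_transpose]
    exact (hdP.mul h2).mul hdP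
  · calc Nᵀ * (Pᵀ * ψ * P) + Pᵀ * ψ * P * N
        = (P * N)ᵀ * ψ * P + Pᵀ * ψ * (P * N) := by
          rw [Matrix.transpose_mul]; simp only [Matrix.mul_assoc]
      _ = Pᵀ * (Mᵀ * ψ + ψ * M) * P := by
          rw [h, Matrix.transpose_mul]
          simp only [Matrix.mul_assoc, Matrix.mul_add, Matrix.add_mul]
      _ = 0 := by rw [h3]; simp

theorem skRel_conj {F : Type*} [Field F] {ι : Type*} [Fintype ι] [DecidableEq ι]
    (M N P Q : Matrix ι ι F) (hPQ : P * Q = 1) (hQP : Q * P = 1) (h : P * N = M * P)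
    (ψ ψ' : {ψ : Matrix ι ι F // IsSkF M ψ}) (hr : skRel M ψ ψ') :
    skRel N ⟨Pᵀ * ψ.1 * P, isSkF_conj M N P Q hPQ h ψ.1 ψ.2⟩
      ⟨Pᵀ * ψ'.1 * P, isSkF_conj M N P Q hPQ h ψ'.1 ψ'.2⟩ := by
  obtain ⟨c, hc, hcM, hcψ⟩ := hr
  have hdP : IsUnit P.det := by
    have : P.det * Q.det = 1 := by rw [← Matrix.det_mul, hPQ, Matrix.det_one]
    exact IsUnit.of_mul_eq_one _ this
  have hdQ : IsUnit Q.det := by
    have : Q.det * P.det = 1 := by rw [← Matrix.det_mul, hQP, Matrix.det_one]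
    exact IsUnit.of_mul_eq_one _ this
  have hQM : Q * M = N * Q := by
    calc Q * M = Q * M * (P * Q) := by rw [hPQ, Matrix.mul_one]
      _ = Q * (M * P) * Q := by simp only [Matrix.mul_assoc]
      _ = Q * (P * N) * Q := by rw [h]
      _ = (Q * P) * N * Q := by simp only [Matrix.mul_assoc]
      _ = N * Q := by rw [hQP, Matrix.one_mul]
  have hQPt : Qᵀ * Pᵀ = 1 := by rw [← Matrix.transpose_mul, hPQ, Matrix.transpose_one]
  refine ⟨Q * c * P, ?_, ?_, ?_⟩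
  · rw [Matrix.det_mul, Matrix.det_mul]
    exact (hdQ.mul hc).mul hdP
  · calc Q * c * P * N = Q * c * (P * N) := by simp only [Matrix.mul_assoc]
      _ = Q * (c * M) * P := by rw [h]; simp only [Matrix.mul_assoc]
      _ = (Q * M) * c * P := by rw [hcM]; simp only [Matrix.mul_assoc]
      _ = N * (Q * c * P) := by rw [hQM]; simp only [Matrix.mul_assoc]
  · show Pᵀ * ψ'.1 * P = (Q * c * P)ᵀ * (Pᵀ * ψ.1 * P) * (Q * c * P)
    calc Pᵀ * ψ'.1 * P = Pᵀ * (cᵀ * ψ.1 * c) * P := by rw [hcψ]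
      _ = Pᵀ * cᵀ * (Qᵀ * Pᵀ) * ψ.1 * (P * Q) * c * P := by
          rw [hQPt, hPQ]; simp only [Matrix.mul_assoc, Matrix.mul_one]
      _ = (Q * c * P)ᵀ * (Pᵀ * ψ.1 * P) * (Q * c * P) := by
          rw [Matrix.transpose_mul, Matrix.transpose_mul]; simp only [Matrix.mul_assoc]

/-- SKC: skew forms of similar matrices (`ψ ↦ Pᵀ ψ P`, `c ↦ P⁻¹ c P`). -/
theorem spc_skc {F : Type*} [Field F] {ι : Type*} [Fintype ι] [DecidableEq ι]
    (M N P : Matrix ι ι F) (hP : IsUnit P.det) (h : P * N = M * P) :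
    Nat.card (Quot (skRel M)) = Nat.card (Quot (skRel N)) := by
  obtain ⟨Q, hQ⟩ : ∃ Q : Matrix ι ι F, Q = P⁻¹ := ⟨_, rfl⟩
  have hPQ : P * Q = 1 := by rw [hQ]; exact Matrix.mul_nonsing_inv P hP
  have hQP : Q * P = 1 := by rw [hQ]; exact Matrix.nonsing_inv_mul P hP
  have hQM : Q * M = N * Q := by
    calc Q * M = Q * M * (P * Q) := by rw [hPQ, Matrix.mul_one]
      _ = Q * (M * P) * Q := by simp only [Matrix.mul_assoc]
      _ = Q * (P * N) * Q := by rw [h]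
      _ = (Q * P) * N * Q := by simp only [Matrix.mul_assoc]
      _ = N * Q := by rw [hQP, Matrix.one_mul]
  have hQPt : Qᵀ * Pᵀ = 1 := by rw [← Matrix.transpose_mul, hPQ, Matrix.transpose_one]
  have hPQt : Pᵀ * Qᵀ = 1 := by rw [← Matrix.transpose_mul, hQP, Matrix.transpose_one]
  let E : {ψ : Matrix ι ι F // IsSkF M ψ} ≃ {ψ : Matrix ι ι F // IsSkF N ψ} :=
    { toFun := fun ψ => ⟨Pᵀ * ψ.1 * P, isSkF_conj M N P Q hPQ h ψ.1 ψ.2⟩
      invFun := fun ψ => ⟨Qᵀ * ψ.1 * Q, isSkF_conj N M Q P hQP hQM ψ.1 ψ.2⟩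
      left_inv := fun ψ => Subtype.ext (by
        show Qᵀ * (Pᵀ * ψ.1 * P) * Q = ψ.1
        calc Qᵀ * (Pᵀ * ψ.1 * P) * Q = (Qᵀ * Pᵀ) * ψ.1 * (P * Q) := by
              simp only [Matrix.mul_assoc]
          _ = ψ.1 := by rw [hQPt, hPQ, Matrix.one_mul, Matrix.mul_one])
      right_inv := fun ψ => Subtype.ext (by
        show Pᵀ * (Qᵀ * ψ.1 * Q) * P = ψ.1
        calc Pᵀ * (Qᵀ * ψ.1 * Q) * P = (Pᵀ * Qᵀ) * ψ.1 * (Q * P) := by
              simp only [Matrix.mul_assoc]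
          _ = ψ.1 := by rw [hPQt, hQP, Matrix.one_mul, Matrix.mul_one]) }
  have h1 : ∀ a b, skRel M a b → skRel N (E a) (E b) :=
    fun a b hr => skRel_conj M N P Q hPQ hQP h a b hr
  have h2 : ∀ a b, skRel N a b → skRel M (E.symm a) (E.symm b) :=
    fun a b hr => skRel_conj N M Q P hQP hPQ hQM a b hr
  refine Nat.card_congr (Quot.congr E (fun a b => ⟨h1 a b, fun hr => ?_⟩))
  have h3 := h2 _ _ hr
  rw [E.symm_apply_apply, E.symm_apply_apply] at h3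
  exact h3

end Cfsg.Agent.Helper47.SPCSKC
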