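import Mathlib
import Cfsg.Agent.Helper44.SPCDefs
import Cfsg.Agent.Helper43.JordanForms2

/-!
# CALL S2676, piece JPERM (helper47)

Jordan matrices with the same multiset of block sizes are conjugate (by a permutation matrix).
-/

set_option autoImplicit false

namespace Cfsg.Agent.Helper47.SPCJPERM

open Matrix Cfsg.Agent.Helper21.JCent Cfsg.Agent.Helper44.UC Cfsg.Agent.Helper44.SPC

/-- reindexing a square matrix along a permutation of the index type is conjugation by a
permutation matrix -/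
theorem isConj_submatrix_perm {F : Type*} [Field F] {ι : Type*} [Fintype ι] [DecidableEq ι]
    (B : Matrix ι ι F) (π : ι ≃ ι) : IsConj (B.submatrix π π) B := by
  have h1 : (1 : Matrix ι ι F).submatrix id π * (1 : Matrix ι ι F).submatrix π id = 1 := by
    rw [Matrix.submatrix_mul_equiv, Matrix.one_mul, Matrix.submatrix_id_id]
  have h2 : (1 : Matrix ι ι F).submatrix π id * (1 : Matrix ι ι F).submatrix id π = 1 := by
    have := Matrix.submatrix_mul_equiv (1 : Matrix ι ι F) (1 : Matrix ι ι F) π (Equiv.refl ι) π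
    rw [Matrix.one_mul, Matrix.submatrix_one_equiv] at this
    exact this
  refine ⟨⟨(1 : Matrix ι ι F).submatrix id π, (1 : Matrix ι ι F).submatrix π id, h1, h2⟩, ?_⟩
  show (1 : Matrix ι ι F).submatrix id π * B.submatrix π π = B * (1 : Matrix ι ι F).submatrix id π
  rw [Matrix.submatrix_mul_equiv, Matrix.one_mul]
  have := Matrix.submatrix_mul_equiv B (1 : Matrix ι ι F) id (Equiv.refl ι) π
  rw [Matrix.mul_one] at this
  rw [← this]
  rfl

/-- JPERM: Jordan matrices with the same multiset of block sizes are conjugate. -/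
theorem spc_jperm {F : Type*} [Field F] {ι : Type*} [Fintype ι] [DecidableEq ι] {t t' : ℕ}
    (d : Fin t → ℕ) (d' : Fin t' → ℕ)
    (e : ((k : Fin t) × Fin (d k)) ≃ ι) (e' : ((k : Fin t') × Fin (d' k)) ≃ ι)
    (h : Multiset.map d Finset.univ.val = Multiset.map d' Finset.univ.val) :
    IsConj (Matrix.reindex e e (Cfsg.jordanTypeMatrix d F))
      (Matrix.reindex e' e' (Cfsg.jordanTypeMatrix d' F)) := by
  classical
  obtain ⟨σ, hσ⟩ := Cfsg.Agent.Helper43.JordanForms.exists_equiv_of_map_eq d d' h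
  obtain rfl : d = fun k => d' (σ k) := funext fun k => (hσ k).symm
  obtain ⟨s, hs⟩ : ∃ s : ((k : Fin t) × Fin (d' (σ k))) ≃ ((k' : Fin t') × Fin (d' k')),
      s = Equiv.sigmaCongrLeft (β := fun k' => Fin (d' k')) σ := ⟨_, rfl⟩
  have hJ : Cfsg.jordanTypeMatrix (fun k => d' (σ k)) F
      = (Cfsg.jordanTypeMatrix d' F).submatrix s s := by
    rw [hs, Cfsg.Agent.Helper43.JordanForms.JT_eq, Cfsg.Agent.Helper43.JordanForms.JT_eq,
      Cfsg.Agent.Helper43.JordanForms.JT_comp]
  obtain ⟨π, hπ⟩ : ∃ π : ι ≃ ι, π = e.symm.trans (s.trans e') := ⟨_, rfl⟩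
  have hA : Matrix.reindex e e (Cfsg.jordanTypeMatrix (fun k => d' (σ k)) F)
      = (Matrix.reindex e' e' (Cfsg.jordanTypeMatrix d' F)).submatrix π π := by
    rw [hJ, hπ]
    ext i j
    simp [Matrix.reindex_apply, Matrix.submatrix_apply]
  rw [hA]
  exact isConj_submatrix_perm _ π

end Cfsg.Agent.Helper47.SPCJPERM
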