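import Mathlib
import Cfsg.Agent.Helper44.SPCDefs
import Cfsg.Agent.Helper43.JordanRank

/-!
# CALL S2676, piece JUNIQ (helper47)

The Jordan type is determined by the conjugacy class (ranks of the powers of the nilpotent part).
-/

set_option autoImplicit false

namespace Cfsg.Agent.Helper47.SPCJUNIQ

open Matrix Cfsg.Agent.Helper21.JCent Cfsg.Agent.Helper44.UC Cfsg.Agent.Helper44.SPC

theorem count_map_univ {t : ℕ} (d : Fin t → ℕ) (j : ℕ) :
    Multiset.count j (Multiset.map d Finset.univ.val)
      = (Finset.univ.filter (fun k : Fin t => d k = j)).card := by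
  rw [Multiset.count_map, Finset.card_def, Finset.filter_val]
  congr 1
  apply Multiset.filter_congr
  intro x _
  exact eq_comm

/-- JUNIQ: the Jordan type is determined by the conjugacy class. -/
theorem spc_juniq {F : Type*} [Field F] {ι : Type*} [Fintype ι] [DecidableEq ι] {t t' : ℕ}
    (d : Fin t → ℕ) (d' : Fin t' → ℕ) (hd : ∀ k, 1 ≤ d k) (hd' : ∀ k, 1 ≤ d' k)
    (e : ((k : Fin t) × Fin (d k)) ≃ ι) (e' : ((k : Fin t') × Fin (d' k)) ≃ ι)
    (h : IsConj (Matrix.reindex e e (Cfsg.jordanTypeMatrix d F))
      (Matrix.reindex e' e' (Cfsg.jordanTypeMatrix d' F))) :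
    Multiset.map d Finset.univ.val = Multiset.map d' Finset.univ.val := by
  classical
  have hS : ∀ l : ℕ, ∑ k, (d k - l) = ∑ k, (d' k - l) := by
    intro l
    have h1 := Cfsg.Agent.Helper43.JordanRank.rank_of_isConj e (Cfsg.jordanTypeMatrix d F)
      (Matrix.reindex e' e' (Cfsg.jordanTypeMatrix d' F)) h l
    have h2 := Cfsg.Agent.Helper43.JordanRank.rank_of_isConj e' (Cfsg.jordanTypeMatrix d' F)
      (Matrix.reindex e' e' (Cfsg.jordanTypeMatrix d' F)) (IsConj.refl _) l
    rw [Cfsg.Agent.Helper43.JordanRank.rank_jordan] at h1 h2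
    rw [← h1, h2]
  have hc : ∀ j : ℕ, (Finset.univ.filter (fun k : Fin t => d k = j)).card
      = (Finset.univ.filter (fun k : Fin t' => d' k = j)).card := by
    intro j
    rcases Nat.eq_zero_or_pos j with rfl | hj
    · have e1 : (Finset.univ.filter (fun k : Fin t => d k = 0)) = ∅ := by
        apply Finset.filter_eq_empty_iff.2
        intro k _ hk
        have := hd k
        omega
      have e2 : (Finset.univ.filter (fun k : Fin t' => d' k = 0)) = ∅ := by
        apply Finset.filter_eq_empty_iff.2
        intro k _ hk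
        have := hd' k
        omega
      rw [e1, e2, Finset.card_empty, Finset.card_empty]
    · have i1 := Cfsg.Agent.Helper43.JordanRank.count_identity d j hj
      have i2 := Cfsg.Agent.Helper43.JordanRank.count_identity d' j hj
      rw [hS (j - 1), hS (j + 1), hS j] at i1
      omega
  apply Multiset.ext.2
  intro j
  rw [count_map_univ, count_map_univ, hc j]

end Cfsg.Agent.Helper47.SPCJUNIQ
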