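import Mathlib
import Cfsg.Agent.Helper44.SPCDefs
import Cfsg.Agent.Helper43.JordanRank

/-!
# CALL S2676, piece ORDTYPE (helper47)

The order of a symplectic matrix of Jordan type `d` in characteristic `p`.
-/

set_option autoImplicit false

namespace Cfsg.Agent.Helper47.SPCORDTYPE

open Matrix Cfsg.Agent.Helper21.JCent Cfsg.Agent.Helper44.UC Cfsg.Agent.Helper44.SPC

theorem eq_zero_of_rank_eq_zero {F : Type*} [Field F] {n : Type*} [Fintype n] [DecidableEq n]
    (A : Matrix n n F) (h : A.rank = 0) : A = 0 := by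
  have h1 : LinearMap.range A.mulVecLin = ⊥ := Submodule.finrank_eq_zero.1 h
  have h2 : A.mulVecLin = 0 := LinearMap.range_eq_bot.1 h1
  ext i j
  have h3 := congrArg (fun f => f (Pi.single j 1) i) h2
  simpa using h3

theorem sum_tsub_eq_zero_iff {t : ℕ} (d : Fin t → ℕ) (l : ℕ) :
    ∑ k, (d k - l) = 0 ↔ ∀ k, d k ≤ l := by
  rw [Finset.sum_eq_zero_iff]
  constructor
  · intro h k
    have := h k (Finset.mem_univ k)
    omega
  · intro h k _
    have := h k
    omega

/-- ORDTYPE: the order of a symplectic matrix of Jordan type `d` (characteristic `p`). -/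
theorem spc_ordtype {F : Type*} [Field F] {p : ℕ} [Fact p.Prime] [CharP F p] {m t : ℕ}
    (d : Fin t → ℕ) (hd : ∀ k, 1 ≤ d k) (e : ((k : Fin t) × Fin (d k)) ≃ (Fin m ⊕ Fin m))
    (g : Matrix.symplecticGroup (Fin m) F)
    (hg : IsConj (Matrix.reindex e e (Cfsg.jordanTypeMatrix d F))
      (g : Matrix (Fin m ⊕ Fin m) (Fin m ⊕ Fin m) F)) :
    orderOf g = p ↔ (∀ k, d k ≤ p) ∧ ∃ k, d k ≠ 1 := by
  classical
  have hp : p.Prime := Fact.out
  obtain ⟨A, hA⟩ : ∃ A : Matrix (Fin m ⊕ Fin m) (Fin m ⊕ Fin m) F, A = g := ⟨_, rfl⟩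
  have hrank : ∀ l : ℕ, ((A - 1) ^ l).rank = ∑ k, (d k - l) := by
    intro l
    rw [hA, Cfsg.Agent.Helper43.JordanRank.rank_of_isConj e (Cfsg.jordanTypeMatrix d F) _ hg l,
      Cfsg.Agent.Helper43.JordanRank.rank_jordan]
  have hzero : ∀ l : ℕ, (A - 1) ^ l = 0 ↔ ∀ k, d k ≤ l := by
    intro l
    rw [← sum_tsub_eq_zero_iff, ← hrank l]
    constructor
    · intro h; rw [h]; exact Matrix.rank_zero
    · exact eq_zero_of_rank_eq_zero _
  have hone : A = 1 ↔ ∀ k, d k = 1 := by
    have h1 := hzero 1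
    rw [pow_one, sub_eq_zero] at h1
    rw [h1]
    constructor
    · intro h k; exact le_antisymm (h k) (hd k)
    · intro h k; exact (h k).le
  have hg1 : g = 1 ↔ A = 1 := by
    rw [hA]
    constructor
    · intro h; rw [h]; rfl
    · intro h; exact Subtype.ext h
  have hgp : g ^ p = 1 ↔ A ^ p = 1 := by
    rw [hA]
    constructor
    · intro h
      have := congrArg (fun x : Matrix.symplecticGroup (Fin m) F =>
        (x : Matrix (Fin m ⊕ Fin m) (Fin m ⊕ Fin m) F)) h
      simpa using this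
    · intro h
      apply Subtype.ext
      simpa using h
  rw [orderOf_eq_prime_iff, hgp, ne_eq, hg1, hone]
  rcases Nat.eq_zero_or_pos m with hm | hm
  · -- degenerate case: empty index type
    subst hm
    have ht : IsEmpty (Fin t) := by
      constructor
      intro k
      exact (Sum.elim Fin.elim0 Fin.elim0 (e ⟨k, ⟨0, hd k⟩⟩) : False)
    constructor
    · rintro ⟨_, h2⟩
      exact absurd (fun k => (ht.false k).elim) h2
    · rintro ⟨_, k, _⟩
      exact (ht.false k).elim
  · have : Nonempty (Fin m ⊕ Fin m) := ⟨Sum.inl ⟨0, hm⟩⟩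
    have hpow : (A - 1) ^ p = A ^ p - 1 := by
      rw [sub_pow_char_of_commute p (Commute.one_right A), one_pow]
    have hAp : A ^ p = 1 ↔ ∀ k, d k ≤ p := by
      rw [← hzero p, hpow, sub_eq_zero]
    rw [hAp]
    constructor
    · rintro ⟨h1, h2⟩
      refine ⟨h1, ?_⟩
      by_contra hc
      push Not at hc
      exact h2 hc
    · rintro ⟨h1, k, hk⟩
      exact ⟨h1, fun hc => hk (hc k)⟩

end Cfsg.Agent.Helper47.SPCORDTYPE
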