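import Mathlib
import Cfsg.Agent.Helper44.SPCDefs

/-!
# CALL S2676, piece PRODCOUNT (helper47)

The product of the numbers of congruence classes over the block sizes.
-/

set_option autoImplicit false

namespace Cfsg.Agent.Helper47.SPCPRODCOUNT

open Matrix Cfsg.Agent.Helper21.JCent Cfsg.Agent.Helper44.UC Cfsg.Agent.Helper44.SPC

/-- PRODCOUNT: the product of the numbers of classes. -/
theorem spc_prodcount {t : ℕ} (d : Fin t → ℕ)
    (hpar : ∀ j : ℕ, Odd j → Even (Finset.univ.filter (fun k : Fin t => d k = j)).card) :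
    ∏ i : Fin (Finset.univ.sup d + 1), nOrb (i : ℕ) (Fintype.card {x : Fin t // dd d x = i})
      = 2 ^ ((Finset.univ.image d).filter (fun j => Even j)).card := by
  classical
  have key : ∀ i : Fin (Finset.univ.sup d + 1),
      nOrb (i : ℕ) (Fintype.card {x : Fin t // dd d x = i})
        = if (Even (i : ℕ) ∧ (i : ℕ) ∈ Finset.univ.image d) then 2 else 1 := by
    intro i
    rw [card_block d i]
    have hmem : (i : ℕ) ∈ Finset.univ.image d ↔
        (Finset.univ.filter (fun k : Fin t => d k = (i : ℕ))).card ≠ 0 := by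
      rw [Finset.card_ne_zero, Finset.mem_image]
      constructor
      · rintro ⟨k, _, hk⟩; exact ⟨k, by simp [hk]⟩
      · rintro ⟨k, hk⟩; exact ⟨k, Finset.mem_univ _, by simpa using hk⟩
    unfold nOrb
    by_cases he : Even (i : ℕ)
    · by_cases h0 : (Finset.univ.filter (fun k : Fin t => d k = (i : ℕ))).card = 0
      · have hn : ¬ ((i : ℕ) ∈ Finset.univ.image d) := fun h => (hmem.1 h) h0
        rw [if_pos he, if_pos h0, if_neg (fun h => hn h.2)]
      · have hn : (i : ℕ) ∈ Finset.univ.image d := hmem.2 h0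
        rw [if_pos he, if_neg h0, if_pos ⟨he, hn⟩]
    · have ho : Odd (i : ℕ) := Nat.not_even_iff_odd.1 he
      rw [if_neg he, if_pos (hpar _ ho), if_neg (fun h => he h.1)]
  rw [Finset.prod_congr rfl (fun i _ => key i)]
  rw [Fin.prod_univ_eq_prod_range
    (fun j => if (Even j ∧ j ∈ Finset.univ.image d) then 2 else 1) (Finset.univ.sup d + 1)]
  rw [Finset.prod_ite, Finset.prod_const, Finset.prod_const_one, mul_one]
  congr 2
  ext j
  simp only [Finset.mem_filter, Finset.mem_range, Finset.mem_image, Finset.mem_univ, true_and]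
  constructor
  · rintro ⟨_, he, hk⟩; exact ⟨hk, he⟩
  · rintro ⟨⟨k, hk⟩, he⟩
    refine ⟨?_, he, k, hk⟩
    rw [← hk]; exact Nat.lt_succ_of_le (Finset.le_sup (Finset.mem_univ k))

end Cfsg.Agent.Helper47.SPCPRODCOUNT
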