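import Cfsg.Agent.Helper45.FldA

set_option autoImplicit false
set_option linter.unusedSectionVars false
set_option linter.unusedSimpArgs false
set_option linter.unusedVariables false
set_option linter.style.haveILetI false

/-!
Helper library (helper47): piece C5 of CALL S2715 (helper45): an element of `Inndiag(PΩ⁺)`
commuting with the standard field automorphism comes from a class-preserving similarity over
the fixed field (port of `Helper44.POm.minus_comm_descend` with trivial model).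
-/

universe u v

namespace Cfsg.Agent.Helper47.FldP

open Matrix Cfsg
open Cfsg.Agent.Helper45.OO (semiAut semiMap glMap)
open Cfsg.Agent.Helper44.POm
open Cfsg.Agent.Helper45.Fld
open Cfsg.Agent.Helper45.Oct (om one8 cj Tri q_one8_ne)

section Two

variable {F : Type u} [Field F] [Fintype F] {F₀ : Type v} [Field F₀] [Fintype F₀] {m : ℕ}

/-- PIECE C5 -/
theorem plus_comm_descend (hm : 3 ≤ m) (hR₀ : Helper45.reflGroup (Helper43.plusQF m F₀) = ⊤)
    (hR : Helper45.reflGroup (Helper43.plusQF m F) = ⊤)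
    (σ : RingAut F) (r : ℕ) (hr : orderOf σ = r) (hr0 : 0 < r)
    (ι : F₀ →+* F) (hι : ∀ x, σ x = x ↔ x ∈ Set.range ι)
    (g : ↥(pscpGrp hR)) (hcomm : pscpD hR g * pF m σ = pF m σ * pscpD hR g) :
    ∃ γ : ↥(pscpGrp hR₀), pscpD hR g = pscpD hR (pscpTh hR₀ hR ι γ) := by
  classical
  haveI : Nonempty (Fin m ⊕ Fin m) := ⟨Sum.inl ⟨0, by omega⟩⟩
  have hQ := Helper45.plusQF_nondeg' (F := F) m
  have hn5 : 5 ≤ Fintype.card (Fin m ⊕ Fin m) := by
    rw [Fintype.card_sum, Fintype.card_fin]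
    omega
  obtain ⟨G, hG⟩ : ∃ G : Matrix (Fin m ⊕ Fin m) (Fin m ⊕ Fin m) F,
      G = ((g : GL (Fin m ⊕ Fin m) F) : Matrix (Fin m ⊕ Fin m) (Fin m ⊕ Fin m) F) := ⟨_, rfl⟩
  have hgS : IsSemisimilarityPair (quadFormPlus m F) g.1 (RingEquiv.refl F) :=
    semi_of_mem _ g.1 g.2.1
  have hq : ∀ (t : F) (w : Fin m ⊕ Fin m → F),
      quadFormPlus m F (t • w) = t * t * quadFormPlus m F w :=
    fun t w => QuadraticMap.map_smul (Helper43.plusQF m F) t w
  -- the commutation relation on matrices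
  have e1 := Helper45.OO.semiAut_mul (quadFormPlus m F) g.1 1 (RingEquiv.refl F) σ hgS
    (Helper45.Oct.plus_field m σ)
  have e2 := Helper45.OO.semiAut_mul (quadFormPlus m F) 1 g.1 σ (RingEquiv.refl F)
    (Helper45.Oct.plus_field m σ) hgS
  rw [pscpD_apply, pF_apply] at hcomm
  have e3 := e1.symm.trans (hcomm.trans e2)
  obtain ⟨-, l, hl⟩ := Helper45.OO.semi_unique (Helper43.plusQF m F) hQ hn5 _ _ _ _ _ _ e3
  have hNσ : G.map σ = l • G := by
    apply Helper13.mulVec_ext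
    intro y
    have h3 := hl (fvec σ⁻¹ y)
    rw [semiMap_eq, semiMap_eq] at h3
    have h4 : fvec (σ * RingEquiv.refl F : RingAut F) (fvec σ⁻¹ y) = y := fvec_inv σ y
    have h5 : fvec (RingEquiv.refl F * σ : RingAut F) (fvec σ⁻¹ y) = y := fvec_inv σ y
    rw [h4, h5, Units.val_mul, Units.val_mul, Helper45.OO.glMap_coe, Helper45.OO.glMap_refl,
      Units.val_one, Matrix.one_mul, Matrix.mul_one] at h3
    rw [hG, h3, Matrix.smul_mulVec]
  have hσr : σ ^ r = 1 := by rw [← hr, pow_orderOf_eq_one]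
  have h4 := gmat_map_pow_smul σ l _ hNσ r
  rw [hσr, gmat_map_map_one] at h4
  have h5 : Helper44.PSLn.twR (σ : F →+* F) l r = 1 := by
    have h6 := congrArg (fun M => M * ((g.1⁻¹ : GL (Fin m ⊕ Fin m) F) :
      Matrix (Fin m ⊕ Fin m) (Fin m ⊕ Fin m) F)) h4
    have h7 : G * ((g.1⁻¹ : GL (Fin m ⊕ Fin m) F) :
        Matrix (Fin m ⊕ Fin m) (Fin m ⊕ Fin m) F) = 1 := by
      rw [hG]
      exact Units.mul_inv _
    simp only [Matrix.smul_mul, h7] at h6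
    have h8 : (1 : F) • (1 : Matrix (Fin m ⊕ Fin m) (Fin m ⊕ Fin m) F)
        = Helper44.PSLn.twR (σ : F →+* F) l r • (1 : Matrix (Fin m ⊕ Fin m) (Fin m ⊕ Fin m) F) := by
      rw [one_smul]
      exact h6
    exact (gmat_smul_one_inj _ _ h8).symm
  obtain ⟨b₁, hb₁0, hb₁⟩ := Helper44.PSLn.lang_h90_scalar σ r hr hr0 l h5
  have hMfix : (b₁ • G).map σ = b₁ • G := by
    rw [gmat_map_smul, hNσ, smul_smul, mul_comm, hb₁]
  have hex : ∀ i j, ∃ x : F₀, ι x = (b₁ • G) i j :=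
    fun i j => (hι _).mp (congrFun (congrFun hMfix i) j)
  choose M₀f hM₀f using hex
  obtain ⟨M₀, hM₀⟩ : ∃ M₀ : Matrix (Fin m ⊕ Fin m) (Fin m ⊕ Fin m) F₀,
      M₀.map ι = b₁ • G :=
    ⟨Matrix.of M₀f, by ext i j; exact hM₀f i j⟩
  have hdet : M₀.det ≠ 0 := by
    intro h0
    have h1 := RingHom.map_det ι M₀
    rw [h0, map_zero] at h1
    have h3 : ((scGL b₁ hb₁0 * g.1 : GL (Fin m ⊕ Fin m) F) :
        Matrix (Fin m ⊕ Fin m) (Fin m ⊕ Fin m) F).det = 0 := by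
      rw [scGL_mul_coe, ← hG, ← hM₀]
      exact h1.symm
    apply (Matrix.GeneralLinearGroup.det (scGL b₁ hb₁0 * g.1)).ne_zero
    rw [Matrix.GeneralLinearGroup.val_det_apply]
    exact h3
  obtain ⟨c, hc⟩ := id g.2.1
  have hMsim : ∀ v, quadFormPlus m F (M₀.map ι *ᵥ v)
      = (b₁ * b₁ * (c : F)) * quadFormPlus m F v := by
    intro v
    rw [hM₀, Matrix.smul_mulVec, hq, hG, hc]
    ring
  obtain ⟨c₀, hc₀, hM₀sim⟩ := plus_sim_descend (by omega) ι M₀ _ hMsim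
  have hc₀0 : c₀ ≠ 0 := by
    rintro rfl
    rw [map_zero] at hc₀
    exact (mul_ne_zero (mul_ne_zero hb₁0 hb₁0) c.ne_zero) hc₀.symm
  obtain ⟨γ, hγ⟩ : ∃ γ : GL (Fin m ⊕ Fin m) F₀,
      γ = Matrix.GeneralLinearGroup.mkOfDetNeZero M₀ hdet := ⟨_, rfl⟩
  have hγc : (γ : Matrix (Fin m ⊕ Fin m) (Fin m ⊕ Fin m) F₀) = M₀ := by
    rw [hγ]
    rfl
  have hγsim : γ ∈ Geo.quadSimilarityGroup (F := F₀) (quadFormPlus m F₀) :=
    ⟨Units.mk0 c₀ hc₀0, fun v => by rw [hγc]; exact hM₀sim v⟩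
  have hdesc := psc_iota hR₀ hR ι γ hγsim
  have hcoe : ((Matrix.GeneralLinearGroup.map ι γ : GL (Fin m ⊕ Fin m) F) :
      Matrix (Fin m ⊕ Fin m) (Fin m ⊕ Fin m) F) = b₁ • G := by
    show (γ : Matrix (Fin m ⊕ Fin m) (Fin m ⊕ Fin m) F₀).map ι = b₁ • G
    rw [hγc, hM₀]
  have hP₀ : PreservesSingularClasses (quadFormPlus m F₀)
      (γ : Matrix (Fin m ⊕ Fin m) (Fin m ⊕ Fin m) F₀) := by
    apply hdesc.2.mp
    rw [hcoe, pres_smul _ b₁ hb₁0, hG]
    exact g.2.2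
  refine ⟨⟨γ, hγsim, hP₀⟩, ?_⟩
  rw [pscpD_apply, pscpD_apply]
  have hscmem : (scGL b₁ hb₁0 : GL (Fin m ⊕ Fin m) F)
      ∈ Geo.quadSimilarityGroup (F := F) (quadFormPlus m F) :=
    ⟨Units.mk0 (b₁ * b₁) (mul_ne_zero hb₁0 hb₁0), fun v => by
      rw [scGL_coe, Matrix.smul_mulVec, Matrix.one_mulVec]
      exact hq b₁ v⟩
  have hsim : scGL b₁ hb₁0 * g.1 ∈ Geo.quadSimilarityGroup (F := F) (quadFormPlus m F) :=
    Subgroup.mul_mem _ hscmem g.2.1
  have h3 : semiAut (quadFormPlus m F) (scGL b₁ hb₁0 * g.1) (RingEquiv.refl F)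
        (semi_of_mem _ _ hsim)
      = semiAut (quadFormPlus m F) g.1 (RingEquiv.refl F) hgS :=
    semiAut_scGL_mul (Helper43.plusQF m F) b₁ hb₁0 g.1 (RingEquiv.refl F) hgS
      (semi_of_mem _ _ hsim)
  refine h3.symm.trans (Helper45.OO.semiAut_congr (quadFormPlus m F) _ _ ?_ rfl)
  apply Units.ext
  rw [scGL_mul_coe, pscpTh_coe]
  show b₁ • ((g : GL (Fin m ⊕ Fin m) F) : Matrix (Fin m ⊕ Fin m) (Fin m ⊕ Fin m) F)
    = (γ : Matrix (Fin m ⊕ Fin m) (Fin m ⊕ Fin m) F₀).map ι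
  rw [hγc, hM₀, hG]

end Two

end Cfsg.Agent.Helper47.FldP
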