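import Mathlib
import Cfsg.Agent.Helper90.HTDefs
import Cfsg.Agent.Helper47.HTFld

/-!
# CALL S5953, piece NEG1 (helper47)

A norm-one `w` with `w ^ n = -1` exists iff `(n)_2 < (q+1)_2`.
-/

set_option autoImplicit false

namespace Cfsg.Agent.Helper47.HT5953

open Module Polynomial Cfsg.Agent.Helper90.HT

section field

variable {F : Type*} [Field F] [Fintype F] (q : ℕ) (hq : Fintype.card F = q ^ 2) (σ : F →+* F)
  (hσ : ∀ a, σ a = a ^ q)

include hq hσ

/-- NEG1: a norm-one `w` with `w ^ n = -1` exists iff `(n)_2 < (q+1)_2`. -/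
theorem ht_neg_one_pow (h2 : (2 : F) ≠ 0) (n : ℕ) (hn : 0 < n) :
    (∃ w : F, w * σ w = 1 ∧ w ^ n = -1) ↔ padicValNat 2 n < padicValNat 2 (q + 1) := by
  have hq2 := Cfsg.Agent.Helper47.HTF.two_le_q q hq
  have hneg : (-1 : F) ≠ 1 := by
    intro h
    apply h2
    have : (2 : F) = 1 + 1 := by norm_num
    rw [this]
    nth_rewrite 1 [← h]
    ring
  obtain ⟨s, hs, h2s⟩ := Cfsg.Agent.Helper47.HTF.exists_padic_split 2 (q + 1) (by omega)
  obtain ⟨n', hn', h2n'⟩ := Cfsg.Agent.Helper47.HTF.exists_padic_split 2 n (by omega)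
  obtain ⟨c, hc⟩ : ∃ c, c = padicValNat 2 (q + 1) := ⟨_, rfl⟩
  obtain ⟨a, ha⟩ : ∃ a, a = padicValNat 2 n := ⟨_, rfl⟩
  rw [← hc] at hs ⊢
  rw [← ha] at hn' ⊢
  have hsodd : Odd s := Nat.not_even_iff_odd.1 (fun he => h2s (even_iff_two_dvd.1 he))
  have hn'odd : Odd n' := Nat.not_even_iff_odd.1 (fun he => h2n' (even_iff_two_dvd.1 he))
  constructor
  · rintro ⟨w, hw, hwn⟩
    by_contra hlt
    have hca : c ≤ a := by omega
    rw [Cfsg.Agent.Helper47.HTF.norm_eq q σ hσ] at hw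
    have h1 : w ^ (n * s) = -1 := by
      rw [pow_mul, hwn, hsodd.neg_one_pow]
    have h3 : n * s = (q + 1) * (2 ^ (a - c) * n') := by
      rw [hn', hs]
      have : 2 ^ a = 2 ^ c * 2 ^ (a - c) := by rw [← pow_add]; congr 1; omega
      rw [this]; ring
    rw [h3, pow_mul, hw, one_pow] at h1
    exact hneg h1.symm
  · intro hlt
    obtain ⟨g, hg, hgen⟩ := Cfsg.Agent.Helper47.HTF.exists_gen q hq
    -- q + 1 = 2 ^ (a + 1) * u
    obtain ⟨u, hu⟩ : ∃ u, q + 1 = 2 ^ (a + 1) * u := by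
      refine ⟨2 ^ (c - (a + 1)) * s, ?_⟩
      rw [hs]
      have : 2 ^ c = 2 ^ (a + 1) * 2 ^ (c - (a + 1)) := by rw [← pow_add]; congr 1; omega
      rw [this]; ring
    have hu0 : 0 < u := by
      rcases Nat.eq_zero_or_pos u with h0 | h0
      · rw [h0] at hu; omega
      · exact h0
    -- the element of order 2
    have hN : (q - 1) * u * 2 ^ a * 2 = (q - 1) * (q + 1) := by
      rw [hu, pow_succ]; ring
    have hpos : 0 < (q - 1) * u * 2 ^ a := by
      have h1 : 0 < q - 1 := by omega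
      positivity
    have hy2 : (((g ^ ((q - 1) * u * 2 ^ a) : Fˣ) : F)) ^ 2 = 1 := by
      rw [← Units.val_pow_eq_pow_val, ← pow_mul, hN, ← hg, pow_orderOf_eq_one]; rfl
    have hy1 : (((g ^ ((q - 1) * u * 2 ^ a) : Fˣ) : F)) ≠ 1 := by
      intro h
      have h' : g ^ ((q - 1) * u * 2 ^ a) = 1 := Units.ext h
      have hd := orderOf_dvd_of_pow_eq_one h'
      rw [hg, ← hN] at hd
      have := Nat.le_of_dvd hpos hd
      omega
    have hy : (((g ^ ((q - 1) * u * 2 ^ a) : Fˣ) : F)) = -1 := by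
      rcases sq_eq_one_iff.1 hy2 with h | h
      · exact absurd h hy1
      · exact h
    refine ⟨((g ^ ((q - 1) * u) : Fˣ) : F), ?_, ?_⟩
    · rw [Cfsg.Agent.Helper47.HTF.norm_eq q σ hσ, ← Units.val_pow_eq_pow_val, ← pow_mul]
      have h1 : (q - 1) * u * (q + 1) = ((q - 1) * (q + 1)) * u := by ring
      rw [h1, pow_mul, ← hg, pow_orderOf_eq_one, one_pow]; rfl
    · rw [← Units.val_pow_eq_pow_val, ← pow_mul]
      have h1 : (q - 1) * u * n = ((q - 1) * u * 2 ^ a) * n' := by rw [hn']; ring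
      rw [h1, pow_mul, Units.val_pow_eq_pow_val, hy, hn'odd.neg_one_pow]

end field

end Cfsg.Agent.Helper47.HT5953
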