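import Mathlib
import Cfsg.Agent.S0570
import Cfsg.Agent.Helper1.Hall
import Cfsg.Agent.Helper1.PPrimeCore
import Cfsg.Agent.Helper35.HallCoprime
import Cfsg.Agent.Helper64.PiTwo

/-!
# CALL S1438 (B&G 15.7), piece CC (helper47)

In a nilpotent subgroup the elements of order prime to `k` generate a subgroup of order prime to `k`.
-/

set_option autoImplicit false

namespace Cfsg.Agent.Helper47

open Cfsg Subgroup

universe u

variable {G : Type u} [Group G] [Finite G]

/-- CC (pure). -/
theorem bg157_coprime_closure {Γ : Type u} [Group Γ] [Finite Γ] {F : Subgroup Γ}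
    (hF : Group.IsNilpotent ↥F) (k : ℕ) (hk : 0 < k) :
    (Nat.card ↥(Subgroup.closure {f : Γ | f ∈ F ∧ (orderOf f).Coprime k})).Coprime k := by
  classical
  have hnil0 : Group.IsNilpotent ↥F := hF
  obtain ⟨m, n, hN, hmn, hm, hn⟩ := Cfsg.Agent.Helper35.exists_pi_factorization
    {p : ℕ | ¬ p ∣ k} (Nat.card F) Nat.card_pos.ne'
  obtain ⟨Hq, hHq⟩ := Cfsg.Agent.Helper1.hall_exists_aux (Nat.card F) ↥F m n rfl hN hmn
  have hm0 : 0 < m := by
    rcases Nat.eq_zero_or_pos m with h0 | h0
    · rw [h0, zero_mul] at hN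
      exact absurd hN Nat.card_pos.ne'
    · exact h0
  have hidx : Hq.index = n := by
    have h1 := Subgroup.card_mul_index Hq
    rw [hHq, hN] at h1
    exact Nat.eq_of_mul_eq_mul_left hm0 h1
  have hHqn : Hq.Normal := Cfsg.Agent.S0570.normal_of_hall_of_nilpotent Hq (by rw [hHq, hidx]; exact hmn)
  have hmk : m.Coprime k := Nat.coprime_of_dvd (fun p hp hpm hpk => hm p hp hpm hpk)
  have hle : Subgroup.closure {f : Γ | f ∈ F ∧ (orderOf f).Coprime k} ≤ Hq.map F.subtype := by
    rw [Subgroup.closure_le]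
    rintro f ⟨hfF, hfk⟩
    have hcop : (orderOf (⟨f, hfF⟩ : F)).Coprime Hq.index := by
      rw [hidx, Subgroup.orderOf_mk]
      apply Nat.coprime_of_dvd
      intro p hp hpo hpn
      have hpk : p ∣ k := by
        by_contra hpk
        exact hn p hp hpk hpn
      exact (Nat.Prime.one_lt hp).ne' (Nat.eq_one_of_dvd_coprimes hfk hpo hpk)
    have hmem := Cfsg.Agent.Helper64.mem_of_coprime_index Hq (⟨f, hfF⟩ : F) hcop
    exact ⟨⟨f, hfF⟩, hmem, rfl⟩
  have hcard : Nat.card (Hq.map F.subtype) = m := by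
    rw [Subgroup.card_map_of_injective F.subtype_injective, hHq]
  have hdvd := Subgroup.card_dvd_of_le hle
  rw [hcard] at hdvd
  exact Nat.Coprime.coprime_dvd_left hdvd hmk

end Cfsg.Agent.Helper47
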