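import Mathlib
import Cfsg.Agent.S0570
import Cfsg.Agent.Helper1.Hall
import Cfsg.Agent.Helper1.PPrimeCore
import Cfsg.Agent.Helper35.HallCoprime
import Cfsg.Agent.Helper64.PiTwo

/-!
# CALL S1438 (B&G 15.7), piece FU3 (helper47)

Fusion by an element of the nilpotent normal subgroup `F` is induced by `H`.
-/

set_option autoImplicit false

namespace Cfsg.Agent.Helper47

open Cfsg Subgroup

universe u

variable {G : Type u} [Group G] [Finite G]

/-- `[F : H ∩ F]` divides `[S : H]` for `F` normal, `F, H ≤ S` -/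
theorem bg157_relIndex_dvd {Γ : Type u} [Group Γ] [Finite Γ] {F S H : Subgroup Γ} [F.Normal]
    (hFS : F ≤ S) (hHS : H ≤ S) : H.relIndex F ∣ H.relIndex S := by
  have h1 : Nat.card (F ⊔ H : Subgroup Γ) = Nat.card F * F.relIndex H :=
    Cfsg.Agent.Helper1.card_sup_eq_mul_relIndex F H
  have h2 : Nat.card (F ⊓ H : Subgroup Γ) * F.relIndex H = Nat.card H := by
    have := Cfsg.Agent.Helper35.card_mul_relIndex_of_le (inf_le_right : F ⊓ H ≤ H)
    rwa [Subgroup.inf_relIndex_right] at this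
  have h3 : Nat.card (H ⊓ F : Subgroup Γ) * H.relIndex F = Nat.card F := by
    have := Cfsg.Agent.Helper35.card_mul_relIndex_of_le (inf_le_right : H ⊓ F ≤ F)
    rwa [Subgroup.inf_relIndex_right] at this
  have h4 : Nat.card H * H.relIndex (F ⊔ H) = Nat.card (F ⊔ H : Subgroup Γ) :=
    Cfsg.Agent.Helper35.card_mul_relIndex_of_le (le_sup_right : H ≤ F ⊔ H)
  have h5 : H.relIndex (F ⊔ H) = H.relIndex F := by
    have hpos : 0 < Nat.card H := Nat.card_pos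
    apply Nat.eq_of_mul_eq_mul_left hpos
    rw [h4, h1, ← h3, ← h2, inf_comm F H]
    ring
  have h6 := Subgroup.relIndex_mul_relIndex H (F ⊔ H) S le_sup_right (sup_le hFS hHS)
  rw [h5] at h6
  exact Dvd.intro _ h6

/-- FU3 (pure). -/
theorem bg157_fusion_F {Γ : Type u} [Group Γ] [Finite Γ] {F S H : Subgroup Γ} [F.Normal]
    (hFS : F ≤ S) (hF : Group.IsNilpotent ↥F) (hHS : H ≤ S)
    (hHall : (Nat.card H).Coprime (H.relIndex S))
    (hP : (Nat.card ↥(Subgroup.closure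
      {f : Γ | f ∈ F ∧ (orderOf f).Coprime (Nat.card H)})).Coprime (Nat.card H))
    {z f : Γ} (hz : z ∈ H) (hf : f ∈ F) (hfz : f * z * f⁻¹ ∈ H) :
    ∃ h ∈ H, h * z * h⁻¹ = f * z * f⁻¹ := by
  classical
  have hFn : F.Normal := inferInstance
  have hnil : Group.IsNilpotent ↥F := hF
  have hdiv : H.relIndex F ∣ H.relIndex S := bg157_relIndex_dvd hFS hHS
  have hcopF : (Nat.card H).Coprime (H.relIndex F) := Nat.Coprime.coprime_dvd_right hdiv hHall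
  have hKcard : Nat.card (H.subgroupOf F) ∣ Nat.card H := by
    rw [← Subgroup.inf_subgroupOf_right, Cfsg.Agent.Helper1.card_subgroupOf_of_le inf_le_right]
    exact Subgroup.card_dvd_of_le inf_le_left
  have hKn : (H.subgroupOf F).Normal :=
    Cfsg.Agent.S0570.normal_of_hall_of_nilpotent (H.subgroupOf F)
      (Nat.Coprime.coprime_dvd_left hKcard hcopF)
  -- decomposition of `f`
  obtain ⟨m, n, ho, hmn, hmπ, hnπ⟩ := Cfsg.Agent.Helper35.exists_pi_factorization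
    {p : ℕ | p ∣ Nat.card H} (orderOf f) (orderOf_pos f).ne'
  have hnH : n.Coprime (Nat.card H) :=
    Nat.coprime_of_dvd (fun p hp hpn hpH => hnπ p hp hpH hpn)
  have hmI : m.Coprime (H.relIndex F) := by
    apply Nat.coprime_of_dvd
    intro p hp hpm hpI
    exact (Nat.Prime.one_lt hp).ne' (Nat.eq_one_of_dvd_coprimes hcopF (hmπ p hp hpm) hpI)
  obtain ⟨e₁, he₁m, he₁n⟩ := Nat.chineseRemainder hmn 1 0
  obtain ⟨e₂, he₂m, he₂n⟩ := Nat.chineseRemainder hmn 0 1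
  have hne₁ : n ∣ e₁ := (Nat.modEq_zero_iff_dvd).1 he₁n
  have hme₂ : m ∣ e₂ := (Nat.modEq_zero_iff_dvd).1 he₂m
  have hsum : f ^ e₁ * f ^ e₂ = f := by
    rw [← pow_add]
    have h1 : e₁ + e₂ ≡ 1 [MOD m] := by
      have := Nat.ModEq.add he₁m he₂m
      simpa using this
    have h2 : e₁ + e₂ ≡ 1 [MOD n] := by
      have := Nat.ModEq.add he₁n he₂n
      simpa using this
    have h3 : e₁ + e₂ ≡ 1 [MOD orderOf f] := by
      rw [ho]
      exact (Nat.modEq_and_modEq_iff_modEq_mul hmn).1 ⟨h1, h2⟩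
    have h4 := pow_eq_pow_iff_modEq.2 h3
    rw [pow_one] at h4
    exact h4
  have hf₁m : (f ^ e₁) ^ m = 1 := by
    rw [← pow_mul]
    apply orderOf_dvd_iff_pow_eq_one.1
    rw [ho]
    obtain ⟨c, rfl⟩ := hne₁
    exact ⟨c, by ring⟩
  have hf₂n : (f ^ e₂) ^ n = 1 := by
    rw [← pow_mul]
    apply orderOf_dvd_iff_pow_eq_one.1
    rw [ho]
    obtain ⟨c, rfl⟩ := hme₂
    exact ⟨c, by ring⟩
  have hf₁F : f ^ e₁ ∈ F := F.pow_mem hf e₁
  have hf₂F : f ^ e₂ ∈ F := F.pow_mem hf e₂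
  -- `f₁ ∈ H`
  have hf₁H : f ^ e₁ ∈ H := by
    have hcop : (orderOf (⟨f ^ e₁, hf₁F⟩ : F)).Coprime (H.subgroupOf F).index := by
      rw [Subgroup.orderOf_mk]
      exact Nat.Coprime.coprime_dvd_left (orderOf_dvd_of_pow_eq_one hf₁m) hmI
    have hmem := @Cfsg.Agent.Helper64.mem_of_coprime_index _ _ (H.subgroupOf F) hKn
      (⟨f ^ e₁, hf₁F⟩ : F) hcop
    exact Subgroup.mem_subgroupOf.1 hmem
  -- `f₂ z f₂⁻¹ ∈ H`
  have hkey : ∀ a b : Γ, b * z * b⁻¹ = a⁻¹ * ((a * b) * z * (a * b)⁻¹) * a := by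
    intro a b
    group
  have hconj : f ^ e₂ * z * (f ^ e₂)⁻¹ = (f ^ e₁)⁻¹ * (f * z * f⁻¹) * f ^ e₁ := by
    have := hkey (f ^ e₁) (f ^ e₂)
    rwa [hsum] at this
  have hf₂z : f ^ e₂ * z * (f ^ e₂)⁻¹ ∈ H := by
    rw [hconj]
    exact H.mul_mem (H.mul_mem (H.inv_mem hf₁H) hfz) hf₁H
  -- the commutator is trivial
  have hcH : f ^ e₂ * z * (f ^ e₂)⁻¹ * z⁻¹ ∈ H := H.mul_mem hf₂z (H.inv_mem hz)
  have hcP : f ^ e₂ * z * (f ^ e₂)⁻¹ * z⁻¹ ∈
      Subgroup.closure {f : Γ | f ∈ F ∧ (orderOf f).Coprime (Nat.card H)} := by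
    have e : f ^ e₂ * z * (f ^ e₂)⁻¹ * z⁻¹ = f ^ e₂ * (z * (f ^ e₂)⁻¹ * z⁻¹) := by group
    rw [e]
    apply Subgroup.mul_mem
    · apply Subgroup.subset_closure
      exact ⟨hf₂F, Nat.Coprime.coprime_dvd_left (orderOf_dvd_of_pow_eq_one hf₂n) hnH⟩
    · apply Subgroup.subset_closure
      refine ⟨hFn.conj_mem _ (F.inv_mem hf₂F) z, ?_⟩
      have hpow : (z * (f ^ e₂)⁻¹ * z⁻¹) ^ n = 1 := by
        rw [conj_pow, inv_pow, hf₂n]
        group
      exact Nat.Coprime.coprime_dvd_left (orderOf_dvd_of_pow_eq_one hpow) hnH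
  have hc1 : f ^ e₂ * z * (f ^ e₂)⁻¹ * z⁻¹ = 1 := by
    have h1 := Subgroup.orderOf_dvd_natCard _ hcP
    have h2 := Subgroup.orderOf_dvd_natCard _ hcH
    have h3 := Nat.dvd_gcd h1 h2
    rw [Nat.Coprime.gcd_eq_one hP] at h3
    exact orderOf_eq_one_iff.1 (Nat.dvd_one.1 h3)
  have hf₂comm : f ^ e₂ * z * (f ^ e₂)⁻¹ = z := by
    have := congrArg (fun t => t * z) hc1
    simpa using this
  refine ⟨f ^ e₁, hf₁H, ?_⟩
  calc f ^ e₁ * z * (f ^ e₁)⁻¹ = f ^ e₁ * (f ^ e₂ * z * (f ^ e₂)⁻¹) * (f ^ e₁)⁻¹ := by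
        rw [hf₂comm]
    _ = (f ^ e₁ * f ^ e₂) * z * (f ^ e₁ * f ^ e₂)⁻¹ := by
        have hkey2 : ∀ a b : Γ, a * (b * z * b⁻¹) * a⁻¹ = (a * b) * z * (a * b)⁻¹ := by
          intro a b
          group
        exact hkey2 _ _
    _ = f * z * f⁻¹ := by rw [hsum]

end Cfsg.Agent.Helper47
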