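import Mathlib
import Cfsg.Agent.S0570
import Cfsg.Agent.Helper1.Hall
import Cfsg.Agent.Helper1.PPrimeCore
import Cfsg.Agent.Helper35.HallCoprime
import Cfsg.Agent.Helper64.PiTwo

/-!
# CALL S1438 (B&G 15.7), piece FU4 (helper47)

Reduction of fusion by `m` to fusion by `F` (Hall conjugacy inside `H ⊔ F`).
-/

set_option autoImplicit false

namespace Cfsg.Agent.Helper47

open Cfsg Subgroup
open scoped Pointwise

universe u

variable {G : Type u} [Group G] [Finite G]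

theorem bg157_mem_normalizer_of_conj_mem {Γ : Type u} [Group Γ] [Finite Γ] (H : Subgroup Γ)
    (g : Γ) (h : ∀ y ∈ H, g * y * g⁻¹ ∈ H) : g ∈ normalizer (H : Set Γ) := by
  rw [Subgroup.mem_normalizer_iff]
  intro y
  refine ⟨h y, fun hy => ?_⟩
  have hinj : Function.Injective (fun a : H => (⟨g * a.1 * g⁻¹, h a.1 a.2⟩ : H)) := by
    intro a b hab
    have h1 : g * a.1 * g⁻¹ = g * b.1 * g⁻¹ := congrArg Subtype.val hab
    apply Subtype.ext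
    have h2 := congrArg (fun t => g⁻¹ * t * g) h1
    simpa [mul_assoc] using h2
  obtain ⟨a, ha⟩ := (Finite.injective_iff_surjective.1 hinj) ⟨g * y * g⁻¹, hy⟩
  have h1 : g * a.1 * g⁻¹ = g * y * g⁻¹ := congrArg Subtype.val ha
  have h2 := congrArg (fun t => g⁻¹ * t * g) h1
  have h3 : (a : Γ) = y := by simpa [mul_assoc] using h2
  rw [← h3]
  exact a.2

/-- FU4 (pure). -/
theorem bg157_fusion_red {Γ : Type u} [Group Γ] [Finite Γ] [Group.IsSolvable Γ]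
    {F S H : Subgroup Γ} [F.Normal] (hFS : F ≤ S) (hHS : H ≤ S)
    (hHall : (Nat.card H).Coprime (H.relIndex S))
    (hL : ∀ (m : Γ), ∀ h ∈ H, m * h * m⁻¹ ∈ H ⊔ F)
    (hsp : ∀ z ∈ H, ∀ f ∈ F, f * z * f⁻¹ ∈ H → ∃ h ∈ H, h * z * h⁻¹ = f * z * f⁻¹)
    {x m : Γ} (hx : x ∈ H) (hm : m * x * m⁻¹ ∈ H) :
    ∃ n ∈ normalizer (H : Set Γ), n * x * n⁻¹ = m * x * m⁻¹ := by
  classical
  obtain ⟨L, hLdef⟩ : ∃ L : Subgroup Γ, L = F ⊔ H := ⟨_, rfl⟩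
  have hHL : H ≤ L := hLdef ▸ le_sup_right
  have hFL : F ≤ L := hLdef ▸ le_sup_left
  have hLS : L ≤ S := hLdef ▸ sup_le hFS hHS
  -- the conjugate of `H`
  obtain ⟨Hm, hHmdef⟩ : ∃ Hm : Subgroup Γ, Hm = H.map (MulAut.conj m).toMonoidHom := ⟨_, rfl⟩
  have hHmL : Hm ≤ L := by
    rw [hHmdef]
    rintro _ ⟨h, hh, rfl⟩
    have := hL m h hh
    rw [sup_comm] at this
    rw [hLdef]
    exact this
  have hcardHm : Nat.card Hm = Nat.card H := by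
    rw [hHmdef]
    exact Subgroup.card_map_of_injective (MulAut.conj m).injective
  -- Hall in `L`
  have hcardL : Nat.card L = Nat.card H * H.relIndex L :=
    (Cfsg.Agent.Helper35.card_mul_relIndex_of_le hHL).symm
  have hcop : (Nat.card H).Coprime (H.relIndex L) := by
    have h6 := Subgroup.relIndex_mul_relIndex H L S hHL hLS
    exact Nat.Coprime.coprime_dvd_right (Dvd.intro _ h6) hHall
  obtain ⟨g, hg⟩ := Cfsg.Agent.Helper1.hall_conj_aux (Nat.card L) ↥L (Nat.card H)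
    (H.relIndex L) rfl hcardL hcop (Hm.subgroupOf L) (H.subgroupOf L)
    (by rw [Cfsg.Agent.Helper1.card_subgroupOf_of_le hHmL, hcardHm])
    (Cfsg.Agent.Helper1.card_subgroupOf_of_le hHL)
  -- consequence: `l (m y m⁻¹) l⁻¹ ∈ H` for `y ∈ H`
  have hA : ∀ y ∈ H, (g : Γ) * (m * y * m⁻¹) * (g : Γ)⁻¹ ∈ H := by
    intro y hy
    have hyHm : m * y * m⁻¹ ∈ Hm := by
      rw [hHmdef]
      exact ⟨y, hy, rfl⟩
    have h1 : (⟨m * y * m⁻¹, hHmL hyHm⟩ : L) ∈ Hm.subgroupOf L := Subgroup.mem_subgroupOf.2 hyHm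
    have h2 : MulAut.conj g • (⟨m * y * m⁻¹, hHmL hyHm⟩ : L) ∈ MulAut.conj g • Hm.subgroupOf L :=
      Subgroup.smul_mem_pointwise_smul _ _ _ h1
    rw [hg, MulAut.smul_def, MulAut.conj_apply] at h2
    exact Subgroup.mem_subgroupOf.1 h2
  -- `g⁻¹ = f * h₁`
  have hginv : ((g : Γ))⁻¹ ∈ F ⊔ H := by
    rw [← hLdef]
    exact L.inv_mem g.2
  have hginv' : ((g : Γ))⁻¹ ∈ ((F ⊔ H : Subgroup Γ) : Set Γ) := hginv
  rw [Subgroup.normal_mul] at hginv'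
  obtain ⟨f, hf', h₁, hh₁', hfh'⟩ := hginv'
  have hf : f ∈ F := hf'
  have hh₁ : h₁ ∈ H := hh₁'
  have hfh : f * h₁ = (g : Γ)⁻¹ := hfh'
  -- `n₀ := h₁ * g * m`
  have hn₀ : ∀ y ∈ H, (h₁ * (g : Γ) * m) * y * (h₁ * (g : Γ) * m)⁻¹ ∈ H := by
    intro y hy
    have e : (h₁ * (g : Γ) * m) * y * (h₁ * (g : Γ) * m)⁻¹
        = h₁ * ((g : Γ) * (m * y * m⁻¹) * (g : Γ)⁻¹) * h₁⁻¹ := by group
    rw [e]
    exact H.mul_mem (H.mul_mem hh₁ (hA y hy)) (H.inv_mem hh₁)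
  have hn₀N : h₁ * (g : Γ) * m ∈ normalizer (H : Set Γ) :=
    bg157_mem_normalizer_of_conj_mem H _ hn₀
  have hmf : m = f * (h₁ * (g : Γ) * m) := by
    have e : f * (h₁ * (g : Γ) * m) = (f * h₁) * (g : Γ) * m := by group
    rw [e, hfh]
    group
  have hzH : (h₁ * (g : Γ) * m) * x * (h₁ * (g : Γ) * m)⁻¹ ∈ H := hn₀ x hx
  have hmx : m * x * m⁻¹
      = f * ((h₁ * (g : Γ) * m) * x * (h₁ * (g : Γ) * m)⁻¹) * f⁻¹ := by
    have hkey : ∀ a b : Γ, (a * b) * x * (a * b)⁻¹ = a * (b * x * b⁻¹) * a⁻¹ := by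
      intro a b
      group
    rw [← hkey, ← hmf]
  obtain ⟨h, hh, hhz⟩ := hsp _ hzH f hf (by rw [← hmx]; exact hm)
  refine ⟨h * (h₁ * (g : Γ) * m), ?_, ?_⟩
  · exact Subgroup.mul_mem _ (Subgroup.le_normalizer hh) hn₀N
  · have hkey : ∀ a b : Γ, (a * b) * x * (a * b)⁻¹ = a * (b * x * b⁻¹) * a⁻¹ := by
      intro a b
      group
    rw [hkey, hhz, ← hmx]

end Cfsg.Agent.Helper47
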