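import Mathlib
import Cfsg.Prelude.Def_OddOrderLocal
import Cfsg.Agent.Helper35.HallCoprime

/-!
# CALL S1437 (BG15b), tools of helper47: complements from Hall-type cardinal conditions.
-/

set_option autoImplicit false

namespace Cfsg.Agent.Helper47

open Cfsg Subgroup

universe u

variable {G : Type u} [Group G] [Finite G]

theorem bg15b_complIn_of_card {A B S : Subgroup G} (hA : A ≤ S) (hB : B ≤ S) (hinf : A ⊓ B = ⊥)
    (hcard : Nat.card S ≤ Nat.card A * Nat.card B) : IsComplIn A B S := by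
  refine ⟨hA, hB, hinf, ?_⟩
  have hinj : Function.Injective (fun x : ↥A × ↥B =>
      (⟨(x.1 : G) * (x.2 : G), mul_mem (hA x.1.2) (hB x.2.2)⟩ : ↥S)) := by
    rintro ⟨⟨a, ha⟩, ⟨b, hb⟩⟩ ⟨⟨a', ha'⟩, ⟨b', hb'⟩⟩ hEq
    have hEq' : a * b = a' * b' := congrArg Subtype.val hEq
    have h1 : a'⁻¹ * a = b' * b⁻¹ := by
      calc a'⁻¹ * a = a'⁻¹ * (a * b) * b⁻¹ := by group
        _ = a'⁻¹ * (a' * b') * b⁻¹ := by rw [hEq']
        _ = b' * b⁻¹ := by group
    have h2 : a'⁻¹ * a ∈ A ⊓ B :=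
      ⟨A.mul_mem (A.inv_mem ha') ha, by rw [h1]; exact B.mul_mem hb' (B.inv_mem hb)⟩
    rw [hinf, Subgroup.mem_bot, inv_mul_eq_one] at h2
    subst h2
    have h4 : b = b' := mul_left_cancel hEq'
    subst h4
    rfl
  have hbij := hinj.bijective_of_nat_card_le (by rw [Nat.card_prod]; exact hcard)
  intro m hm
  obtain ⟨⟨a, b⟩, hab⟩ := hbij.2 ⟨m, hm⟩
  exact ⟨a, a.2, b, b.2, (congrArg Subtype.val hab).symm⟩

theorem bg15b_complIn_of_hall {Q D S : Subgroup G} {q : ℕ} (hq : q.Prime) (hQS : Q ≤ S)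
    (hDS : D ≤ S) (hQq : IsPGroup q Q) (hQi : ¬ q ∣ Q.relIndex S) (hDq : ¬ q ∣ Nat.card D)
    (hDi : ∀ p : ℕ, p.Prime → p ∣ D.relIndex S → p = q) : IsComplIn Q D S := by
  haveI := Fact.mk hq
  obtain ⟨n, hn⟩ := IsPGroup.iff_card.mp hQq
  have h1 : Nat.card Q * Q.relIndex S = Nat.card S :=
    Cfsg.Agent.Helper35.card_mul_relIndex_of_le hQS
  have h2 : Nat.card D * D.relIndex S = Nat.card S :=
    Cfsg.Agent.Helper35.card_mul_relIndex_of_le hDS
  have hs0 : D.relIndex S ≠ 0 := by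
    intro h
    rw [h, mul_zero] at h2
    exact Nat.card_pos.ne' h2.symm
  obtain ⟨j, hj⟩ : ∃ j, D.relIndex S = q ^ j :=
    ⟨_, Nat.eq_prime_pow_of_unique_prime_dvd hs0 (fun {d} hd hdvd => hDi d hd hdvd)⟩
  have hcopQ : Nat.Coprime (q ^ n) (Nat.card D) :=
    Nat.Coprime.pow_left n ((Nat.Prime.coprime_iff_not_dvd hq).mpr hDq)
  have hcopr : Nat.Coprime (q ^ j) (Q.relIndex S) :=
    Nat.Coprime.pow_left j ((Nat.Prime.coprime_iff_not_dvd hq).mpr hQi)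
  have e : q ^ n * Q.relIndex S = Nat.card D * q ^ j := by rw [← hn, h1, ← hj, h2]
  have hnj : q ^ n ∣ q ^ j := hcopQ.dvd_of_dvd_mul_left (Dvd.intro _ e)
  have hjn : q ^ j ∣ q ^ n := hcopr.dvd_of_dvd_mul_right (Dvd.intro_left _ e.symm)
  have hpow : q ^ n = q ^ j := Nat.dvd_antisymm hnj hjn
  have hcard : Nat.card Q * Nat.card D = Nat.card S := by
    rw [hn, hpow, mul_comm, ← hj, h2]
  have hinf : Q ⊓ D = ⊥ := by
    have hd1 : Nat.card (Q ⊓ D : Subgroup G) ∣ q ^ n := hn ▸ Subgroup.card_dvd_of_le inf_le_left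
    have hd2 : Nat.card (Q ⊓ D : Subgroup G) ∣ Nat.card D := Subgroup.card_dvd_of_le inf_le_right
    exact Subgroup.card_eq_one.mp (Nat.eq_one_of_dvd_coprimes hcopQ hd1 hd2)
  exact bg15b_complIn_of_card hQS hDS hinf hcard.ge

omit [Finite G] in
theorem bg15b_norm_of_conj (K Y : Subgroup G) (h : ∀ k ∈ K, ∀ y ∈ Y, k * y * k⁻¹ ∈ Y) :
    K ≤ normalizer (Y : Set G) := by
  intro k hk
  rw [Subgroup.mem_normalizer_iff]
  intro y
  constructor
  · exact h k hk y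
  · intro hy
    have h1 := h k⁻¹ (K.inv_mem hk) _ hy
    have h2 : k⁻¹ * (k * y * k⁻¹) * k⁻¹⁻¹ = y := by group
    rw [h2] at h1
    exact h1

end Cfsg.Agent.Helper47
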