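import Mathlib

/-!
# Helper47: PIECE PD of CALL BGP (helper23): uniqueness of the decomposition into commuting
`π`- and `π'`-parts.
-/

set_option autoImplicit false

namespace Cfsg.Agent.Helper47

open Subgroup

universe u

variable {G : Type u} [Group G] [Finite G]

/-- PD (pure). Uniqueness of the decomposition into commuting `π`- and `π'`-parts. -/
theorem bgp_pi_parts {π : Set ℕ} {x ρ y κ : G} (hxρ : Commute x ρ) (hyκ : Commute y κ)
    (hx : ∀ q : ℕ, q.Prime → q ∣ orderOf x → q ∈ π)
    (hρ : ∀ q : ℕ, q.Prime → q ∣ orderOf ρ → q ∉ π)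
    (hy : ∀ q : ℕ, q.Prime → q ∣ orderOf y → q ∈ π)
    (hκ : ∀ q : ℕ, q.Prime → q ∣ orderOf κ → q ∉ π)
    (h : x * ρ = y * κ) : x = y ∧ ρ = κ := by
  have hxy : x = y := by
    have hN1 : (x * ρ) ^ (orderOf ρ * orderOf κ) = x ^ (orderOf ρ * orderOf κ) := by
      rw [hxρ.mul_pow, pow_mul ρ, pow_orderOf_eq_one, one_pow, mul_one]
    have hN2 : (y * κ) ^ (orderOf ρ * orderOf κ) = y ^ (orderOf ρ * orderOf κ) := by
      rw [hyκ.mul_pow, mul_comm (orderOf ρ), pow_mul κ, pow_orderOf_eq_one, one_pow, mul_one]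
    have hpow : x ^ (orderOf ρ * orderOf κ) = y ^ (orderOf ρ * orderOf κ) := by
      rw [← hN1, ← hN2, h]
    have hcop : Nat.Coprime (orderOf ρ * orderOf κ) (orderOf x * orderOf y) := by
      apply Nat.Coprime.mul_left <;> apply Nat.Coprime.mul_right <;>
        apply Nat.coprime_of_dvd
      · intro q hq h1 h2; exact hρ q hq h1 (hx q hq h2)
      · intro q hq h1 h2; exact hρ q hq h1 (hy q hq h2)
      · intro q hq h1 h2; exact hκ q hq h1 (hx q hq h2)
      · intro q hq h1 h2; exact hκ q hq h1 (hy q hq h2)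
    by_cases hk : 1 < orderOf x * orderOf y
    · obtain ⟨m, -, hm⟩ := Nat.exists_mul_mod_eq_one_of_coprime hcop hk
      have hdm := Nat.div_add_mod (orderOf ρ * orderOf κ * m) (orderOf x * orderOf y)
      rw [hm] at hdm
      have ex : x ^ (orderOf ρ * orderOf κ * m) = x := by
        rw [← hdm, pow_add, pow_one, mul_assoc, pow_mul, pow_orderOf_eq_one, one_pow, one_mul]
      have ey : y ^ (orderOf ρ * orderOf κ * m) = y := by
        rw [← hdm, pow_add, pow_one, mul_comm (orderOf x), mul_assoc, pow_mul,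
          pow_orderOf_eq_one, one_pow, one_mul]
      rw [← ex, ← ey, pow_mul x (orderOf ρ * orderOf κ) m, pow_mul y (orderOf ρ * orderOf κ) m, hpow]
    · have hx0 : 0 < orderOf x := orderOf_pos x
      have hy0 : 0 < orderOf y := orderOf_pos y
      have h1 : orderOf x * orderOf y = 1 := by
        have : 0 < orderOf x * orderOf y := Nat.mul_pos hx0 hy0
        omega
      have hx1 : orderOf x = 1 := Nat.eq_one_of_mul_eq_one_right h1
      have hy1 : orderOf y = 1 := Nat.eq_one_of_mul_eq_one_left h1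
      rw [orderOf_eq_one_iff.mp hx1, orderOf_eq_one_iff.mp hy1]
  refine ⟨hxy, ?_⟩
  rw [hxy] at h
  exact mul_left_cancel h

end Cfsg.Agent.Helper47
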