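import Mathlib

/-!
# Helper47: PIECE GLUE of CALL C3O (helper43).
-/

set_option autoImplicit false

namespace Cfsg.Agent.Helper47

open Matrix Module Polynomial

universe u

/-- PIECE GLUE -/
theorem c3o_glue {F : Type*} [Field F] {V : Type*} [AddCommGroup V] [Module F V]
    (B : LinearMap.BilinForm F V) (hs : B.IsSymm) (W₁ W₂ : Submodule F V) (hc : IsCompl W₁ W₂)
    (ho : ∀ u ∈ W₁, ∀ v ∈ W₂, B u v = 0) (n : F) (J₁ : W₁ →ₗ[F] W₁) (J₂ : W₂ →ₗ[F] W₂)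
    (h₁ : ∀ w, J₁ (J₁ w) = n • w) (h₂ : ∀ w, J₂ (J₂ w) = n • w)
    (hs₁ : ∀ u v : W₁, B (J₁ u : V) (v : V) = B (u : V) (J₁ v : V))
    (hs₂ : ∀ u v : W₂, B (J₂ u : V) (v : V) = B (u : V) (J₂ v : V)) :
    ∃ J : V →ₗ[F] V, (∀ v, J (J v) = n • v) ∧ (∀ u v, B (J u) v = B u (J v)) ∧
      (∀ w : W₁, J (w : V) = (J₁ w : V)) ∧ ∀ w : W₂, J (w : V) = (J₂ w : V) := by
  obtain ⟨J, hJdef⟩ : ∃ J : V →ₗ[F] V,
      J = LinearMap.ofIsCompl hc (W₁.subtype ∘ₗ J₁) (W₂.subtype ∘ₗ J₂) := ⟨_, rfl⟩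
  have hJ1 : ∀ w : W₁, J (w : V) = (J₁ w : V) := by
    intro w
    rw [hJdef, LinearMap.ofIsCompl_apply_left]
    rfl
  have hJ2 : ∀ w : W₂, J (w : V) = (J₂ w : V) := by
    intro w
    rw [hJdef, LinearMap.ofIsCompl_apply_right]
    rfl
  have hdec : ∀ v : V, ∃ (w₁ : W₁) (w₂ : W₂), v = (w₁ : V) + (w₂ : V) := by
    intro v
    have hv : v ∈ W₁ ⊔ W₂ := by rw [hc.sup_eq_top]; trivial
    obtain ⟨a, ha, b, hb, rfl⟩ := Submodule.mem_sup.mp hv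
    exact ⟨⟨a, ha⟩, ⟨b, hb⟩, rfl⟩
  have ho' : ∀ (u : W₁) (v : W₂), B (u : V) (v : V) = 0 := fun u v => ho u u.2 v v.2
  have ho'' : ∀ (v : W₂) (u : W₁), B (v : V) (u : V) = 0 := fun v u => by
    rw [hs.eq]; exact ho' u v
  refine ⟨J, ?_, ?_, hJ1, hJ2⟩
  · intro v
    obtain ⟨w₁, w₂, rfl⟩ := hdec v
    rw [map_add, hJ1, hJ2, map_add, hJ1, hJ2, h₁, h₂, smul_add]
    rfl
  · intro u v
    obtain ⟨u₁, u₂, rfl⟩ := hdec u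
    obtain ⟨v₁, v₂, rfl⟩ := hdec v
    have e1 : J ((u₁ : V) + (u₂ : V)) = (J₁ u₁ : V) + (J₂ u₂ : V) := by
      rw [map_add, hJ1, hJ2]
    have e2 : J ((v₁ : V) + (v₂ : V)) = (J₁ v₁ : V) + (J₂ v₂ : V) := by
      rw [map_add, hJ1, hJ2]
    rw [e1, e2]
    simp only [map_add, LinearMap.add_apply]
    rw [ho' (J₁ u₁) v₂, ho'' (J₂ u₂) v₁, ho' u₁ (J₂ v₂), ho'' u₂ (J₁ v₁), hs₁, hs₂]

end Cfsg.Agent.Helper47
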