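-- helper47 library: piece FINAL of CALL S3795 (helper63): the Fitting chain from the key claim.
import Cfsg.Agent.Helper63.Gross2Defs
import Cfsg.Agent.S3794

set_option autoImplicit false

namespace Cfsg.Agent.Helper47

open Cfsg.Agent.Helper63.Gross2 Cfsg.Agent.Helper63.Gross Cfsg.Agent.Helper63.Fpf4

universe u

/-- auxiliary form: the chain for `σ ^ 2 ^ (k + 2) = 1`, of length `m = 2 * k + 2`. -/
theorem chain_of_claim_aux (HC : ∀ n, ClaimStmt.{u} n) :
    ∀ k : ℕ, ∀ m : ℕ, m = 2 * k + 2 → ∀ (G : Type u) [Group G] [Finite G],
    Group.IsSolvable G → ∀ σ : MulAut G, σ ^ 2 ^ (k + 2) = 1 → (∀ g : G, σ g = g → g = 1) →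
    ∃ F : Fin (m + 1) → Subgroup G, F 0 = ⊥ ∧ F (Fin.last m) = ⊤ ∧ Monotone F ∧
      (∀ i, (F i).Normal) ∧
      ∀ i : Fin m, ∃ k : ℕ, (F i.succ).lowerCentralSeries k ≤ F i.castSucc := by
  intro k
  induction k with
  | zero =>
    intro m hm G _ _ hsol σ hσ hfpf
    have hm2 : m = 2 := by omega
    subst hm2
    have hnil : Group.IsNilpotent (commutator G) :=
      Cfsg.Agent.S3794.result hsol σ (by simpa using hσ) hfpf
    obtain ⟨c, hc⟩ := (Subgroup.isNilpotent_iff_lowerCentralSeries (commutator G)).mp hnil
    refine ⟨Fin.cons ⊥ (Fin.cons (commutator G) (fun _ => ⊤)), rfl, rfl, ?_, ?_, ?_⟩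
    · intro i j hij
      induction i using Fin.cases with
      | zero =>
        rw [Fin.cons_zero]
        exact bot_le
      | succ i =>
        induction j using Fin.cases with
        | zero =>
          exfalso
          exact absurd hij (by simp)
        | succ j =>
          rw [Fin.cons_succ, Fin.cons_succ]
          have hij' : i ≤ j := Fin.succ_le_succ_iff.mp hij
          induction i using Fin.cases with
          | zero =>
            induction j using Fin.cases with
            | zero => exact le_refl _
            | succ j =>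
              rw [Fin.cons_succ]
              exact le_top
          | succ i =>
            induction j using Fin.cases with
            | zero =>
              exfalso
              exact absurd hij' (by simp)
            | succ j =>
              rw [Fin.cons_succ, Fin.cons_succ]
    · intro i
      induction i using Fin.cases with
      | zero =>
        rw [Fin.cons_zero]
        infer_instance
      | succ i =>
        rw [Fin.cons_succ]
        induction i using Fin.cases with
        | zero =>
          rw [Fin.cons_zero]
          infer_instance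
        | succ i =>
          rw [Fin.cons_succ]
          infer_instance
    · intro i
      induction i using Fin.cases with
      | zero =>
        refine ⟨c, ?_⟩
        have h1 : (Fin.cons ⊥ (Fin.cons (commutator G) (fun _ => ⊤)) :
            Fin 3 → Subgroup G) (Fin.succ 0) = commutator G := rfl
        rw [h1, hc]
        exact bot_le
      | succ j =>
        refine ⟨1, ?_⟩
        have hj : j = 0 := Subsingleton.elim _ _
        subst hj
        have h1 : (Fin.cons ⊥ (Fin.cons (commutator G) (fun _ => ⊤)) :
            Fin 3 → Subgroup G) (Fin.succ (Fin.succ 0)) = ⊤ := rfl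
        have h2 : (Fin.cons ⊥ (Fin.cons (commutator G) (fun _ => ⊤)) :
            Fin 3 → Subgroup G) (Fin.castSucc (Fin.succ 0)) = commutator G := rfl
        rw [h1, h2, Subgroup.top_lowerCentralSeries_one]
  | succ k ih =>
    intro m hm G _ _ hsol σ hσ hfpf
    obtain ⟨m', rfl, hm'⟩ : ∃ m' : ℕ, m = m' + 2 ∧ m' = 2 * k + 2 := ⟨2 * k + 2, by omega, rfl⟩
    obtain ⟨N₁, N, hN₁n, hNn, hN₁N, ⟨c₁, hc₁⟩, ⟨c₂, hc₂⟩, hNσ, hNc⟩ :=
      HC (k + 2) G hsol σ hσ hfpf
    have := hNn
    have := hN₁n
    have := hsol
    have hNmap := map_eq_of_finite σ N hNσ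
    obtain ⟨F', hF0, hFlast, hFmono, hFnormal, hFlcs⟩ := ih m' hm' (G ⧸ N) inferInstance
      (QuotientGroup.congr N N σ hNmap : MulAut (G ⧸ N)) (congr_pow_eq_one σ N hNmap _ hNc)
      (congr_fpf σ hfpf N hNσ hNmap)
    have hker : ∀ i, N ≤ (F' i).comap (QuotientGroup.mk' N) := by
      intro i x hx
      rw [Subgroup.mem_comap]
      have : (QuotientGroup.mk' N) x = 1 := (QuotientGroup.eq_one_iff x).mpr hx
      rw [this]
      exact (F' i).one_mem
    refine ⟨Fin.cons ⊥ (Fin.cons N₁ (fun i => (F' i).comap (QuotientGroup.mk' N))),
      rfl, ?_, ?_, ?_, ?_⟩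
    · rw [← Fin.succ_last, Fin.cons_succ, ← Fin.succ_last, Fin.cons_succ, hFlast,
        Subgroup.comap_top]
    · intro i j hij
      induction i using Fin.cases with
      | zero =>
        rw [Fin.cons_zero]
        exact bot_le
      | succ i =>
        induction j using Fin.cases with
        | zero =>
          exfalso
          exact absurd hij (by simp)
        | succ j =>
          rw [Fin.cons_succ, Fin.cons_succ]
          have hij' : i ≤ j := Fin.succ_le_succ_iff.mp hij
          induction i using Fin.cases with
          | zero =>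
            induction j using Fin.cases with
            | zero => exact le_refl _
            | succ j =>
              rw [Fin.cons_zero, Fin.cons_succ]
              exact hN₁N.trans (hker j)
          | succ i =>
            induction j using Fin.cases with
            | zero =>
              exfalso
              exact absurd hij' (by simp)
            | succ j =>
              rw [Fin.cons_succ, Fin.cons_succ]
              exact Subgroup.comap_mono (hFmono (Fin.succ_le_succ_iff.mp hij'))
    · intro i
      induction i using Fin.cases with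
      | zero =>
        rw [Fin.cons_zero]
        infer_instance
      | succ i =>
        rw [Fin.cons_succ]
        induction i using Fin.cases with
        | zero =>
          rw [Fin.cons_zero]
          exact hN₁n
        | succ i =>
          rw [Fin.cons_succ]
          exact Subgroup.Normal.comap (hFnormal i) _
    · intro i
      induction i using Fin.cases with
      | zero =>
        refine ⟨c₁, ?_⟩
        have h1 : (Fin.cons ⊥ (Fin.cons N₁ (fun i => (F' i).comap (QuotientGroup.mk' N))) :
            Fin (m' + 2 + 1) → Subgroup G) (Fin.succ 0) = N₁ := rfl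
        rw [h1, hc₁]
        exact bot_le
      | succ j =>
        induction j using Fin.cases with
        | zero =>
          refine ⟨c₂, ?_⟩
          have h1 : (Fin.cons ⊥ (Fin.cons N₁ (fun i => (F' i).comap (QuotientGroup.mk' N))) :
              Fin (m' + 2 + 1) → Subgroup G) (Fin.succ (Fin.succ 0)) = N := by
            rw [Fin.cons_succ, Fin.cons_succ, hF0, MonoidHom.comap_bot, QuotientGroup.ker_mk']
          have h2 : (Fin.cons ⊥ (Fin.cons N₁ (fun i => (F' i).comap (QuotientGroup.mk' N))) :
              Fin (m' + 2 + 1) → Subgroup G) (Fin.castSucc (Fin.succ 0)) = N₁ := rfl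
          rw [h1, h2]
          exact hc₂
        | succ j =>
          obtain ⟨c, hc⟩ := hFlcs j
          refine ⟨c, ?_⟩
          have h1 : (Fin.cons ⊥ (Fin.cons N₁ (fun i => (F' i).comap (QuotientGroup.mk' N))) :
              Fin (m' + 2 + 1) → Subgroup G) j.succ.succ.succ =
              (F' j.succ).comap (QuotientGroup.mk' N) := by
            rw [Fin.cons_succ, Fin.cons_succ]
          have h2 : (Fin.cons ⊥ (Fin.cons N₁ (fun i => (F' i).comap (QuotientGroup.mk' N))) :
              Fin (m' + 2 + 1) → Subgroup G) j.succ.succ.castSucc =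
              (F' j.castSucc).comap (QuotientGroup.mk' N) := by
            rw [← Fin.succ_castSucc, Fin.cons_succ, ← Fin.succ_castSucc, Fin.cons_succ]
          rw [h1, h2, ← Subgroup.map_le_iff_le_comap, Subgroup.map_lowerCentralSeries,
            Subgroup.map_comap_eq_self_of_surjective (QuotientGroup.mk'_surjective N)]
          exact hc

/-- **Piece FINAL of CALL S3795.**  The Fitting chain of length `2n - 2` from the key claim. -/
theorem chain_of_claim (HC : ∀ n, ClaimStmt.{u} n) : ∀ n : ℕ, 2 ≤ n →
    ∀ (G : Type u) [Group G] [Finite G], Group.IsSolvable G → ∀ σ : MulAut G, σ ^ 2 ^ n = 1 →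
    (∀ g : G, σ g = g → g = 1) →
    ∃ F : Fin ((2 * n - 2) + 1) → Subgroup G, F 0 = ⊥ ∧ F (Fin.last (2 * n - 2)) = ⊤ ∧
      Monotone F ∧ (∀ i, (F i).Normal) ∧
      ∀ i : Fin (2 * n - 2), ∃ k : ℕ, (F i.succ).lowerCentralSeries k ≤ F i.castSucc := by
  intro n hn G _ _ hsol σ hσ hfpf
  obtain ⟨k, rfl⟩ : ∃ k, n = k + 2 := ⟨n - 2, by omega⟩
  exact chain_of_claim_aux HC k (2 * (k + 2) - 2) (by omega) G hsol σ hσ hfpf

end Cfsg.Agent.Helper47
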