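-- helper47 library: piece LIN of CALL S3795 (helper63), part A: the Clifford step relative to
-- an invariant subspace, and the resulting commutation lemma.
import Cfsg.Agent.Helper63.Gross2Defs

set_option autoImplicit false

namespace Cfsg.Agent.Helper47.GrossLin

open Module Cfsg.Agent.Helper63.Gross Cfsg.Agent.Helper63.Shult

universe u v w

variable {K : Type u} [Field K] [IsAlgClosed K] {M : Type v} [AddCommGroup M] [Module K M]
  [FiniteDimensional K M]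

omit [IsAlgClosed K] [FiniteDimensional K M] in
theorem pow_mem_of_mem (V : Submodule K M) (ξ : Module.End K M) (hξV : ∀ v ∈ V, ξ v ∈ V)
    (k : ℕ) : ∀ v ∈ V, (ξ ^ k) v ∈ V := by
  induction k with
  | zero =>
    intro v hv
    simpa using hv
  | succ k ih =>
    intro v hv
    rw [pow_succ', Module.End.mul_apply]
    exact hξV _ (ih v hv)

/-- **Clifford step relative to an invariant subspace `V`.** -/
theorem clifford_rel {ι : Type w} (V : Submodule K M) (f : ι → Module.End K M)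
    (hfV : ∀ i, ∀ v ∈ V, f i v ∈ V)
    (hcomm : ∀ i j, ∀ v ∈ V, f i (f j v) = f j (f i v))
    (hfin : ∀ i, ∃ m : ℕ, (m : K) ≠ 0 ∧ ∀ v ∈ V, ((f i) ^ m) v = v)
    (ξ : Module.End K M) (hξV : ∀ v ∈ V, ξ v ∈ V) (π : ι → ι)
    (hπ : ∀ i, ∀ v ∈ V, f i (ξ v) = ξ (f (π i) v))
    {N : ℕ} (hN : 0 < N) (hξN : ∀ v ∈ V, (ξ ^ N) v = v) (hfix : ∀ v ∈ V, ξ v = v → v = 0)
    (a b : Module.End K M) (haV : ∀ v ∈ V, a v ∈ V) (hbV : ∀ v ∈ V, b v ∈ V)
    (hab : ∃ v ∈ V, a v ≠ b v) :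
    ∃ (χ : ι → K) (s : ℕ), 0 < s ∧ s ∣ N ∧
      (∀ w ∈ V ⊓ simEig f χ, (ξ ^ s) w ∈ V ⊓ simEig f χ) ∧
      (∀ w ∈ V ⊓ simEig f χ, (ξ ^ s) w = w → w = 0) ∧
      (∃ w ∈ V ⊓ simEig f χ, a w ≠ b w) := by
  obtain ⟨f', hf'⟩ : ∃ f' : ι → Module.End K ↥V, ∀ i, f' i = (f i).restrict (hfV i) :=
    ⟨_, fun _ => rfl⟩
  obtain ⟨ξ', hξ'⟩ : ∃ ξ' : Module.End K ↥V, ξ' = ξ.restrict hξV := ⟨_, rfl⟩
  obtain ⟨a', ha'⟩ : ∃ a' : Module.End K ↥V, a' = a.restrict haV := ⟨_, rfl⟩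
  obtain ⟨b', hb'⟩ : ∃ b' : Module.End K ↥V, b' = b.restrict hbV := ⟨_, rfl⟩
  have hf'c : ∀ i (v : ↥V), ((f' i v : ↥V) : M) = f i v := by
    intro i v
    rw [hf']
    rfl
  have hξ'c : ∀ v : ↥V, ((ξ' v : ↥V) : M) = ξ v := by
    intro v
    rw [hξ']
    rfl
  have hξ'k : ∀ (k : ℕ) (v : ↥V), (((ξ' ^ k) v : ↥V) : M) = (ξ ^ k) v := by
    intro k v
    rw [hξ']
    exact restrict_pow_coe ξ V hξV k v
  have hcomm' : ∀ i j, f' i * f' j = f' j * f' i := by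
    intro i j
    apply LinearMap.ext
    intro v
    apply Subtype.ext
    rw [Module.End.mul_apply, Module.End.mul_apply, hf'c, hf'c, hf'c, hf'c]
    exact hcomm i j v v.2
  have hss' : ∀ i, (f' i).IsSemisimple := by
    intro i
    obtain ⟨m, hmK, hm⟩ := hfin i
    apply isSemisimple_of_pow_eq_one (f' i) m _ hmK
    apply LinearMap.ext
    intro v
    apply Subtype.ext
    rw [hf', restrict_pow_coe (f i) V (hfV i) m v, Module.End.one_apply]
    exact hm v v.2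
  have hπ' : ∀ i, f' i * ξ' = ξ' * f' (π i) := by
    intro i
    apply LinearMap.ext
    intro v
    apply Subtype.ext
    rw [Module.End.mul_apply, Module.End.mul_apply, hf'c, hξ'c, hξ'c, hf'c]
    exact hπ i v v.2
  have hξN' : ξ' ^ N = 1 := by
    apply LinearMap.ext
    intro v
    apply Subtype.ext
    rw [hξ'k, Module.End.one_apply]
    exact hξN v v.2
  have hfix' : ∀ v : ↥V, ξ' v = v → v = 0 := by
    intro v hv
    apply Subtype.ext
    apply hfix v v.2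
    have h1 := congrArg Subtype.val hv
    rw [hξ'c] at h1
    exact h1
  have hab' : a' ≠ b' := by
    obtain ⟨v, hvV, hv⟩ := hab
    intro h
    apply hv
    have h1 := LinearMap.congr_fun h ⟨v, hvV⟩
    have h2 := congrArg Subtype.val h1
    rw [ha', hb'] at h2
    exact h2
  obtain ⟨χ, s, hs0, hsN, hinv, hnofix, w₀, hw₀, hw₀ne⟩ :=
    clifford_step f' hcomm' hss' ξ' π hπ' hN hξN' hfix' a' b' hab'
  have hmem : ∀ v : ↥V, v ∈ simEig f' χ ↔ (v : M) ∈ V ⊓ simEig f χ := by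
    intro v
    rw [mem_simEig, Submodule.mem_inf, mem_simEig]
    constructor
    · intro h
      refine ⟨v.2, fun i => ?_⟩
      have h1 := congrArg Subtype.val (h i)
      rw [hf'c] at h1
      exact h1
    · intro h i
      apply Subtype.ext
      rw [hf'c]
      exact h.2 i
  refine ⟨χ, s, hs0, hsN, ?_, ?_, ?_⟩
  · intro w hw
    have h1 := hinv ⟨w, hw.1⟩ ((hmem ⟨w, hw.1⟩).mpr hw)
    have h2 := (hmem _).mp h1
    rw [hξ'k] at h2
    exact h2
  · intro w hw hfw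
    have h1 := hnofix ⟨w, hw.1⟩ ((hmem ⟨w, hw.1⟩).mpr hw) (by
      apply Subtype.ext
      rw [hξ'k]
      exact hfw)
    exact congrArg Subtype.val h1
  · refine ⟨(w₀ : M), (hmem w₀).mp hw₀, ?_⟩
    intro h
    apply hw₀ne
    apply Subtype.ext
    rw [ha', hb']
    exact h

/-- **Commutation lemma.**  A family of operators, commuting and of finite order prime to the
characteristic on the invariant subspace `V`, permuted by an operator `ξ` with
`ξ ^ 2 ^ j = 1` on `V` without nonzero fixed vectors in `V`, commutes on `V` with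
`ξ ^ 2 ^ (j - 1)`. -/
theorem comm_half_rel {ι : Type w} (V : Submodule K M) (f : ι → Module.End K M)
    (hfV : ∀ i, ∀ v ∈ V, f i v ∈ V)
    (hcomm : ∀ i j, ∀ v ∈ V, f i (f j v) = f j (f i v))
    (hfin : ∀ i, ∃ m : ℕ, (m : K) ≠ 0 ∧ ∀ v ∈ V, ((f i) ^ m) v = v)
    (ξ : Module.End K M) (hξV : ∀ v ∈ V, ξ v ∈ V) (π : ι → ι)
    (hπ : ∀ i, ∀ v ∈ V, f i (ξ v) = ξ (f (π i) v))
    {j : ℕ} (hj : 1 ≤ j) (hξN : ∀ v ∈ V, (ξ ^ 2 ^ j) v = v)
    (hfix : ∀ v ∈ V, ξ v = v → v = 0) :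
    ∀ i, ∀ v ∈ V, f i ((ξ ^ 2 ^ (j - 1)) v) = (ξ ^ 2 ^ (j - 1)) (f i v) := by
  intro i₀
  by_contra hcon
  push Not at hcon
  obtain ⟨v₀, hv₀V, hv₀⟩ := hcon
  have hζV : ∀ v ∈ V, (ξ ^ 2 ^ (j - 1)) v ∈ V := pow_mem_of_mem V ξ hξV _
  obtain ⟨χ, s, hs0, hsN, hinv, hnofix, w, hw, hwne⟩ :=
    clifford_rel V f hfV hcomm hfin ξ hξV π hπ (Nat.pow_pos (by norm_num : 0 < 2)) hξN hfix
      (f i₀ * ξ ^ 2 ^ (j - 1)) (ξ ^ 2 ^ (j - 1) * f i₀)
      (fun v hv => by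
        rw [Module.End.mul_apply]
        exact hfV i₀ _ (hζV v hv))
      (fun v hv => by
        rw [Module.End.mul_apply]
        exact hζV _ (hfV i₀ v hv))
      ⟨v₀, hv₀V, by
        rw [Module.End.mul_apply, Module.End.mul_apply]
        exact hv₀⟩
  obtain ⟨e, hej, rfl⟩ := (Nat.dvd_prime_pow Nat.prime_two).mp hsN
  have hw0 : w ≠ 0 := by
    intro h
    apply hwne
    rw [h, map_zero, map_zero]
  have hej' : e ≤ j - 1 := by
    by_contra hlt
    have he : e = j := by omega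
    apply hw0
    apply hnofix w hw
    rw [he]
    exact hξN w hw.1
  have hpow : ∀ c : ℕ, ∀ u ∈ V ⊓ simEig f χ, ((ξ ^ 2 ^ e) ^ c) u ∈ V ⊓ simEig f χ :=
    fun c => pow_mem_of_mem (V ⊓ simEig f χ) (ξ ^ 2 ^ e) hinv c
  have hζ : ξ ^ 2 ^ (j - 1) = (ξ ^ 2 ^ e) ^ 2 ^ (j - 1 - e) := by
    rw [← pow_mul, ← pow_add]
    congr 2
    omega
  have hζw : (ξ ^ 2 ^ (j - 1)) w ∈ V ⊓ simEig f χ := by
    rw [hζ]
    exact hpow _ w hw
  apply hwne
  rw [Module.End.mul_apply, Module.End.mul_apply, (mem_simEig f χ _).mp hζw.2 i₀,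
    (mem_simEig f χ _).mp hw.2 i₀, map_smul]

end Cfsg.Agent.Helper47.GrossLin
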