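-- helper47 library: piece LIN of CALL S3795 (helper63), part B: generic steps for groups of
-- invertible operators, and the application of the representation core.
import Cfsg.Agent.Helper47.Gross2LinA

set_option autoImplicit false

namespace Cfsg.Agent.Helper47.GrossLin

open Module Cfsg.Agent.Helper63.Gross Cfsg.Agent.Helper63.Shult Cfsg.Agent.Helper63.Gross2
  Cfsg.Agent.Helper63.ProjRep

universe u v

section Units

variable {K : Type u} [Field K] {M : Type v} [AddCommGroup M] [Module K M]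

theorem act_mul (g h : (Module.End K M)ˣ) (v : M) :
    ((g * h : (Module.End K M)ˣ) : Module.End K M) v =
      (g : Module.End K M) ((h : Module.End K M) v) := by
  rw [Units.val_mul, Module.End.mul_apply]

theorem act_one (v : M) : ((1 : (Module.End K M)ˣ) : Module.End K M) v = v := by
  rw [Units.val_one, Module.End.one_apply]

theorem act_inv_act (g : (Module.End K M)ˣ) (v : M) :
    ((g⁻¹ : (Module.End K M)ˣ) : Module.End K M) ((g : Module.End K M) v) = v := by
  rw [← act_mul, inv_mul_cancel, act_one]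

theorem act_act_inv (g : (Module.End K M)ˣ) (v : M) :
    (g : Module.End K M) (((g⁻¹ : (Module.End K M)ˣ) : Module.End K M) v) = v := by
  rw [← act_mul, mul_inv_cancel, act_one]

theorem act_pow (g : (Module.End K M)ˣ) (k : ℕ) (v : M) :
    ((g ^ k : (Module.End K M)ˣ) : Module.End K M) v = ((g : Module.End K M) ^ k) v := by
  rw [Units.val_pow_eq_pow_val]

theorem pres_pow (V : Submodule K M) (g : (Module.End K M)ˣ)
    (hg : ∀ v ∈ V, (g : Module.End K M) v ∈ V) (k : ℕ) :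
    ∀ v ∈ V, ((g ^ k : (Module.End K M)ˣ) : Module.End K M) v ∈ V := by
  intro v hv
  rw [act_pow]
  exact pow_mem_of_mem V _ hg k v hv

theorem pres_inv_of_pow (V : Submodule K M) (g : (Module.End K M)ˣ)
    (hg : ∀ v ∈ V, (g : Module.End K M) v ∈ V) {N : ℕ} (hN : 0 < N) (hgN : g ^ N = 1) :
    ∀ v ∈ V, ((g⁻¹ : (Module.End K M)ˣ) : Module.End K M) v ∈ V := by
  have hinv : g⁻¹ = g ^ (N - 1) := by
    apply inv_eq_of_mul_eq_one_right
    rw [← pow_succ']
    have : N - 1 + 1 = N := by omega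
    rw [this, hgN]
  rw [hinv]
  exact pres_pow V g hg _

/-- the simultaneous eigenspace of a set of invertible operators -/
def eig (Z : Set (Module.End K M)ˣ) (χ : Z → K) : Submodule K M :=
  simEig (fun z : Z => (((z : (Module.End K M)ˣ)) : Module.End K M)) χ

theorem mem_eig (Z : Set (Module.End K M)ˣ) (χ : Z → K) (v : M) :
    v ∈ eig Z χ ↔ ∀ z : Z, ((z : (Module.End K M)ˣ) : Module.End K M) v = χ z • v := Iff.rfl

theorem pres_eig (V : Submodule K M) (Z : Set (Module.End K M)ˣ) (χ : Z → K)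
    (g : (Module.End K M)ˣ) (hg : ∀ v ∈ V, (g : Module.End K M) v ∈ V)
    (hc : ∀ z ∈ Z, ∀ v ∈ V, (z : Module.End K M) ((g : Module.End K M) v) =
      (g : Module.End K M) ((z : Module.End K M) v)) :
    ∀ w ∈ V ⊓ eig Z χ, (g : Module.End K M) w ∈ V ⊓ eig Z χ := by
  intro w hw
  refine ⟨hg w hw.1, (mem_eig Z χ _).mpr ?_⟩
  intro z
  rw [hc z z.2 w hw.1, (mem_eig Z χ w).mp hw.2 z, map_smul]

end Units

section Steps

variable {K : Type u} [Field K] [IsAlgClosed K] {M : Type v} [AddCommGroup M] [Module K M]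
  [FiniteDimensional K M]

/-- **A Clifford step for a set `Z` of invertible operators** permuted by `y`. -/
theorem step_rel (V : Submodule K M) (y : (Module.End K M)ˣ) (j : ℕ) (hy : y ^ 2 ^ j = 1)
    (hyV : ∀ v ∈ V, (y : Module.End K M) v ∈ V)
    (hfix : ∀ v ∈ V, (y : Module.End K M) v = v → v = 0)
    (Z : Set (Module.End K M)ˣ) (hZV : ∀ z ∈ Z, ∀ v ∈ V, (z : Module.End K M) v ∈ V)
    (hZc : ∀ z ∈ Z, ∀ z' ∈ Z, ∀ v ∈ V, (z : Module.End K M) ((z' : Module.End K M) v) =
      (z' : Module.End K M) ((z : Module.End K M) v))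
    (hZfin : ∀ z ∈ Z, ∃ m : ℕ, (m : K) ≠ 0 ∧ z ^ m = 1)
    (hZy : ∀ z ∈ Z, y⁻¹ * z * y ∈ Z)
    (a b : Module.End K M) (haV : ∀ v ∈ V, a v ∈ V) (hbV : ∀ v ∈ V, b v ∈ V)
    (hab : ∃ v ∈ V, a v ≠ b v) :
    ∃ (χ : Z → K) (e : ℕ), e < j ∧
      (∀ w ∈ V ⊓ eig Z χ, ((y ^ 2 ^ e : (Module.End K M)ˣ) : Module.End K M) w ∈ V ⊓ eig Z χ) ∧
      (∀ w ∈ V ⊓ eig Z χ, ((y ^ 2 ^ e : (Module.End K M)ˣ) : Module.End K M) w = w → w = 0) ∧
      (∃ w ∈ V ⊓ eig Z χ, a w ≠ b w) := by
  obtain ⟨χ, s, hs0, hsN, hinv, hnofix, w, hw, hwne⟩ :=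
    clifford_rel V (fun z : Z => (((z : (Module.End K M)ˣ)) : Module.End K M))
      (fun z => hZV z z.2) (fun z z' => hZc z z.2 z' z'.2)
      (fun z => by
        obtain ⟨m, hmK, hm⟩ := hZfin z z.2
        refine ⟨m, hmK, fun v _ => ?_⟩
        rw [← act_pow, hm, act_one])
      (y : Module.End K M) hyV (fun z => ⟨y⁻¹ * z * y, hZy z z.2⟩)
      (fun z v _ => by
        show (((z : (Module.End K M)ˣ)) : Module.End K M) ((y : Module.End K M) v) =
          (y : Module.End K M) (((y⁻¹ * (z : (Module.End K M)ˣ) * y : (Module.End K M)ˣ) :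
            Module.End K M) v)
        rw [← act_mul, ← act_mul]
        congr 2
        group)
      (Nat.pow_pos (by norm_num : 0 < 2))
      (fun v _ => by rw [← act_pow, hy, act_one]) hfix a b haV hbV hab
  obtain ⟨e, hej, rfl⟩ := (Nat.dvd_prime_pow Nat.prime_two).mp hsN
  have hw0 : w ≠ 0 := by
    intro h
    apply hwne
    rw [h, map_zero, map_zero]
  refine ⟨χ, e, ?_, ?_, ?_, ⟨w, hw, hwne⟩⟩
  · by_contra hlt
    have he : e = j := by omega
    apply hw0
    apply hnofix w hw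
    rw [he, ← act_pow, hy, act_one]
  · intro w' hw'
    rw [act_pow]
    exact hinv w' hw'
  · intro w' hw' hfw
    rw [act_pow] at hfw
    exact hnofix w' hw' hfw

/-- **Commutation for a set `Z` of invertible operators** permuted by `y`. -/
theorem comm_rel (V : Submodule K M) (y : (Module.End K M)ˣ) (j : ℕ) (hj : 1 ≤ j)
    (hy : y ^ 2 ^ j = 1) (hyV : ∀ v ∈ V, (y : Module.End K M) v ∈ V)
    (hfix : ∀ v ∈ V, (y : Module.End K M) v = v → v = 0)
    (Z : Set (Module.End K M)ˣ) (hZV : ∀ z ∈ Z, ∀ v ∈ V, (z : Module.End K M) v ∈ V)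
    (hZc : ∀ z ∈ Z, ∀ z' ∈ Z, ∀ v ∈ V, (z : Module.End K M) ((z' : Module.End K M) v) =
      (z' : Module.End K M) ((z : Module.End K M) v))
    (hZfin : ∀ z ∈ Z, ∃ m : ℕ, (m : K) ≠ 0 ∧ z ^ m = 1)
    (hZy : ∀ z ∈ Z, y⁻¹ * z * y ∈ Z) :
    ∀ z ∈ Z, ∀ v ∈ V,
      (z : Module.End K M) (((y ^ 2 ^ (j - 1) : (Module.End K M)ˣ) : Module.End K M) v) =
        ((y ^ 2 ^ (j - 1) : (Module.End K M)ˣ) : Module.End K M) ((z : Module.End K M) v) := by
  intro z hz v hv
  have h := comm_half_rel V (fun z : Z => (((z : (Module.End K M)ˣ)) : Module.End K M))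
      (fun z => hZV z z.2) (fun z z' => hZc z z.2 z' z'.2)
      (fun z => by
        obtain ⟨m, hmK, hm⟩ := hZfin z z.2
        refine ⟨m, hmK, fun v _ => ?_⟩
        rw [← act_pow, hm, act_one])
      (y : Module.End K M) hyV (fun z => ⟨y⁻¹ * z * y, hZy z z.2⟩)
      (fun z v _ => by
        show (((z : (Module.End K M)ˣ)) : Module.End K M) ((y : Module.End K M) v) =
          (y : Module.End K M) (((y⁻¹ * (z : (Module.End K M)ˣ) * y : (Module.End K M)ˣ) :
            Module.End K M) v)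
        rw [← act_mul, ← act_mul]
        congr 2
        group)
      hj (fun v _ => by rw [← act_pow, hy, act_one]) hfix ⟨z, hz⟩ v hv
  rw [act_pow, act_pow]
  exact h

/-- the same for a conjugate `u⁻¹ y u` of `y` -/
theorem comm_rel_conj (V : Submodule K M) (y u : (Module.End K M)ˣ) (j : ℕ) (hj : 1 ≤ j)
    (hy : y ^ 2 ^ j = 1) (hyV : ∀ v ∈ V, (y : Module.End K M) v ∈ V)
    (huV : ∀ v ∈ V, (u : Module.End K M) v ∈ V)
    (huV' : ∀ v ∈ V, ((u⁻¹ : (Module.End K M)ˣ) : Module.End K M) v ∈ V)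
    (hfix : ∀ v ∈ V, (y : Module.End K M) v = v → v = 0)
    (Z : Set (Module.End K M)ˣ) (hZV : ∀ z ∈ Z, ∀ v ∈ V, (z : Module.End K M) v ∈ V)
    (hZc : ∀ z ∈ Z, ∀ z' ∈ Z, ∀ v ∈ V, (z : Module.End K M) ((z' : Module.End K M) v) =
      (z' : Module.End K M) ((z : Module.End K M) v))
    (hZfin : ∀ z ∈ Z, ∃ m : ℕ, (m : K) ≠ 0 ∧ z ^ m = 1)
    (hZy : ∀ z ∈ Z, (u⁻¹ * y * u)⁻¹ * z * (u⁻¹ * y * u) ∈ Z) :
    ∀ z ∈ Z, ∀ v ∈ V,
      (z : Module.End K M)
        (((u⁻¹ * y ^ 2 ^ (j - 1) * u : (Module.End K M)ˣ) : Module.End K M) v) =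
        ((u⁻¹ * y ^ 2 ^ (j - 1) * u : (Module.End K M)ˣ) : Module.End K M)
          ((z : Module.End K M) v) := by
  have hpow : ∀ k : ℕ, (u⁻¹ * y * u) ^ k = u⁻¹ * y ^ k * u := by
    intro k
    induction k with
    | zero => simp
    | succ k ih =>
      rw [pow_succ, ih, pow_succ]
      group
  have h := comm_rel V (u⁻¹ * y * u) j hj (by rw [hpow, hy]; group)
    (fun v hv => by
      rw [act_mul, act_mul]
      exact huV' _ (hyV _ (huV v hv)))
    (fun v hv hfv => by
      rw [act_mul, act_mul] at hfv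
      have h1 : (y : Module.End K M) ((u : Module.End K M) v) = (u : Module.End K M) v := by
        have h2 := congrArg (fun t => (u : Module.End K M) t) hfv
        simp only [act_act_inv] at h2
        exact h2
      have h3 := hfix _ (huV v hv) h1
      have h4 := congrArg (fun t => ((u⁻¹ : (Module.End K M)ˣ) : Module.End K M) t) h3
      simp only [act_inv_act, map_zero] at h4
      exact h4)
    Z hZV hZc hZfin hZy
  intro z hz v hv
  have h5 := h z hz v hv
  rw [hpow] at h5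
  exact h5

end Steps

end Cfsg.Agent.Helper47.GrossLin
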