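-- helper47 library: piece LIN of CALL S3795 (helper63), part C: groups of operators preserving
-- a subspace, one layer of the Clifford reduction, and the application of the representation
-- core.
import Cfsg.Agent.Helper47.Gross2LinB

set_option autoImplicit false

namespace Cfsg.Agent.Helper47.GrossLin

open Module Cfsg.Agent.Helper63.Gross Cfsg.Agent.Helper63.Shult Cfsg.Agent.Helper63.Gross2
  Cfsg.Agent.Helper63.ProjRep

universe u v

section Grp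

variable {K : Type u} [Field K] {M : Type v} [AddCommGroup M] [Module K M]

theorem act_mul3 (a b c : (Module.End K M)ˣ) (v : M) :
    ((a * b * c : (Module.End K M)ˣ) : Module.End K M) v =
      (a : Module.End K M) ((b : Module.End K M) ((c : Module.End K M) v)) := by
  rw [act_mul (a * b) c v, act_mul a b]

/-- the group of invertible operators preserving `V` (together with their inverses) -/
def presGrp (V : Submodule K M) : Subgroup (Module.End K M)ˣ where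
  carrier := {g | (∀ v ∈ V, (g : Module.End K M) v ∈ V) ∧
    (∀ v ∈ V, ((g⁻¹ : (Module.End K M)ˣ) : Module.End K M) v ∈ V)}
  mul_mem' := by
    intro a b ha hb
    refine ⟨fun v hv => ?_, fun v hv => ?_⟩
    · rw [act_mul]
      exact ha.1 _ (hb.1 v hv)
    · rw [mul_inv_rev, act_mul]
      exact hb.2 _ (ha.2 v hv)
  one_mem' := by
    refine ⟨fun v hv => ?_, fun v hv => ?_⟩
    · rw [act_one]
      exact hv
    · rw [inv_one, act_one]
      exact hv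
  inv_mem' := by
    intro a ha
    refine ⟨ha.2, fun v hv => ?_⟩
    rw [inv_inv]
    exact ha.1 v hv

/-- the group of invertible operators preserving `V` and commuting on `V` with the set `Z` -/
def commGrp (V : Submodule K M) (Z : Set (Module.End K M)ˣ) : Subgroup (Module.End K M)ˣ where
  carrier := {g | g ∈ presGrp V ∧
    (∀ z ∈ Z, ∀ v ∈ V, (z : Module.End K M) ((g : Module.End K M) v) =
      (g : Module.End K M) ((z : Module.End K M) v)) ∧
    (∀ z ∈ Z, ∀ v ∈ V,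
      (z : Module.End K M) (((g⁻¹ : (Module.End K M)ˣ) : Module.End K M) v) =
        ((g⁻¹ : (Module.End K M)ˣ) : Module.End K M) ((z : Module.End K M) v))}
  mul_mem' := by
    intro a b ha hb
    refine ⟨(presGrp V).mul_mem ha.1 hb.1, fun z hz v hv => ?_, fun z hz v hv => ?_⟩
    · rw [act_mul a b v, act_mul a b, ha.2.1 z hz _ (hb.1.1 v hv), hb.2.1 z hz v hv]
    · rw [mul_inv_rev, act_mul b⁻¹ a⁻¹ v, act_mul b⁻¹ a⁻¹, hb.2.2 z hz _ (ha.1.2 v hv),
        ha.2.2 z hz v hv]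
  one_mem' := by
    refine ⟨(presGrp V).one_mem, fun z hz v hv => ?_, fun z hz v hv => ?_⟩
    · rw [act_one, act_one]
    · rw [inv_one, act_one, act_one]
  inv_mem' := by
    intro a ha
    refine ⟨(presGrp V).inv_mem ha.1, ha.2.2, fun z hz v hv => ?_⟩
    rw [inv_inv]
    exact ha.2.1 z hz v hv

theorem mem_commGrp_of (V : Submodule K M) (Z : Set (Module.End K M)ˣ) (g : (Module.End K M)ˣ)
    (hg : g ∈ presGrp V)
    (hc : ∀ z ∈ Z, ∀ v ∈ V, (z : Module.End K M) ((g : Module.End K M) v) =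
      (g : Module.End K M) ((z : Module.End K M) v)) : g ∈ commGrp V Z := by
  refine ⟨hg, hc, fun z hz v hv => ?_⟩
  have h1 := hc z hz _ (hg.2 v hv)
  rw [act_act_inv] at h1
  rw [h1, act_inv_act]

theorem half_lemma {G : Type*} [Group G] (τ k : G) (hinv : τ * k * τ⁻¹ = k⁻¹) (m : ℕ)
    (hk : k ^ (2 * m + 1) = 1) : (k ^ m)⁻¹ * (τ * k ^ m * τ⁻¹) = k := by
  have h1 : τ * k ^ m * τ⁻¹ = (k⁻¹) ^ m := by rw [← conj_pow, hinv]
  rw [h1, ← inv_pow, ← pow_add, ← two_mul]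
  have h2 : k * k ^ (2 * m) = 1 := by
    rw [← pow_succ']
    exact hk
  rw [inv_pow]
  exact (eq_inv_of_mul_eq_one_left h2).symm

theorem aut_inv_apply_of {Γ : Type*} [Group Γ] (Q : Subgroup Γ) (β : MulAut ↥Q) (c : Γ)
    (h : ∀ g : ↥Q, ((β g : ↥Q) : Γ) = c * g * c⁻¹) (g : ↥Q) :
    ((β⁻¹ g : ↥Q) : Γ) = c⁻¹ * g * c := by
  have h1 := h (β⁻¹ g)
  rw [MulAut.apply_inv_self] at h1
  rw [h1]
  group

end Grp

section Layer

variable {K : Type u} [Field K] [IsAlgClosed K] {M : Type v} [AddCommGroup M] [Module K M]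
  [FiniteDimensional K M]

/-- **One layer of the reduction.** -/
theorem layer (V : Submodule K M) (y τ : (Module.End K M)ˣ) (j : ℕ) (hj : 1 ≤ j)
    (hy : y ^ 2 ^ j = 1) (hτ : y ^ 2 ^ (j - 1) = τ)
    (hyV : y ∈ presGrp V)
    (hfix : ∀ v ∈ V, (y : Module.End K M) v = v → v = 0)
    (Q₁ R₁ : Subgroup (Module.End K M)ˣ) (hQV : Q₁ ≤ presGrp V) (hRV : R₁ ≤ presGrp V)
    (hyQ : y ∈ Subgroup.normalizer (Q₁ : Set (Module.End K M)ˣ))
    (hRQ : R₁ ≤ Subgroup.normalizer (Q₁ : Set (Module.End K M)ˣ))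
    (Z : Set (Module.End K M)ˣ) (hZQ : ∀ z ∈ Z, z ∈ Q₁)
    (hZc : ∀ z ∈ Z, ∀ h ∈ Q₁, ∀ v ∈ V, (z : Module.End K M) ((h : Module.End K M) v) =
      (h : Module.End K M) ((z : Module.End K M) v))
    (hZfin : ∀ z ∈ Z, ∃ m : ℕ, (m : K) ≠ 0 ∧ z ^ m = 1)
    (hZn : ∀ c : (Module.End K M)ˣ, c ∈ presGrp V →
      c ∈ Subgroup.normalizer (Q₁ : Set (Module.End K M)ˣ) → ∀ z ∈ Z, c⁻¹ * z * c ∈ Z)
    (hgen : ∀ T : Subgroup (Module.End K M)ˣ, (∀ u ∈ R₁, u⁻¹ * (τ * u * τ⁻¹) ∈ T) → R₁ ≤ T)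
    (a b : Module.End K M) (haV : ∀ v ∈ V, a v ∈ V) (hbV : ∀ v ∈ V, b v ∈ V)
    (hab : ∃ v ∈ V, a v ≠ b v) :
    ∃ (χ : Z → K) (y' : (Module.End K M)ˣ) (j' : ℕ), y' ∈ Subgroup.zpowers y ∧ 1 ≤ j' ∧
      y' ^ 2 ^ j' = 1 ∧ y' ^ 2 ^ (j' - 1) = τ ∧ y' ∈ presGrp (V ⊓ eig Z χ) ∧
      (∀ w ∈ V ⊓ eig Z χ, (y' : Module.End K M) w = w → w = 0) ∧
      Q₁ ≤ presGrp (V ⊓ eig Z χ) ∧ R₁ ≤ presGrp (V ⊓ eig Z χ) ∧
      (∃ w ∈ V ⊓ eig Z χ, a w ≠ b w) := by
  have hZV : ∀ z ∈ Z, ∀ v ∈ V, (z : Module.End K M) v ∈ V := fun z hz => (hQV (hZQ z hz)).1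
  have hZcc : ∀ z ∈ Z, ∀ z' ∈ Z, ∀ v ∈ V, (z : Module.End K M) ((z' : Module.End K M) v) =
      (z' : Module.End K M) ((z : Module.End K M) v) :=
    fun z hz z' hz' => hZc z hz z' (hZQ z' hz')
  obtain ⟨χ, e, hej, hinv, hnofix, hwit⟩ := step_rel V y j hy hyV.1 hfix Z hZV hZcc hZfin
    (fun z hz => hZn y hyV hyQ z hz) a b haV hbV hab
  have hpow1 : (y ^ 2 ^ e) ^ 2 ^ (j - e) = 1 := by
    rw [← pow_mul, ← pow_add]
    have : e + (j - e) = j := by omega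
    rw [this, hy]
  have hpow2 : (y ^ 2 ^ e) ^ 2 ^ (j - e - 1) = τ := by
    rw [← pow_mul, ← pow_add]
    have : e + (j - e - 1) = j - 1 := by omega
    rw [this, hτ]
  have hτV : τ ∈ presGrp V := by
    rw [← hτ]
    exact (presGrp V).pow_mem hyV _
  have hτC : τ ∈ commGrp V Z := by
    apply mem_commGrp_of V Z τ hτV
    have h := comm_rel V y j hj hy hyV.1 hfix Z hZV hZcc hZfin
      (fun z hz => hZn y hyV hyQ z hz)
    rw [hτ] at h
    exact h
  have hRC : R₁ ≤ commGrp V Z := by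
    apply hgen
    intro u hu
    have huV : u ∈ presGrp V := hRV hu
    have huN := hRQ hu
    have hconjV : u⁻¹ * τ * u ∈ presGrp V :=
      (presGrp V).mul_mem ((presGrp V).mul_mem ((presGrp V).inv_mem huV) hτV) huV
    have hconjC : u⁻¹ * τ * u ∈ commGrp V Z := by
      apply mem_commGrp_of V Z _ hconjV
      have h := comm_rel_conj V y u j hj hy hyV.1 huV.1 huV.2 hfix Z hZV hZcc hZfin
        (fun z hz => hZn (u⁻¹ * y * u)
          ((presGrp V).mul_mem ((presGrp V).mul_mem ((presGrp V).inv_mem huV) hyV) huV)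
          (Subgroup.mul_mem _ (Subgroup.mul_mem _ (Subgroup.inv_mem _ huN) hyQ) huN) z hz)
      rw [hτ] at h
      exact h
    have h3 : u⁻¹ * (τ * u * τ⁻¹) = (u⁻¹ * τ * u) * τ⁻¹ := by group
    rw [h3]
    exact (commGrp V Z).mul_mem hconjC ((commGrp V Z).inv_mem hτC)
  have hpresQ : ∀ h ∈ Q₁, ∀ w ∈ V ⊓ eig Z χ, (h : Module.End K M) w ∈ V ⊓ eig Z χ := by
    intro h hh
    exact pres_eig V Z χ h (hQV hh).1 (fun z hz v hv => hZc z hz h hh v hv)
  have hpresR : ∀ u ∈ R₁, ∀ w ∈ V ⊓ eig Z χ, (u : Module.End K M) w ∈ V ⊓ eig Z χ := by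
    intro u hu
    have hc := hRC hu
    exact pres_eig V Z χ u hc.1.1 hc.2.1
  refine ⟨χ, y ^ 2 ^ e, j - e, ?_, by omega, hpow1, hpow2, ?_, hnofix, ?_, ?_, hwit⟩
  · exact Subgroup.pow_mem _ (Subgroup.mem_zpowers y) _
  · exact ⟨hinv, pres_inv_of_pow _ _ hinv (Nat.pow_pos (by norm_num : 0 < 2)) hpow1⟩
  · intro h hh
    exact ⟨hpresQ h hh, hpresQ h⁻¹ (Q₁.inv_mem hh)⟩
  · intro u hu
    exact ⟨hpresR u hu, hpresR u⁻¹ (R₁.inv_mem hu)⟩

end Layer

end Cfsg.Agent.Helper47.GrossLin
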