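-- helper47 library: piece LIN of CALL S3795 (helper63), part D: the application of the
-- representation core on an invariant subspace.
import Cfsg.Agent.Helper47.Gross2LinC

set_option autoImplicit false

namespace Cfsg.Agent.Helper47.GrossLin

open Module Cfsg.Agent.Helper63.Gross Cfsg.Agent.Helper63.Shult Cfsg.Agent.Helper63.Gross2
  Cfsg.Agent.Helper63.ProjRep

universe u

/-- **Application of the representation core** on a subspace `W` preserved by everything. -/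
theorem final_step (HR : RepCoreStmt.{u}) {K : Type} [Field K] [IsAlgClosed K] {M : Type u}
    [AddCommGroup M] [Module K M] [FiniteDimensional K M] (q r : ℕ)
    (hq : q.Prime) (hr : r.Prime) (hq2 : q ≠ 2) (hr2 : r ≠ 2) (hqr : q ≠ r)
    (hqK : (q : K) ≠ 0) (h2K : (2 : K) ≠ 0)
    (W : Submodule K M) (y τ : (Module.End K M)ˣ) (j : ℕ) (hj : 1 ≤ j)
    (hy : y ^ 2 ^ j = 1) (hτ : y ^ 2 ^ (j - 1) = τ) (hyW : y ∈ presGrp W)
    (hfix : ∀ w ∈ W, (y : Module.End K M) w = w → w = 0)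
    (Q₁ R₁ : Subgroup (Module.End K M)ˣ) [Finite Q₁] (hQ₁ : IsPGroup q Q₁)
    (hR₁ : ∀ u ∈ R₁, ∃ k : ℕ, u ^ r ^ k = 1)
    (hyQ : y ∈ Subgroup.normalizer (Q₁ : Set (Module.End K M)ˣ))
    (hRQ : R₁ ≤ Subgroup.normalizer (Q₁ : Set (Module.End K M)ˣ))
    (hyR : ∀ u ∈ R₁, y * u * y⁻¹ ∈ R₁)
    (hQW : Q₁ ≤ presGrp W) (hRW : R₁ ≤ presGrp W)
    (hcl : ∀ a ∈ Q₁, ∀ b ∈ Q₁, ∀ c ∈ Q₁, (a * b * a⁻¹ * b⁻¹) * c = c * (a * b * a⁻¹ * b⁻¹))
    (hpw : ∀ a ∈ Q₁, ∀ c ∈ Q₁, a ^ q * c = c * a ^ q)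
    (hscal : ∀ g ∈ Q₁, (∀ h ∈ Q₁, ∀ w ∈ W, (g : Module.End K M) ((h : Module.End K M) w) =
      (h : Module.End K M) ((g : Module.End K M) w)) →
      ∃ μ : K, ∀ w ∈ W, (g : Module.End K M) w = μ • w) :
    ∀ u ∈ R₁, ∀ s ∈ Q₁, ∀ w ∈ W,
      (((u⁻¹ * (τ * u * τ⁻¹)) * s * (u⁻¹ * (τ * u * τ⁻¹))⁻¹ : (Module.End K M)ˣ) :
        Module.End K M) w = (s : Module.End K M) w := by
  -- the representation of the group of operators preserving `W`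
  let ρN : ↥(presGrp W) →* Module.End K ↥W :=
    resHom (unitsRep (presGrp W)) W (fun h w hw => h.2.1 w hw)
  let ρ : ↥Q₁ →* Module.End K ↥W := ρN.comp (Subgroup.inclusion hQW)
  let ξ : Module.End K ↥W := ρN ⟨y, hyW⟩
  let ξi : Module.End K ↥W := ρN ⟨y⁻¹, (presGrp W).inv_mem hyW⟩
  have hξ1 : ξ * ξi = 1 := by
    show ρN ⟨y, hyW⟩ * ρN ⟨y⁻¹, (presGrp W).inv_mem hyW⟩ = 1
    rw [← map_mul, ← map_one ρN]
    congr 1
    apply Subtype.ext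
    exact mul_inv_cancel y
  have hξ2 : ξi * ξ = 1 := by
    show ρN ⟨y⁻¹, (presGrp W).inv_mem hyW⟩ * ρN ⟨y, hyW⟩ = 1
    rw [← map_mul, ← map_one ρN]
    congr 1
    apply Subtype.ext
    exact inv_mul_cancel y
  have hξpow : ξ ^ 2 ^ j = 1 := by
    show ρN ⟨y, hyW⟩ ^ 2 ^ j = 1
    rw [← map_pow, ← map_one ρN]
    congr 1
    apply Subtype.ext
    exact hy
  have hfix' : ∀ v : ↥W, ξ v = v → v = 0 := by
    intro v hv
    apply Subtype.ext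
    exact hfix v v.2 (congrArg Subtype.val hv)
  let ψ : MulAut ↥Q₁ := conjAut Q₁ y hyQ
  have hequiv : ∀ g, ξ * ρ g = ρ (ψ g) * ξ := by
    intro g
    show ρN ⟨y, hyW⟩ * ρN (Subgroup.inclusion hQW g) =
      ρN (Subgroup.inclusion hQW (ψ g)) * ρN ⟨y, hyW⟩
    rw [← map_mul, ← map_mul]
    congr 1
    apply Subtype.ext
    show y * (g : (Module.End K M)ˣ) = (y * g * y⁻¹) * y
    group
  have hc2 : ∀ g h : ↥Q₁, cm g h ∈ Subgroup.center ↥Q₁ := by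
    intro g h
    rw [Subgroup.mem_center_iff]
    intro c
    apply Subtype.ext
    exact (hcl g g.2 h h.2 c c.2).symm
  have hpwc : ∀ g : ↥Q₁, g ^ q ∈ Subgroup.center ↥Q₁ := by
    intro g
    rw [Subgroup.mem_center_iff]
    intro c
    apply Subtype.ext
    exact (hpw g g.2 c c.2).symm
  have hsc : ∀ g : ↥Q₁, (∀ h, ρ g * ρ h = ρ h * ρ g) →
      ∃ μ : K, ρ g = μ • (1 : Module.End K ↥W) := by
    intro g hg
    obtain ⟨μ, hμ⟩ := hscal g g.2 (fun h hh w hw => by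
      have h1 := LinearMap.congr_fun (hg ⟨h, hh⟩) ⟨w, hw⟩
      exact congrArg Subtype.val h1)
    refine ⟨μ, ?_⟩
    apply LinearMap.ext
    intro w
    apply Subtype.ext
    exact hμ w w.2
  -- the group of automorphisms induced by `R₁`
  let S : Subgroup (MulAut ↥Q₁) :=
    { carrier := {α | ∃ u ∈ R₁, ∀ g : ↥Q₁, ((α g : ↥Q₁) : (Module.End K M)ˣ) = u * g * u⁻¹}
      mul_mem' := by
        rintro α β ⟨u, hu, hα⟩ ⟨u', hu', hβ⟩
        refine ⟨u * u', R₁.mul_mem hu hu', fun g => ?_⟩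
        rw [MulAut.mul_apply, hα, hβ]
        group
      one_mem' := ⟨1, R₁.one_mem, fun g => by simp⟩
      inv_mem' := by
        rintro α ⟨u, hu, hα⟩
        refine ⟨u⁻¹, R₁.inv_mem hu, fun g => ?_⟩
        rw [aut_inv_apply_of Q₁ α u hα, inv_inv] }
  have hSp : IsPGroup r ↥S := by
    rintro ⟨α, u, hu, hα⟩
    obtain ⟨k, hk⟩ := hR₁ u hu
    refine ⟨k, ?_⟩
    apply Subtype.ext
    apply MulEquiv.ext
    intro g
    apply Subtype.ext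
    have hpow : ∀ (m : ℕ) (g : ↥Q₁),
        (((α ^ m) g : ↥Q₁) : (Module.End K M)ˣ) = u ^ m * g * (u ^ m)⁻¹ := by
      intro m
      induction m with
      | zero =>
        intro g
        simp
      | succ m ih =>
        intro g
        rw [pow_succ' α, MulAut.mul_apply, hα, ih, pow_succ' u]
        group
    show (((α ^ r ^ k) g : ↥Q₁) : (Module.End K M)ˣ) = ((1 : MulAut ↥Q₁) g : ↥Q₁)
    rw [hpow, hk]
    simp
  have hSψ : ∀ α ∈ S, ψ * α * ψ⁻¹ ∈ S := by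
    rintro α ⟨u, hu, hα⟩
    refine ⟨y * u * y⁻¹, hyR u hu, fun g => ?_⟩
    rw [MulAut.mul_apply, MulAut.mul_apply, conjAut_apply, hα,
      aut_inv_apply_of Q₁ ψ y (fun g => rfl)]
    group
  have hSfix : ∀ α ∈ S, ∀ g : ↥Q₁, (∀ h, ρ g * ρ h = ρ h * ρ g) → ρ (α g) = ρ g := by
    rintro α ⟨u, hu, hα⟩ g hg
    obtain ⟨μ, hμ⟩ := hsc g hg
    have huW : u ∈ presGrp W := hRW hu
    have h1 : ρ (α g) = ρN ⟨u, huW⟩ * ρ g * ρN ⟨u⁻¹, (presGrp W).inv_mem huW⟩ := by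
      show ρN (Subgroup.inclusion hQW (α g)) =
        ρN ⟨u, huW⟩ * ρN (Subgroup.inclusion hQW g) * ρN ⟨u⁻¹, (presGrp W).inv_mem huW⟩
      rw [← map_mul, ← map_mul]
      congr 1
      apply Subtype.ext
      exact hα g
    rw [h1, hμ, mul_smul_comm, mul_one, smul_mul_assoc, ← map_mul]
    congr 1
    rw [← map_one ρN]
    congr 1
    apply Subtype.ext
    exact mul_inv_cancel u
  have key := HR K ↥W ↥Q₁ q r hq hr hq2 hr2 hqr hqK h2K hQ₁ ρ hc2 hsc hpwc j hj ξ ξi hξ1 hξ2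
    hξpow hfix' ψ hequiv S hSp hSψ hSfix
  intro u hu s hs w hw
  have hα : conjAut Q₁ u (hRQ hu) ∈ S := ⟨u, hu, fun g => rfl⟩
  have h := key _ hα ⟨s, hs⟩
  have h' := congrArg Subtype.val (LinearMap.congr_fun h ⟨w, hw⟩)
  have hel : (((((conjAut Q₁ u (hRQ hu))⁻¹ * (ψ ^ 2 ^ (j - 1) * conjAut Q₁ u (hRQ hu) *
      (ψ ^ 2 ^ (j - 1))⁻¹)) ⟨s, hs⟩ : ↥Q₁)) : (Module.End K M)ˣ) =
      (u⁻¹ * (τ * u * τ⁻¹)) * s * (u⁻¹ * (τ * u * τ⁻¹))⁻¹ := by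
    have hψpow : ∀ g : ↥Q₁,
        (((ψ ^ 2 ^ (j - 1)) g : ↥Q₁) : (Module.End K M)ˣ) = τ * g * τ⁻¹ := by
      intro g
      rw [conjAut_pow_apply, hτ]
    rw [MulAut.mul_apply, aut_inv_apply_of Q₁ _ u (fun g => rfl), MulAut.mul_apply,
      MulAut.mul_apply, hψpow, conjAut_apply, aut_inv_apply_of Q₁ _ τ hψpow]
    group
  rw [← hel]
  exact h'

end Cfsg.Agent.Helper47.GrossLin
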