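-- helper47 library: piece LIN of CALL S3795 (helper63), part E: the two Clifford layers and
-- the contradiction.
import Cfsg.Agent.Helper47.Gross2LinD

set_option autoImplicit false

namespace Cfsg.Agent.Helper47.GrossLin

open Module Cfsg.Agent.Helper63.Gross Cfsg.Agent.Helper63.Shult Cfsg.Agent.Helper63.Gross2
  Cfsg.Agent.Helper63.ProjRep

universe u

/-- **The linear three-layer statement for a subgroup of class two** generated suitably. -/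
theorem lin_core (HR : RepCoreStmt.{u}) {K : Type} [Field K] [IsAlgClosed K] {M : Type u}
    [AddCommGroup M] [Module K M] [FiniteDimensional K M] (q r : ℕ)
    (hq : q.Prime) (hr : r.Prime) (hq2 : q ≠ 2) (hr2 : r ≠ 2) (hqr : q ≠ r)
    (hqK : (q : K) ≠ 0) (h2K : (2 : K) ≠ 0)
    (n : ℕ) (x τ : (Module.End K M)ˣ) (hx : x ^ 2 ^ (n + 1) = 1) (hτdef : x ^ 2 ^ n = τ)
    (hfix : ∀ v : M, (x : Module.End K M) v = v → v = 0)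
    (Q₁ R₁ : Subgroup (Module.End K M)ˣ) [Finite Q₁] (hQ₁ : IsPGroup q Q₁)
    (hR₁ : ∀ u ∈ R₁, ∃ k : ℕ, u ^ r ^ k = 1)
    (hxQ : x ∈ Subgroup.normalizer (Q₁ : Set (Module.End K M)ˣ))
    (hRQ : R₁ ≤ Subgroup.normalizer (Q₁ : Set (Module.End K M)ˣ))
    (hxR : x ∈ Subgroup.normalizer (R₁ : Set (Module.End K M)ˣ))
    (hcl : ∀ a ∈ Q₁, ∀ b ∈ Q₁, ∀ c ∈ Q₁, (a * b * a⁻¹ * b⁻¹) * c = c * (a * b * a⁻¹ * b⁻¹))
    (hpw : ∀ a ∈ Q₁, ∀ c ∈ Q₁, a ^ q * c = c * a ^ q)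
    (hgen : ∀ T : Subgroup (Module.End K M)ˣ,
      (∀ u ∈ R₁, u⁻¹ * (τ * u * τ⁻¹) ∈ T) → R₁ ≤ T) :
    ∀ k ∈ R₁, ∀ s ∈ Q₁, k * s = s * k := by
  by_contra hcon
  -- a generator not centralizing `Q₁`
  have h1 : ∃ u ∈ R₁, ∃ s ∈ Q₁,
      (u⁻¹ * (τ * u * τ⁻¹)) * s ≠ s * (u⁻¹ * (τ * u * τ⁻¹)) := by
    by_contra h
    apply hcon
    have hle : R₁ ≤ Subgroup.centralizer (Q₁ : Set (Module.End K M)ˣ) := by
      apply hgen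
      intro u hu
      rw [Subgroup.mem_centralizer_iff]
      intro s hs
      by_contra h2
      exact h ⟨u, hu, s, hs, fun h3 => h2 h3.symm⟩
    intro k hk s hs
    exact ((Subgroup.mem_centralizer_iff.mp (hle hk)) s hs).symm
  obtain ⟨u, hu, s, hs, hks⟩ := h1
  obtain ⟨k, hkdef⟩ : ∃ k, k = u⁻¹ * (τ * u * τ⁻¹) := ⟨_, rfl⟩
  rw [← hkdef] at hks
  have hτN : τ ∈ Subgroup.normalizer (Q₁ : Set (Module.End K M)ˣ) := by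
    rw [← hτdef]
    exact Subgroup.pow_mem _ hxQ _
  have hkN : k ∈ Subgroup.normalizer (Q₁ : Set (Module.End K M)ˣ) := by
    rw [hkdef]
    exact Subgroup.mul_mem _ (Subgroup.inv_mem _ (hRQ hu))
      (Subgroup.mul_mem _ (Subgroup.mul_mem _ hτN (hRQ hu)) (Subgroup.inv_mem _ hτN))
  have hksQ : k * s * k⁻¹ ∈ Q₁ := (Subgroup.mem_normalizer_iff.mp hkN s).mp hs
  have hne : ((k * s * k⁻¹ : (Module.End K M)ˣ) : Module.End K M) ≠ (s : Module.End K M) := by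
    intro h
    apply hks
    have h2 : k * s * k⁻¹ = s := Units.ext h
    calc k * s = (k * s * k⁻¹) * k := by group
      _ = s * k := by rw [h2]
  have hab : ∃ v ∈ (⊤ : Submodule K M),
      ((k * s * k⁻¹ : (Module.End K M)ˣ) : Module.End K M) v ≠ (s : Module.End K M) v := by
    by_contra h
    apply hne
    apply LinearMap.ext
    intro v
    by_contra h2
    exact h ⟨v, Submodule.mem_top, h2⟩
  have hQfin : ∀ z ∈ Q₁, ∃ m : ℕ, (m : K) ≠ 0 ∧ z ^ m = 1 := by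
    intro z hz
    obtain ⟨m, hm⟩ := hQ₁ ⟨z, hz⟩
    refine ⟨q ^ m, ?_, ?_⟩
    · rw [Nat.cast_pow]
      exact pow_ne_zero _ hqK
    · exact congrArg Subtype.val hm
  have hnorm : ∀ c : (Module.End K M)ˣ,
      c ∈ Subgroup.normalizer (Q₁ : Set (Module.End K M)ˣ) →
      (∀ h ∈ Q₁, c⁻¹ * h * c ∈ Q₁) ∧ (∀ h ∈ Q₁, c * h * c⁻¹ ∈ Q₁) := by
    intro c hcN
    exact ⟨fun h hh => (Subgroup.mem_normalizer_iff''.mp hcN h).mp hh,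
      fun h hh => (Subgroup.mem_normalizer_iff.mp hcN h).mp hh⟩
  -- the first layer: the centre of `Q₁`
  obtain ⟨Z₁, hZ₁def⟩ : ∃ Z₁ : Set (Module.End K M)ˣ,
      Z₁ = {z | z ∈ Q₁ ∧ ∀ h ∈ Q₁, z * h = h * z} := ⟨_, rfl⟩
  have hZ₁mem : ∀ z, z ∈ Z₁ ↔ (z ∈ Q₁ ∧ ∀ h ∈ Q₁, z * h = h * z) := by
    intro z
    rw [hZ₁def]
    exact Iff.rfl
  have htop : ∀ g : (Module.End K M)ˣ, g ∈ presGrp (⊤ : Submodule K M) :=
    fun g => ⟨fun _ _ => Submodule.mem_top, fun _ _ => Submodule.mem_top⟩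
  have hZn₁ : ∀ c : (Module.End K M)ˣ, c ∈ presGrp (⊤ : Submodule K M) →
      c ∈ Subgroup.normalizer (Q₁ : Set (Module.End K M)ˣ) → ∀ z ∈ Z₁, c⁻¹ * z * c ∈ Z₁ := by
    intro c _ hcN z hz
    rw [hZ₁mem] at hz ⊢
    obtain ⟨hc', hc''⟩ := hnorm c hcN
    refine ⟨hc' z hz.1, fun h hh => ?_⟩
    have h1 := hz.2 (c * h * c⁻¹) (hc'' h hh)
    calc c⁻¹ * z * c * h = c⁻¹ * (z * (c * h * c⁻¹)) * c := by group
      _ = c⁻¹ * ((c * h * c⁻¹) * z) * c := by rw [h1]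
      _ = h * (c⁻¹ * z * c) := by group
  obtain ⟨χ₁, y₁, j₁, hy₁z, hj₁, hy₁, hτ₁, hy₁W, hfix₁, hQW₁, hRW₁, hwit₁⟩ :=
    layer (⊤ : Submodule K M) x τ (n + 1) (by omega) hx
      (by rw [Nat.add_sub_cancel]; exact hτdef) (htop x)
      (fun v _ hv => hfix v hv) Q₁ R₁ (fun g _ => htop g) (fun g _ => htop g) hxQ hRQ Z₁
      (fun z hz => ((hZ₁mem z).mp hz).1)
      (fun z hz h hh v _ => by rw [← act_mul, ← act_mul, ((hZ₁mem z).mp hz).2 h hh])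
      (fun z hz => hQfin z ((hZ₁mem z).mp hz).1)
      hZn₁ hgen _ _ (fun _ _ => Submodule.mem_top) (fun _ _ => Submodule.mem_top) hab
  -- the second layer: the elements central modulo the kernel on `W₁`
  obtain ⟨W₁, hW₁def⟩ : ∃ W₁ : Submodule K M, W₁ = ⊤ ⊓ eig Z₁ χ₁ := ⟨_, rfl⟩
  rw [← hW₁def] at hy₁W hfix₁ hQW₁ hRW₁ hwit₁
  obtain ⟨Z₂, hZ₂def⟩ : ∃ Z₂ : Set (Module.End K M)ˣ,
      Z₂ = {t | t ∈ Q₁ ∧ ∀ h ∈ Q₁, ∀ w ∈ W₁,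
        ((t * h * t⁻¹ * h⁻¹ : (Module.End K M)ˣ) : Module.End K M) w = w} := ⟨_, rfl⟩
  have hZ₂mem : ∀ t, t ∈ Z₂ ↔ (t ∈ Q₁ ∧ ∀ h ∈ Q₁, ∀ w ∈ W₁,
        ((t * h * t⁻¹ * h⁻¹ : (Module.End K M)ˣ) : Module.End K M) w = w) := by
    intro t
    rw [hZ₂def]
    exact Iff.rfl
  have hy₁N : y₁ ∈ Subgroup.normalizer (Q₁ : Set (Module.End K M)ˣ) :=
    (Subgroup.zpowers_le.mpr hxQ) hy₁z
  have hy₁R : y₁ ∈ Subgroup.normalizer (R₁ : Set (Module.End K M)ˣ) :=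
    (Subgroup.zpowers_le.mpr hxR) hy₁z
  have hZc₂ : ∀ z ∈ Z₂, ∀ h ∈ Q₁, ∀ v ∈ W₁,
      (z : Module.End K M) ((h : Module.End K M) v) =
        (h : Module.End K M) ((z : Module.End K M) v) := by
    intro z hz h hh v hv
    rw [hZ₂mem] at hz
    have h1 : z * h = (z * h * z⁻¹ * h⁻¹) * h * z := by group
    rw [← act_mul z h v, h1, act_mul3]
    exact hz.2 h hh _ ((hQW₁ hh).1 _ ((hQW₁ hz.1).1 v hv))
  have hZn₂ : ∀ c : (Module.End K M)ˣ, c ∈ presGrp W₁ →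
      c ∈ Subgroup.normalizer (Q₁ : Set (Module.End K M)ˣ) → ∀ z ∈ Z₂, c⁻¹ * z * c ∈ Z₂ := by
    intro c hcV hcN z hz
    rw [hZ₂mem] at hz ⊢
    obtain ⟨hc', hc''⟩ := hnorm c hcN
    refine ⟨hc' z hz.1, fun h hh w hw => ?_⟩
    have h1 : c⁻¹ * z * c * h * (c⁻¹ * z * c)⁻¹ * h⁻¹ =
        c⁻¹ * (z * (c * h * c⁻¹) * z⁻¹ * (c * h * c⁻¹)⁻¹) * c := by group
    rw [h1, act_mul3, hz.2 _ (hc'' h hh) _ (hcV.1 w hw), act_inv_act]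
  obtain ⟨χ₂, y₂, j₂, hy₂z, hj₂, hy₂, hτ₂, hy₂W, hfix₂, hQW₂, hRW₂, w₂, hw₂, hwne⟩ :=
    layer W₁ y₁ τ j₁ hj₁ hy₁ hτ₁ hy₁W hfix₁ Q₁ R₁ hQW₁ hRW₁ hy₁N hRQ Z₂
      (fun z hz => ((hZ₂mem z).mp hz).1) hZc₂ (fun z hz => hQfin z ((hZ₂mem z).mp hz).1)
      hZn₂ hgen _ _ (hQW₁ hksQ).1 (hQW₁ hs).1 hwit₁
  have hw₂0 : w₂ ≠ 0 := by
    intro h
    apply hwne
    rw [h, map_zero, map_zero]
  have hw₂W₁ : w₂ ∈ W₁ := hw₂.1
  -- elements central in the image on `W₂` are scalars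
  have hscal : ∀ g ∈ Q₁, (∀ h ∈ Q₁, ∀ w ∈ W₁ ⊓ eig Z₂ χ₂,
      (g : Module.End K M) ((h : Module.End K M) w) =
        (h : Module.End K M) ((g : Module.End K M) w)) →
      ∃ μ : K, ∀ w ∈ W₁ ⊓ eig Z₂ χ₂, (g : Module.End K M) w = μ • w := by
    intro g hg hcomm
    have hgZ : g ∈ Z₂ := by
      rw [hZ₂mem]
      refine ⟨hg, fun h hh w hw => ?_⟩
      have hcQ : g * h * g⁻¹ * h⁻¹ ∈ Q₁ :=
        Q₁.mul_mem (Q₁.mul_mem (Q₁.mul_mem hg hh) (Q₁.inv_mem hg)) (Q₁.inv_mem hh)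
      have hcZ : g * h * g⁻¹ * h⁻¹ ∈ Z₁ := by
        rw [hZ₁mem]
        exact ⟨hcQ, fun c hc => hcl g hg h hh c hc⟩
      have h1 : ((g * h * g⁻¹ * h⁻¹ : (Module.End K M)ˣ) : Module.End K M) w₂ = w₂ := by
        have hw' : ((g⁻¹ * h⁻¹ : (Module.End K M)ˣ) : Module.End K M) w₂ ∈
            W₁ ⊓ eig Z₂ χ₂ :=
          (hQW₂ (Q₁.mul_mem (Q₁.inv_mem hg) (Q₁.inv_mem hh))).1 w₂ hw₂
        have h2 := hcomm h hh _ hw'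
        have h3 : g * h * g⁻¹ * h⁻¹ = g * h * (g⁻¹ * h⁻¹) := by group
        rw [h3, act_mul3, h2, ← act_mul3]
        have h4 : h * g * (g⁻¹ * h⁻¹) = 1 := by group
        rw [h4, act_one]
      have hw₂e : w₂ ∈ eig Z₁ χ₁ := by
        rw [hW₁def] at hw₂W₁
        exact hw₂W₁.2
      have h5 : ((g * h * g⁻¹ * h⁻¹ : (Module.End K M)ˣ) : Module.End K M) w₂ =
          χ₁ ⟨_, hcZ⟩ • w₂ := (mem_eig Z₁ χ₁ w₂).mp hw₂e ⟨_, hcZ⟩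
      have h6 : χ₁ ⟨_, hcZ⟩ = 1 := by
        rw [h1] at h5
        by_contra hne1
        apply hw₂0
        have h7 : (χ₁ ⟨_, hcZ⟩ - 1) • w₂ = 0 := by
          rw [sub_smul, one_smul, ← h5, sub_self]
        exact (smul_eq_zero.mp h7).resolve_left (sub_ne_zero.mpr hne1)
      have hwe : w ∈ eig Z₁ χ₁ := by
        rw [hW₁def] at hw
        exact hw.2
      have h8 : ((g * h * g⁻¹ * h⁻¹ : (Module.End K M)ˣ) : Module.End K M) w =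
          χ₁ ⟨_, hcZ⟩ • w := (mem_eig Z₁ χ₁ w).mp hwe ⟨_, hcZ⟩
      rw [h6, one_smul] at h8
      exact h8
    exact ⟨χ₂ ⟨g, hgZ⟩, fun w hw => (mem_eig Z₂ χ₂ w).mp hw.2 ⟨g, hgZ⟩⟩
  have hy₂N : y₂ ∈ Subgroup.normalizer (Q₁ : Set (Module.End K M)ˣ) :=
    (Subgroup.zpowers_le.mpr hy₁N) hy₂z
  have hy₂R : y₂ ∈ Subgroup.normalizer (R₁ : Set (Module.End K M)ˣ) :=
    (Subgroup.zpowers_le.mpr hy₁R) hy₂z
  have key := final_step HR q r hq hr hq2 hr2 hqr hqK h2K (W₁ ⊓ eig Z₂ χ₂) y₂ τ j₂ hj₂ hy₂ hτ₂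
    hy₂W hfix₂ Q₁ R₁ hQ₁ hR₁ hy₂N hRQ
    (fun u hu => (Subgroup.mem_normalizer_iff.mp hy₂R u).mp hu) hQW₂ hRW₂ hcl hpw hscal
    u hu s hs w₂ hw₂
  rw [← hkdef] at key
  exact hwne key

end Cfsg.Agent.Helper47.GrossLin
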