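-- helper47 library: piece LIN of CALL S3795 (helper63): the linear three-layer statement from
-- the representation core and the minimal invariant subgroup.
import Cfsg.Agent.Helper47.Gross2LinE

set_option autoImplicit false

namespace Cfsg.Agent.Helper47

open Cfsg.Agent.Helper63.Gross2

universe u

/-- **Three layers, linear form**, from the representation core and the existence of a
minimal invariant subgroup. -/
theorem lin_of_repcore (HR : RepCoreStmt.{u}) (HM : MinSubStmt.{u}) : LinStmt.{u} := by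
  intro K _ _ M _ _ _ q r hq hr hq2 hr2 hqr hqK h2K n x hx hfix Q R hQfin hRfin hQ hR hxQ hxR hRQ
    g₀ hg₀ s₀ hs₀
  by_contra hcon
  obtain ⟨τ, hτdef⟩ : ∃ τ, x ^ 2 ^ n = τ := ⟨_, rfl⟩
  rw [hτdef] at hcon
  have hxpos : 0 < 2 ^ (n + 1) := Nat.pow_pos (by norm_num)
  have hxNR : x ∈ Subgroup.normalizer (R : Set (Module.End K M)ˣ) :=
    Cfsg.Agent.Helper63.Shult.mem_normalizer_of_pow R x hxpos hx hxR
  have hτNR : τ ∈ Subgroup.normalizer (R : Set (Module.End K M)ˣ) := by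
    rw [← hτdef]
    exact Subgroup.pow_mem _ hxNR _
  have hτ2 : τ * τ = 1 := by
    rw [← hτdef, ← pow_add, ← two_mul, ← pow_succ']
    exact hx
  have hτinv : τ⁻¹ = τ := inv_eq_of_mul_eq_one_right hτ2
  have hxτ : x * τ = τ * x := by
    rw [← hτdef, ← pow_succ', ← pow_succ]
  obtain ⟨gens, hgensdef⟩ : ∃ gens : Set (Module.End K M)ˣ,
      gens = {k | ∃ g ∈ R, k = g⁻¹ * (τ * g * τ⁻¹)} := ⟨_, rfl⟩
  have hgensmem : ∀ k, k ∈ gens ↔ ∃ g ∈ R, k = g⁻¹ * (τ * g * τ⁻¹) := by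
    intro k
    rw [hgensdef]
    exact Iff.rfl
  obtain ⟨R₁, hR₁def⟩ : ∃ R₁ : Subgroup (Module.End K M)ˣ, R₁ = Subgroup.closure gens :=
    ⟨_, rfl⟩
  have hgensR₁ : ∀ k ∈ gens, k ∈ R₁ := by
    intro k hk
    rw [hR₁def]
    exact Subgroup.subset_closure hk
  have hgensR : ∀ k ∈ gens, k ∈ R := by
    intro k hk
    obtain ⟨g, hg, rfl⟩ := (hgensmem k).mp hk
    exact R.mul_mem (R.inv_mem hg) ((Subgroup.mem_normalizer_iff.mp hτNR g).mp hg)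
  have hR₁R : R₁ ≤ R := by
    rw [hR₁def]
    exact (Subgroup.closure_le R).mpr hgensR
  have hRpow : ∀ u ∈ R, ∃ k : ℕ, u ^ r ^ k = 1 := by
    intro u hu
    obtain ⟨k, hk⟩ := hR ⟨u, hu⟩
    exact ⟨k, congrArg Subtype.val hk⟩
  -- `R₁` is generated by the commutators `[u, τ]`, `u ∈ R₁`
  have hgen : ∀ T : Subgroup (Module.End K M)ˣ,
      (∀ u ∈ R₁, u⁻¹ * (τ * u * τ⁻¹) ∈ T) → R₁ ≤ T := by
    intro T hT
    rw [hR₁def]
    apply (Subgroup.closure_le T).mpr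
    intro k hkg
    obtain ⟨g, hg, hk⟩ := (hgensmem k).mp hkg
    have hkinv : τ * k * τ⁻¹ = k⁻¹ := by
      rw [hk]
      calc τ * (g⁻¹ * (τ * g * τ⁻¹)) * τ⁻¹ = τ * g⁻¹ * τ * g * (τ * τ)⁻¹ := by group
        _ = τ * g⁻¹ * τ * g := by rw [hτ2, inv_one, mul_one]
        _ = τ * g⁻¹ * τ⁻¹ * g := by rw [hτinv]
        _ = (g⁻¹ * (τ * g * τ⁻¹))⁻¹ := by group
    obtain ⟨a, ha⟩ := hRpow k (hgensR k hkg)
    obtain ⟨m, hm⟩ : ∃ m, r ^ a = 2 * m + 1 := (hr.odd_of_ne_two hr2).pow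
    rw [hm] at ha
    have h1 := GrossLin.half_lemma τ k hkinv m ha
    have h2 := hT _ (Subgroup.pow_mem _ (hgensR₁ k hkg) m)
    rw [h1] at h2
    exact h2
  -- `R₁` is normalized by `x`
  have hxR₁ : R₁ ≤ R₁.comap (MulAut.conj x).toMonoidHom := by
    rw [hR₁def]
    apply (Subgroup.closure_le _).mpr
    intro k hkg
    obtain ⟨g, hg, hk⟩ := (hgensmem k).mp hkg
    show x * k * x⁻¹ ∈ Subgroup.closure gens
    apply Subgroup.subset_closure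
    rw [hgensmem]
    refine ⟨x * g * x⁻¹, hxR g hg, ?_⟩
    have h1 : τ * x = x * τ := hxτ.symm
    have h2 : x⁻¹ * τ⁻¹ = τ⁻¹ * x⁻¹ := by
      rw [← mul_inv_rev, ← mul_inv_rev, h1]
    rw [hk]
    calc x * (g⁻¹ * (τ * g * τ⁻¹)) * x⁻¹ = x * g⁻¹ * τ * g * (τ⁻¹ * x⁻¹) := by group
      _ = x * g⁻¹ * τ * g * (x⁻¹ * τ⁻¹) := by rw [h2]
      _ = x * g⁻¹ * x⁻¹ * (x * τ) * g * x⁻¹ * τ⁻¹ := by group
      _ = x * g⁻¹ * x⁻¹ * (τ * x) * g * x⁻¹ * τ⁻¹ := by rw [h1]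
      _ = (x * g * x⁻¹)⁻¹ * (τ * (x * g * x⁻¹) * τ⁻¹) := by group
  -- the minimal subgroup
  have hne0 : ∃ k ∈ R₁, ∃ s ∈ Q, k * s ≠ s * k :=
    ⟨g₀⁻¹ * (τ * g₀ * τ⁻¹), hgensR₁ _ ((hgensmem _).mpr ⟨g₀, hg₀, rfl⟩), s₀, hs₀, hcon⟩
  obtain ⟨Q₁, hQ₁Q, hxQ₁, hRQ₁, ⟨k, hk, s, hs, hks⟩, hcl, hpw⟩ :=
    HM (Module.End K M)ˣ q r hq hr hqr x Q R R₁ hQfin hQ hR hR₁R hxQ hRQ hne0
  have : Finite ↥Q₁ :=
    Finite.of_injective (Subgroup.inclusion hQ₁Q) (Subgroup.inclusion_injective hQ₁Q)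
  have hQ₁p : IsPGroup q ↥Q₁ := hQ.to_le hQ₁Q
  have hxNQ₁ : x ∈ Subgroup.normalizer (Q₁ : Set (Module.End K M)ˣ) :=
    Cfsg.Agent.Helper63.Shult.mem_normalizer_of_pow Q₁ x hxpos hx hxQ₁
  have hRNQ₁ : R₁ ≤ Subgroup.normalizer (Q₁ : Set (Module.End K M)ˣ) := by
    intro u hu
    obtain ⟨a, ha⟩ := hRpow u (hR₁R hu)
    exact Cfsg.Agent.Helper63.Shult.mem_normalizer_of_pow Q₁ u (Nat.pow_pos hr.pos) ha
      (hRQ₁ u (hR₁R hu))
  have hxNR₁ : x ∈ Subgroup.normalizer (R₁ : Set (Module.End K M)ˣ) :=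
    Cfsg.Agent.Helper63.Shult.mem_normalizer_of_pow R₁ x hxpos hx (fun u hu => hxR₁ hu)
  have hfin := GrossLin.lin_core HR q r hq hr hq2 hr2 hqr hqK h2K n x τ hx hτdef hfix Q₁ R₁ hQ₁p
    (fun u hu => hRpow u (hR₁R hu)) hxNQ₁ hRNQ₁ hxNR₁ hcl hpw hgen
  exact hks (hfin k hk s hs)

end Cfsg.Agent.Helper47
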