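-- helper47 library: piece SSL of CALL S3795 (helper63), part A: a Clifford step for an operator
-- of two-power order annihilated by a cubic polynomial.
import Cfsg.Agent.Helper63.Gross2Defs2
import Cfsg.Agent.Helper63.ProjRepGroup2
import Cfsg.Agent.Helper63.GrossLinear

set_option autoImplicit false

namespace Cfsg.Agent.Helper47.GrossSsl

open Module Cfsg.Agent.Helper63.Gross Cfsg.Agent.Helper63.Shult Cfsg.Agent.Helper63.ProjRep

universe u v w

section Cliff

variable {K : Type u} [Field K] [IsAlgClosed K] {M : Type v} [AddCommGroup M] [Module K M]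
  [FiniteDimensional K M]

/-- **Clifford step with a cubic.**  Let `f i` be pairwise commuting semisimple operators
permuted (via `π`) by an operator `ξ` with `ξ ^ 2 ^ j = 1` satisfying a cubic identity, and let
`a ≠ b` be operators.  Then there is a simultaneous eigenspace `W` of the `f i` on which `a`,
`b` differ, and either `ξ` maps `W` to itself or `ξ ^ 2` is a nonzero scalar on `W`. -/
theorem cliff_cubic {ι : Type w} (f : ι → Module.End K M)
    (hcomm : ∀ i j, f i * f j = f j * f i) (hss : ∀ i, (f i).IsSemisimple)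
    (ξ : Module.End K M) (π : ι → ι) (hπ : ∀ i, f i * ξ = ξ * f (π i))
    (j : ℕ) (hξN : ξ ^ 2 ^ j = 1) (a₁ a₂ a₃ : K)
    (hcub : ∀ v, ξ (ξ (ξ v)) = a₁ • ξ (ξ v) + a₂ • ξ v + a₃ • v)
    (a b : Module.End K M) (hab : a ≠ b) :
    ∃ χ : ι → K, (∃ w ∈ simEig f χ, a w ≠ b w) ∧
      ((∀ w ∈ simEig f χ, ξ w ∈ simEig f χ) ∨
        (∃ c : K, c ≠ 0 ∧ ∀ w ∈ simEig f χ, ξ (ξ w) = c • w)) := by
  classical
  have hN : 0 < 2 ^ j := Nat.pow_pos (by norm_num)
  let Mχ : (ι → K) → Submodule K M := fun χ => ⨅ i, (f i).maxGenEigenspace (χ i)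
  have hmem : ∀ χ v, v ∈ Mχ χ ↔ v ∈ simEig f χ := by
    intro χ v
    simp only [Mχ, Submodule.mem_iInf, mem_simEig]
    constructor
    · intro h i
      have := h i
      rw [(hss i).isFinitelySemisimple.maxGenEigenspace_eq_eigenspace] at this
      exact Module.End.mem_eigenspace_iff.mp this
    · intro h i
      rw [(hss i).isFinitelySemisimple.maxGenEigenspace_eq_eigenspace]
      exact Module.End.mem_eigenspace_iff.mpr (h i)
  have htop : ⨆ χ, Mχ χ = ⊤ := by
    apply Module.End.iSup_iInf_maxGenEigenspace_eq_top_of_iSup_maxGenEigenspace_eq_top_of_commute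
    · intro i j _
      exact hcomm i j
    · intro i
      exact Module.End.iSup_maxGenEigenspace_eq_top (f i)
  have hind : iSupIndep Mχ := by
    apply Module.End.independent_iInf_maxGenEigenspace_of_forall_mapsTo
    intro i j μ
    exact Module.End.mapsTo_maxGenEigenspace_of_comm (hcomm j i) μ
  -- choose the eigenspace
  obtain ⟨χ, w₀, hw₀, hw₀ne⟩ : ∃ χ : ι → K, ∃ w ∈ Mχ χ, a w ≠ b w := by
    by_contra hcon
    push Not at hcon
    apply hab
    have h1 : LinearMap.eqLocus a b = ⊤ := by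
      rw [eq_top_iff, ← htop]
      apply iSup_le
      intro χ w hw
      exact hcon χ w hw
    exact LinearMap.eqLocus_eq_top.mp h1
  rw [hmem] at hw₀
  have hw₀0 : w₀ ≠ 0 := by
    intro h
    apply hw₀ne
    rw [h, map_zero, map_zero]
  -- moving eigenspaces
  have hmove : ∀ (χ' : ι → K) v, v ∈ simEig f χ' → ξ v ∈ simEig f (χ' ∘ π) := by
    intro χ' v hv
    rw [mem_simEig] at hv ⊢
    intro i
    have h1 := LinearMap.congr_fun (hπ i) v
    simp only [Module.End.mul_apply] at h1
    rw [h1, hv (π i), map_smul]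
    rfl
  have hmovek : ∀ (k : ℕ) (χ' : ι → K) v, v ∈ simEig f χ' →
      (ξ ^ k) v ∈ simEig f (χ' ∘ π^[k]) := by
    intro k
    induction k with
    | zero =>
      intro χ' v hv
      simpa using hv
    | succ k ih =>
      intro χ' v hv
      have h1 := hmove _ _ (ih χ' v hv)
      rw [pow_succ' ξ, Module.End.mul_apply, Function.iterate_succ]
      exact h1
  have hmove1 : ∀ (χ' : ι → K) v, v ∈ simEig f χ' → ξ v ∈ simEig f (χ' ∘ π^[1]) := by
    intro χ' v hv
    have h1 := hmovek 1 χ' v hv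
    rw [pow_one] at h1
    exact h1
  -- the period
  have hSN : χ ∘ π^[2 ^ j] = χ := by
    have h1 := hmovek (2 ^ j) χ w₀ hw₀
    rw [hξN, Module.End.one_apply] at h1
    funext i
    have h2 := (mem_simEig f _ w₀).mp h1 i
    have h3 := (mem_simEig f _ w₀).mp hw₀ i
    rw [h3] at h2
    exact (smul_left_injective K hw₀0 h2).symm
  have hex : ∃ k, 0 < k ∧ χ ∘ π^[k] = χ := ⟨2 ^ j, hN, hSN⟩
  obtain ⟨s, hsdef⟩ : ∃ s, s = Nat.find hex := ⟨_, rfl⟩
  have hs0 : 0 < s := by
    rw [hsdef]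
    exact (Nat.find_spec hex).1
  have hsS : χ ∘ π^[s] = χ := by
    rw [hsdef]
    exact (Nat.find_spec hex).2
  have hsmin : ∀ k, 0 < k → k < s → χ ∘ π^[k] ≠ χ := by
    intro k hk0 hks hk
    rw [hsdef] at hks
    exact Nat.find_min hex hks ⟨hk0, hk⟩
  have hmul : ∀ c : ℕ, χ ∘ π^[s * c] = χ := by
    intro c
    induction c with
    | zero => simp
    | succ c ih =>
      have h1 : s * (c + 1) = s * c + s := by ring
      rw [h1, Function.iterate_add, ← Function.comp_assoc, ih, hsS]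
  have hsN : s ∣ 2 ^ j := by
    apply Nat.dvd_of_mod_eq_zero
    by_contra hb0
    have hb1 : 0 < 2 ^ j % s := Nat.pos_of_ne_zero hb0
    have hb2 : 2 ^ j % s < s := Nat.mod_lt _ hs0
    apply hsmin (2 ^ j % s) hb1 hb2
    have h1 : 2 ^ j = s * (2 ^ j / s) + 2 ^ j % s := (Nat.div_add_mod (2 ^ j) s).symm
    have h2 : χ ∘ π^[s * (2 ^ j / s) + 2 ^ j % s] = χ := by
      rw [← h1]
      exact hSN
    rw [Function.iterate_add, ← Function.comp_assoc, hmul] at h2
    exact h2
  -- `ξ` is injective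
  have hξk : ∀ (k : ℕ) v, (ξ ^ k) v = 0 → v = 0 := by
    intro k v h0
    have h1 : ξ ^ (k * (2 ^ j - 1)) * ξ ^ k = 1 := by
      rw [← pow_add]
      have h2 : k * (2 ^ j - 1) + k = 2 ^ j * k := by
        obtain ⟨N', hN'⟩ : ∃ N', 2 ^ j = N' + 1 := ⟨2 ^ j - 1, by omega⟩
        rw [hN']
        simp only [Nat.add_sub_cancel]
        ring
      rw [h2, pow_mul, hξN, one_pow]
    have h2 := LinearMap.congr_fun h1 v
    rw [Module.End.mul_apply, h0, map_zero, Module.End.one_apply] at h2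
    exact h2.symm
  have hξinj : ∀ v, ξ v = 0 → v = 0 := by
    intro v h0
    apply hξk 1 v
    rw [pow_one]
    exact h0
  obtain ⟨e, hej, rfl⟩ := (Nat.dvd_prime_pow Nat.prime_two).mp hsN
  refine ⟨χ, ⟨w₀, hw₀, hw₀ne⟩, ?_⟩
  rcases Nat.lt_or_ge e 1 with he | he
  · -- period one
    left
    intro w hw
    have h1 := hmove1 χ w hw
    have he0 : e = 0 := by omega
    rw [he0, pow_zero] at hsS
    rw [hsS] at h1
    exact h1
  · rcases Nat.lt_or_ge e 2 with he2 | he2
    · -- period two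
      right
      have he1 : e = 1 := by omega
      rw [he1, pow_one] at hsS hsmin
      have hne1 : χ ≠ χ ∘ π^[1] := fun h => hsmin 1 (by norm_num) (by norm_num) h.symm
      have hdisj : Disjoint (Mχ χ) (Mχ (χ ∘ π^[1])) := hind.pairwiseDisjoint hne1
      have hkey : ∀ w ∈ simEig f χ, ξ (ξ w) = a₂ • w := by
        intro w hw
        have h1 : ξ w ∈ simEig f (χ ∘ π^[1]) := hmove1 χ w hw
        have h2 : ξ (ξ w) ∈ simEig f χ := by
          have h := hmovek 2 χ w hw
          rw [hsS, pow_two, Module.End.mul_apply] at h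
          exact h
        have h3 : ξ (ξ (ξ w)) ∈ simEig f (χ ∘ π^[1]) := hmove1 χ _ h2
        have hx1 : ξ (ξ (ξ w)) - a₂ • ξ w ∈ Mχ (χ ∘ π^[1]) := by
          rw [hmem]
          exact Submodule.sub_mem _ h3 (Submodule.smul_mem _ _ h1)
        have hx2 : ξ (ξ (ξ w)) - a₂ • ξ w ∈ Mχ χ := by
          rw [hmem]
          have h4 : ξ (ξ (ξ w)) - a₂ • ξ w = a₁ • ξ (ξ w) + a₃ • w := by
            rw [hcub w]
            abel
          rw [h4]
          exact Submodule.add_mem _ (Submodule.smul_mem _ _ h2) (Submodule.smul_mem _ _ hw)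
        have hx0 : ξ (ξ (ξ w)) - a₂ • ξ w = 0 := (Submodule.disjoint_def.mp hdisj) _ hx2 hx1
        have hx3 : ξ (ξ (ξ w) - a₂ • w) = 0 := by
          rw [map_sub, map_smul]
          exact hx0
        exact sub_eq_zero.mp (hξinj _ hx3)
      refine ⟨a₂, ?_, hkey⟩
      intro h0
      have h1 := hkey w₀ hw₀
      rw [h0, zero_smul] at h1
      exact hw₀0 (hξinj _ (hξinj _ h1))
    · -- period at least four: impossible
      exfalso
      have hs4 : 4 ≤ 2 ^ e := by
        calc 4 = 2 ^ 2 := by norm_num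
          _ ≤ 2 ^ e := Nat.pow_le_pow_right (by norm_num) he2
      let c : Fin 4 → (ι → K) := fun i => χ ∘ π^[(i : ℕ)]
      have key : ∀ i k : Fin 4, (i : ℕ) < (k : ℕ) → c i = c k → False := by
        intro i k hlt hik
        have hk := k.2
        apply hsmin ((i : ℕ) + (2 ^ e - (k : ℕ))) (by omega) (by omega)
        have h1 : (χ ∘ π^[(i : ℕ)]) ∘ π^[2 ^ e - (k : ℕ)] =
            (χ ∘ π^[(k : ℕ)]) ∘ π^[2 ^ e - (k : ℕ)] := by
          have h2 : χ ∘ π^[(i : ℕ)] = χ ∘ π^[(k : ℕ)] := hik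
          rw [h2]
        rw [Function.comp_assoc, Function.comp_assoc, ← Function.iterate_add,
          ← Function.iterate_add] at h1
        rw [h1]
        have h3 : (k : ℕ) + (2 ^ e - (k : ℕ)) = 2 ^ e := by omega
        rw [h3]
        exact hsS
      have hcinj : Function.Injective c := by
        intro i k hik
        rcases lt_trichotomy (i : ℕ) (k : ℕ) with h | h | h
        · exact (key i k h hik).elim
        · exact Fin.ext h
        · exact (key k i h hik.symm).elim
      have hind' : iSupIndep (fun i : Fin 4 => Mχ (c i)) := hind.comp hcinj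
      have hvi : ∀ i : Fin 4, (ξ ^ (i : ℕ)) w₀ ∈ Mχ (c i) := by
        intro i
        rw [hmem]
        exact hmovek i χ w₀ hw₀
      have hvi0 : ∀ i : Fin 4, (ξ ^ (i : ℕ)) w₀ ≠ 0 := fun i h0 => hw₀0 (hξk _ _ h0)
      have hli := hind'.linearIndependent (fun i : Fin 4 => Mχ (c i)) hvi hvi0
      have e2 : (ξ ^ 2) w₀ = ξ (ξ w₀) := by
        rw [pow_two, Module.End.mul_apply]
      have e3 : (ξ ^ 3) w₀ = ξ (ξ (ξ w₀)) := by
        rw [pow_succ' ξ 2, Module.End.mul_apply, e2]
      have hrel : ∑ i : Fin 4, (![-a₃, -a₂, -a₁, 1] i : K) • (ξ ^ (i : ℕ)) w₀ = 0 := by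
        rw [Fin.sum_univ_four]
        show (-a₃) • (ξ ^ 0) w₀ + (-a₂) • (ξ ^ 1) w₀ + (-a₁) • (ξ ^ 2) w₀ +
          (1 : K) • (ξ ^ 3) w₀ = 0
        rw [pow_zero, pow_one, Module.End.one_apply, e2, e3, hcub w₀]
        module
      have h7 := Fintype.linearIndependent_iff.mp hli _ hrel 3
      simp at h7

end Cliff

end Cfsg.Agent.Helper47.GrossSsl
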