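-- helper47 library: piece SSL of CALL S3795 (helper63), part B: the critical configuration
-- with a cubic identity is impossible (adapted from `Helper63.Gross.main_false`).
import Cfsg.Agent.Helper47.Gross2SslA

set_option autoImplicit false

namespace Cfsg.Agent.Helper47.GrossSsl

open Module Cfsg.Agent.Helper63.Gross Cfsg.Agent.Helper63.Shult Cfsg.Agent.Helper63.ProjRep

universe u v w

section Main

variable {K : Type u} [Field K] [IsAlgClosed K]

/-- The critical configuration with a cubic identity is impossible. -/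
theorem main_false2 {P : Type w} [Group P] [Finite P] {r : ℕ} [hrF : Fact r.Prime]
    (hr2 : r ≠ 2) (hrK : (r : K) ≠ 0) (h2K : (2 : K) ≠ 0)
    (hP : IsPGroup r P) (φ : MulAut P) (n : ℕ) (hn : 1 ≤ n)
    (hcharK : ((2 ^ (n + 1) - 1 : ℕ) : K) = 0)
    (hcc : ∀ g h : P, cm g h ∈ Subgroup.center P)
    (hfree : ∀ g : P, ∀ i, 0 < i → i < 2 ^ (n + 1) → (φ ^ i) g * g⁻¹ ∈ Subgroup.center P →
      g ∈ Subgroup.center P)
    (g₀ : P) (c₁ c₂ c₃ : K) (d : ℕ) :
    ∀ (M : Type v) [AddCommGroup M] [Module K M] [FiniteDimensional K M]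
      (ρ : P →* Module.End K M) (ξ : Module.End K M), finrank K M = d →
      (∀ g, ξ * ρ g = ρ (φ g) * ξ) → ξ ^ 2 ^ (n + 1) = 1 →
      (∀ v, ξ (ξ (ξ v)) = (c₁ + c₂ + c₃) • ξ (ξ v) +
        (-(c₁ * c₂ + c₁ * c₃ + c₂ * c₃)) • ξ v + (c₁ * c₂ * c₃) • v) →
      ρ ((φ ^ 2 ^ n) g₀) ≠ ρ g₀ → False := by
  induction d using Nat.strong_induction_on with
  | _ d ih =>
    intro M _ _ _ ρ ξ hd hint hξN hcub hne
    classical
    have hr : r.Prime := hrF.out
    obtain ⟨N, hNdef⟩ : ∃ N, N = 2 ^ (n + 1) := ⟨_, rfl⟩
    rw [← hNdef] at hξN hfree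
    have hN0 : 0 < N := by
      rw [hNdef]
      exact Nat.pow_pos (by norm_num)
    obtain ⟨ξi, hξidef⟩ : ∃ ξi : Module.End K M, ξi = ξ ^ (N - 1) := ⟨_, rfl⟩
    have hN1e : N - 1 + 1 = N := by omega
    have hξ' : ξi * ξ = 1 := by
      rw [hξidef, ← pow_succ, hN1e, hξN]
    have hξ : ξ * ξi = 1 := by
      rw [hξidef, ← pow_succ', hN1e, hξN]
    have hcancel : ∀ A B : Module.End K M, ξ * A = ξ * B → A = B := by
      intro A B h
      calc A = ξi * (ξ * A) := by rw [← mul_assoc, hξ', one_mul]
        _ = ξi * (ξ * B) := by rw [h]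
        _ = B := by rw [← mul_assoc, hξ', one_mul]
    have hcancel' : ∀ A B : Module.End K M, A * ξ = B * ξ → A = B := by
      intro A B h
      calc A = (A * ξ) * ξi := by rw [mul_assoc, hξ, mul_one]
        _ = (B * ξ) * ξi := by rw [h]
        _ = B := by rw [mul_assoc, hξ, mul_one]
    obtain ⟨ψ, hψdef⟩ : ∃ ψ : MulAut P, ψ = φ := ⟨_, rfl⟩
    rw [← hψdef] at hint
    have hintk : ∀ (k : ℕ) g, ξ ^ k * ρ g = ρ ((ψ ^ k) g) * ξ ^ k := by
      intro k
      induction k with
      | zero =>
        intro g
        simp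
      | succ k ih' =>
        intro g
        calc ξ ^ (k + 1) * ρ g = ξ * (ξ ^ k * ρ g) := by rw [pow_succ' ξ, mul_assoc]
          _ = ξ * (ρ ((ψ ^ k) g) * ξ ^ k) := by rw [ih']
          _ = (ξ * ρ ((ψ ^ k) g)) * ξ ^ k := by rw [mul_assoc]
          _ = (ρ (ψ ((ψ ^ k) g)) * ξ) * ξ ^ k := by rw [hint]
          _ = ρ ((ψ ^ (k + 1)) g) * ξ ^ (k + 1) := by
            rw [mul_assoc, ← pow_succ' ξ, pow_succ' ψ, MulAut.mul_apply]
    obtain ⟨kP, hkP⟩ := IsPGroup.iff_card.mp hP
    have hcardK : ((Nat.card P : ℕ) : K) ≠ 0 := by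
      rw [hkP, Nat.cast_pow]
      exact pow_ne_zero _ hrK
    have hssρ : ∀ g, (ρ g).IsSemisimple := by
      intro g
      apply isSemisimple_of_pow_eq_one (ρ g) (Nat.card P) _ hcardK
      rw [← map_pow, pow_card_eq_one', map_one]
    by_cases hsc : ∀ g, (∀ h, ρ g * ρ h = ρ h * ρ g) → ∃ μ : K, ρ g = μ • (1 : Module.End K M)
    · -- base case: operators centralizing the image act by scalars
      have : Nontrivial M := by
        by_contra hM
        rw [not_nontrivial_iff_subsingleton] at hM
        apply hne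
        apply LinearMap.ext
        intro v
        exact Subsingleton.elim _ _
      have hφ₁ : φ ^ 2 ^ n = ψ ^ 2 ^ n := by
        rw [hψdef]
      have hNK : (N : K) ≠ 0 := by
        rw [hNdef, Nat.cast_pow]
        exact pow_ne_zero _ (by exact_mod_cast h2K)
      have hcentral_act : ∀ z ∈ Subgroup.center P, ∀ h, ρ z * ρ h = ρ h * ρ z := by
        intro z hz h
        rw [← map_mul, ← map_mul, Subgroup.mem_center_iff.mp hz h]
      have hψsc : ∀ g, (∀ h, ρ g * ρ h = ρ h * ρ g) → ρ (ψ g) = ρ g := by
        intro g hg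
        obtain ⟨μ, hμ⟩ := hsc g hg
        apply hcancel'
        rw [← hint, hμ, mul_smul_comm, smul_mul_assoc, mul_one, one_mul]
      have hψk_center : ∀ (k : ℕ), ∀ z ∈ Subgroup.center P, ρ ((ψ ^ k) z) = ρ z := by
        intro k
        induction k with
        | zero =>
          intro z hz
          simp
        | succ k ih' =>
          intro z hz
          rw [pow_succ' ψ, MulAut.mul_apply]
          have h1 : (ψ ^ k) z ∈ Subgroup.center P := map_mem_center (ψ ^ k) hz
          rw [hψsc _ (hcentral_act _ h1), ih' z hz]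
      -- the image is not abelian
      have hnonab : ∃ a b : P, ρ a * ρ b ≠ ρ b * ρ a := by
        by_contra hcon
        push Not at hcon
        apply hne
        rw [hφ₁]
        have h1 : ∀ (k : ℕ) g, ρ ((ψ ^ k) g) = ρ g := by
          intro k
          induction k with
          | zero =>
            intro g
            simp
          | succ k ih' =>
            intro g
            rw [pow_succ' ψ, MulAut.mul_apply, hψsc _ (fun h => hcon _ h), ih']
        exact h1 _ g₀
      -- the image group
      obtain ⟨xu, hxuval, hxuinv⟩ : ∃ xu : (Module.End K M)ˣ, (xu : Module.End K M) = ξ ∧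
          ((xu⁻¹ : (Module.End K M)ˣ) : Module.End K M) = ξi := ⟨⟨ξ, ξi, hξ, hξ'⟩, rfl, rfl⟩
      obtain ⟨ρu, hρudef⟩ : ∃ ρu : P →* (Module.End K M)ˣ, ρu = ρ.toHomUnits := ⟨_, rfl⟩
      have hρuval : ∀ g, ((ρu g : (Module.End K M)ˣ) : Module.End K M) = ρ g := by
        intro g
        rw [hρudef]
        rfl
      obtain ⟨Q', ρr, hQ'def, hρrval⟩ : ∃ (Q' : Subgroup (Module.End K M)ˣ) (ρr : P →* ↥Q'),
          Q' = ρu.range ∧ ∀ g, ((ρr g : ↥Q') : (Module.End K M)ˣ) = ρu g :=
        ⟨ρu.range, ρu.rangeRestrict, rfl, fun g => rfl⟩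
      have hρrsurj : Function.Surjective ρr := by
        intro y
        have hy : (y : (Module.End K M)ˣ) ∈ ρu.range := by
          rw [← hQ'def]
          exact y.2
        obtain ⟨g, hg⟩ := hy
        refine ⟨g, Subtype.ext ?_⟩
        rw [hρrval, hg]
      have : Finite ↥Q' := Finite.of_surjective ρr hρrsurj
      have hQ'p : IsPGroup r ↥Q' := hP.of_surjective ρr hρrsurj
      have hrep : ∀ g, unitsRep Q' (ρr g) = ρ g := by
        intro g
        rw [unitsRep_apply, hρrval, hρuval]
      have hconj : ∀ g, xu * ρu g * xu⁻¹ = ρu (ψ g) := by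
        intro g
        apply Units.ext
        rw [Units.val_mul, Units.val_mul, hxuval, hxuinv, hρuval, hρuval, hint, mul_assoc, hξ,
          mul_one]
      have hxuN : xu ^ N = 1 := by
        apply Units.ext
        rw [Units.val_pow_eq_pow_val, hxuval, hξN, Units.val_one]
      have hxQ' : ∀ g ∈ Q', xu * g * xu⁻¹ ∈ Q' := by
        intro g hg
        rw [hQ'def] at hg ⊢
        obtain ⟨a, rfl⟩ := hg
        rw [hconj]
        exact ⟨ψ a, rfl⟩
      have hxN := mem_normalizer_of_pow Q' xu hN0 hxuN hxQ'
      obtain ⟨φ', hφ'def⟩ : ∃ φ' : MulAut ↥Q', φ' = conjAut Q' xu hxN := ⟨_, rfl⟩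
      have hφ'ρ : ∀ g, φ' (ρr g) = ρr (ψ g) := by
        intro g
        apply Subtype.ext
        rw [hφ'def, conjAut_apply, hρrval, hρrval, hconj]
      have hφ'k : ∀ (k : ℕ) g, (φ' ^ k) (ρr g) = ρr ((ψ ^ k) g) := by
        intro k
        induction k with
        | zero =>
          intro g
          simp
        | succ k ih' =>
          intro g
          rw [pow_succ' φ', MulAut.mul_apply, ih', hφ'ρ, pow_succ' ψ, MulAut.mul_apply]
      have hφ'N : φ' ^ N = 1 := by
        rw [hφ'def]
        exact conjAut_pow_eq_one Q' xu hxN hxuN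
      have hequiv' : ∀ g : ↥Q', ξ * unitsRep Q' g * ξi = unitsRep Q' (φ' g) := by
        intro g
        rw [hφ'def, ← hxuval, ← hxuinv]
        exact unitsRep_equiv Q' xu hxN g
      have hcenter_iff : ∀ g, ρr g ∈ Subgroup.center ↥Q' ↔ ∀ h, ρ g * ρ h = ρ h * ρ g := by
        intro g
        rw [Subgroup.mem_center_iff]
        constructor
        · intro hg h
          have h1 := hg (ρr h)
          have h2 := congrArg (unitsRep Q') h1
          rw [map_mul, map_mul, hrep, hrep] at h2
          exact h2.symm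
        · intro hg y
          obtain ⟨h, rfl⟩ := hρrsurj y
          apply unitsRep_injective Q'
          rw [map_mul, map_mul, hrep, hrep]
          exact (hg h).symm
      have hρ_cm : ∀ a b, ρr (cm a b) = cm (ρr a) (ρr b) := by
        intro a b
        rw [cm_def, cm_def, map_mul, map_mul, map_mul, map_inv, map_inv]
      have hcenter_map : ∀ z ∈ Subgroup.center P, ρr z ∈ Subgroup.center ↥Q' := by
        intro z hz
        rw [hcenter_iff]
        exact hcentral_act z hz
      have hcm_one : ∀ g, (∀ h, ρ g * ρ h = ρ h * ρ g) ↔ ∀ h, ρ (cm g h) = 1 := by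
        intro g
        constructor
        · intro hg h
          have h1 : ρ (cm g h) = ρ g * ρ h * ρ g⁻¹ * ρ h⁻¹ := by
            rw [cm_def, map_mul, map_mul, map_mul]
          have e1 : ρ g * ρ g⁻¹ = 1 := by rw [← map_mul, mul_inv_cancel, map_one]
          have e2 : ρ h * ρ h⁻¹ = 1 := by rw [← map_mul, mul_inv_cancel, map_one]
          rw [h1, hg h, mul_assoc (ρ h) (ρ g), e1, mul_one, e2]
        · intro hg h
          have h1 : g * h = cm g h * (h * g) := mul_eq_cm_mul g h
          rw [← map_mul, h1, map_mul, hg h, one_mul, map_mul]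
      let lam' : ↥Q' → K := fun z =>
        if h : ∃ c : K, unitsRep Q' z = c • (1 : Module.End K M) then h.choose else 0
      have H : Hyp (unitsRep Q') lam' := by
        refine ⟨?_, ?_, ?_, ?_⟩
        · intro g h
          obtain ⟨a, rfl⟩ := hρrsurj g
          obtain ⟨b, rfl⟩ := hρrsurj h
          rw [← hρ_cm]
          exact hcenter_map _ (hcc a b)
        · intro z hz
          obtain ⟨a, rfl⟩ := hρrsurj z
          have h : ∃ c : K, unitsRep Q' (ρr a) = c • (1 : Module.End K M) := by
            rw [hrep]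
            exact hsc a ((hcenter_iff a).mp hz)
          have h1 : lam' (ρr a) = h.choose := dif_pos h
          rw [h1]
          exact h.choose_spec
        · intro g hg
          by_contra hcon
          push Not at hcon
          apply hg
          rw [Subgroup.mem_center_iff]
          intro h
          have h1 := hcon h
          rw [← map_one (unitsRep Q')] at h1
          have h2 := unitsRep_injective Q' h1
          rw [cm_def] at h2
          have h3 : g * h = h * g := by
            calc g * h = (g * h * g⁻¹ * h⁻¹) * (h * g) := by group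
              _ = h * g := by rw [h2, one_mul]
          exact h3.symm
        · obtain ⟨kQ, hkQ⟩ := IsPGroup.iff_card.mp hQ'p
          have h1 : (Subgroup.center ↥Q').index ∣ r ^ kQ := by
            rw [← hkQ]
            exact Subgroup.index_dvd_card _
          obtain ⟨j', -, hj'⟩ := (Nat.dvd_prime_pow hr).mp h1
          rw [hj', Nat.cast_pow]
          exact pow_ne_zero _ hrK
      have hfree' : ∀ g : ↥Q', ∀ i, 0 < i → i < N →
          (φ' ^ i) g * g⁻¹ ∈ Subgroup.center ↥Q' → g ∈ Subgroup.center ↥Q' := by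
        intro g i hi0 hiN hg
        obtain ⟨a, rfl⟩ := hρrsurj g
        rw [hφ'k, ← map_inv ρr, ← map_mul ρr] at hg
        obtain ⟨τ, hτdef⟩ : ∃ τ : MulAut P, τ = ψ ^ i := ⟨_, rfl⟩
        rw [← hτdef] at hg
        have hτfree : ∀ g : P, τ g * g⁻¹ ∈ Subgroup.center P → g ∈ Subgroup.center P := by
          intro g hg'
          rw [hτdef, hψdef] at hg'
          exact hfree g i hi0 hiN hg'
        have hτZ : ∀ z ∈ Subgroup.center P, ρ (τ z) = ρ z := by
          intro z hz
          rw [hτdef]
          exact hψk_center i z hz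
        have hr1 : ∀ h, ρ (cm (τ a * a⁻¹) h) = 1 := (hcm_one _).mp ((hcenter_iff _).mp hg)
        have hstar : ∀ h, ρ (cm a (τ h)) = ρ (cm a h) := by
          intro h
          have h1 : cm (τ a) (τ h) = τ (cm a h) := by
            rw [cm_def, cm_def, map_mul, map_mul, map_mul, map_inv, map_inv]
          have h2 : τ a = (τ a * a⁻¹) * a := by group
          have h3 : cm (τ a) (τ h) = cm (τ a * a⁻¹) (τ h) * cm a (τ h) := by
            conv_lhs => rw [h2]
            exact cm_mul_left hcc _ _ _
          rw [← one_mul (ρ (cm a (τ h))), ← hr1 (τ h), ← map_mul, ← h3, h1]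
          exact hτZ _ (hcc a h)
        rw [hcenter_iff, hcm_one]
        intro h'
        obtain ⟨y, z, hz, hyz⟩ := surj_mod_center τ hτfree h'
        rw [hyz, cm_central_right hz, cm_mul_right hcc, map_mul, hstar]
        have h4 : cm a y⁻¹ * cm a y = 1 := by
          rw [← cm_mul_right hcc, inv_mul_cancel, cm_def]
          group
        rw [← map_mul, h4, map_one]
      obtain ⟨d0, hd0⟩ := H.exists_index_eq_sq
      have hcubF : (ξ - c₁ • (1 : Module.End K M)) * (ξ - c₂ • (1 : Module.End K M)) *
          (ξ - c₃ • (1 : Module.End K M)) = 0 := by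
        apply LinearMap.ext
        intro v
        simp only [Module.End.mul_apply, LinearMap.sub_apply, LinearMap.smul_apply,
          Module.End.one_apply, map_sub, map_smul, LinearMap.zero_apply]
        rw [hcub v]
        module
      have hle := H.index_cubic φ' ξ ξi hξ hξ' hequiv' N hN0 hφ'N hfree' hξN hNK c₁ c₂ c₃ hcubF
      obtain ⟨kQ, hkQ⟩ := IsPGroup.iff_card.mp hQ'p
      have hd1 : (Subgroup.center ↥Q').index ∣ r ^ kQ := by
        rw [← hkQ]
        exact Subgroup.index_dvd_card _
      have hd2 : d0 ∣ r ^ kQ := by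
        refine dvd_trans ?_ hd1
        rw [hd0]
        exact dvd_pow_self d0 two_ne_zero
      obtain ⟨m, -, hm⟩ := (Nat.dvd_prime_pow hr).mp hd2
      have hcenter_ne : Subgroup.center ↥Q' ≠ ⊤ := by
        intro h
        obtain ⟨a, b, hab⟩ := hnonab
        apply hab
        have ha : ρr a ∈ Subgroup.center ↥Q' := by
          rw [h]
          exact Subgroup.mem_top _
        exact (hcenter_iff a).mp ha b
      have hm0 : 0 < m := by
        rcases Nat.eq_zero_or_pos m with h0 | h0
        · exfalso
          rw [h0, pow_zero] at hm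
          rw [hm, one_pow] at hd0
          exact hcenter_ne (Subgroup.index_eq_one.mp hd0)
        · exact h0
      rw [hd0] at hle
      have hr3 : 3 ≤ r := by
        have := hr.two_le
        omega
      have hd03 : 3 ≤ d0 := by
        rw [hm]
        calc 3 ≤ r := hr3
          _ = r ^ 1 := (pow_one r).symm
          _ ≤ r ^ m := Nat.pow_le_pow_right hr.pos hm0
      have hI9 : 9 ≤ d0 ^ 2 := by nlinarith
      have hN4 : 4 ≤ N := by
        rw [hNdef]
        calc 4 = 2 ^ 2 := by norm_num
          _ ≤ 2 ^ (n + 1) := Nat.pow_le_pow_right (by norm_num) (by omega)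
      have hle' : N * d0 ^ 2 + 3 ≤ 3 * d0 ^ 2 + 3 * N := by omega
      have hN4' : N = 4 := by nlinarith
      have hI9' : d0 ^ 2 = 9 := by
        rw [hN4'] at hle'
        omega
      have hd0eq : d0 = 3 := by nlinarith
      have hn1 : n = 1 := by
        rw [hNdef] at hN4'
        have h1 : 2 ^ (n + 1) = 2 ^ 2 := hN4'.trans (by norm_num)
        have h2 := Nat.pow_right_injective (le_refl 2) h1
        omega
      have hr3' : r = 3 := by
        rw [hd0eq] at hm
        have h1 : r ∣ 3 := by
          rw [hm]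
          exact dvd_pow_self r (by omega)
        exact (Nat.prime_dvd_prime_iff_eq hr Nat.prime_three).mp h1
      apply hrK
      rw [hn1] at hcharK
      rw [hr3']
      exact_mod_cast hcharK
    · -- reduction: restrict to a simultaneous eigenspace
      push Not at hsc
      obtain ⟨g₁, hg₁c, hg₁ns⟩ := hsc
      let f : {g : P // ∀ h, ρ g * ρ h = ρ h * ρ g} → Module.End K M := fun i => ρ i.1
      have hπmem : ∀ g : P, (∀ h, ρ g * ρ h = ρ h * ρ g) →
          ∀ h, ρ (ψ.symm g) * ρ h = ρ h * ρ (ψ.symm g) := by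
        intro g hg h
        apply hcancel
        have h1 : ξ * ρ (ψ.symm g) = ρ g * ξ := by
          have := hint (ψ.symm g)
          rw [MulEquiv.apply_symm_apply] at this
          exact this
        calc ξ * (ρ (ψ.symm g) * ρ h) = (ξ * ρ (ψ.symm g)) * ρ h := by rw [mul_assoc]
          _ = ρ g * (ξ * ρ h) := by rw [h1, mul_assoc]
          _ = ρ g * (ρ (ψ h) * ξ) := by rw [hint]
          _ = (ρ g * ρ (ψ h)) * ξ := by rw [mul_assoc]
          _ = (ρ (ψ h) * ρ g) * ξ := by rw [hg]
          _ = ρ (ψ h) * (ρ g * ξ) := by rw [mul_assoc]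
          _ = ρ (ψ h) * (ξ * ρ (ψ.symm g)) := by rw [h1]
          _ = (ρ (ψ h) * ξ) * ρ (ψ.symm g) := by rw [mul_assoc]
          _ = (ξ * ρ h) * ρ (ψ.symm g) := by rw [hint]
          _ = ξ * (ρ h * ρ (ψ.symm g)) := by rw [mul_assoc]
      let π : {g : P // ∀ h, ρ g * ρ h = ρ h * ρ g} → {g : P // ∀ h, ρ g * ρ h = ρ h * ρ g} :=
        fun i => ⟨ψ.symm i.1, hπmem i.1 i.2⟩
      have hπ : ∀ i, f i * ξ = ξ * f (π i) := by
        intro i
        show ρ i.1 * ξ = ξ * ρ (ψ.symm i.1)
        have := hint (ψ.symm i.1)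
        rw [MulEquiv.apply_symm_apply] at this
        exact this.symm
      obtain ⟨χ, ⟨w₀, hw₀, hw₀ne⟩, halt⟩ := cliff_cubic f
        (fun i j => i.2 j.1) (fun i => hssρ i.1) ξ π hπ (n + 1) (by rw [← hNdef]; exact hξN)
        (c₁ + c₂ + c₃) (-(c₁ * c₂ + c₁ * c₃ + c₂ * c₃)) (c₁ * c₂ * c₃) hcub
        (ρ ((φ ^ 2 ^ n) g₀)) (ρ g₀) hne
      obtain ⟨W, hWdef⟩ : ∃ W : Submodule K M, W = simEig f χ := ⟨_, rfl⟩
      rw [← hWdef] at halt hw₀
      have hWρ : ∀ g, ∀ w ∈ W, ρ g w ∈ W := by
        intro g w hw
        rw [hWdef, mem_simEig] at hw ⊢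
        intro i
        have h1 := LinearMap.congr_fun (i.2 g) w
        simp only [Module.End.mul_apply] at h1
        show ρ i.1 (ρ g w) = χ i • ρ g w
        have h2 : ρ i.1 w = χ i • w := hw i
        rw [h1, h2, map_smul]
      have hWtop : W ≠ ⊤ := by
        intro h
        apply hg₁ns (χ ⟨g₁, hg₁c⟩)
        apply LinearMap.ext
        intro v
        have hv : v ∈ W := by
          rw [h]
          exact Submodule.mem_top
        rw [hWdef, mem_simEig] at hv
        have h1 : ρ g₁ v = χ ⟨g₁, hg₁c⟩ • v := hv ⟨g₁, hg₁c⟩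
        rw [h1]
        simp
      have hfin := Submodule.finrank_lt hWtop
      rcases halt with hW1 | ⟨c, hc0, hcW⟩
      · refine ih (finrank K ↥W) (by omega) ↥W (resHom ρ W hWρ) (ξ.restrict hW1) rfl ?_ ?_ ?_ ?_
        · intro g
          apply LinearMap.ext
          intro w
          apply Subtype.ext
          show ξ (ρ g (w : M)) = ρ (φ g) (ξ (w : M))
          have h1 := LinearMap.congr_fun (hint g) (w : M)
          simp only [Module.End.mul_apply] at h1
          rw [h1, hψdef]
        · apply LinearMap.ext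
          intro w
          apply Subtype.ext
          have hξN' : ξ ^ 2 ^ (n + 1) = 1 := by
            rw [← hNdef]
            exact hξN
          rw [restrict_pow_coe, hξN']
          rfl
        · intro w
          apply Subtype.ext
          exact hcub (w : M)
        · intro h
          apply hw₀ne
          have h1 := congrArg (fun T : Module.End K ↥W => ((T ⟨w₀, hw₀⟩ : ↥W) : M)) h
          exact h1
      · have hstep : ∀ g, ∀ w ∈ W, ρ ((ψ ^ 2) g) w = ρ g w := by
          intro g w hw
          have h1 := LinearMap.congr_fun (hintk 2 g) w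
          simp only [Module.End.mul_apply, pow_two] at h1
          rw [hcW _ (hWρ g w hw), hcW w hw, map_smul] at h1
          have h2 := smul_right_injective M hc0 h1
          simp only [pow_two]
          exact h2.symm
        have hstepk : ∀ (k : ℕ) g, ∀ w ∈ W, ρ (((ψ ^ 2) ^ k) g) w = ρ g w := by
          intro k
          induction k with
          | zero =>
            intro g w hw
            simp
          | succ k ih' =>
            intro g w hw
            rw [pow_succ' (ψ ^ 2), MulAut.mul_apply, hstep _ w hw, ih' g w hw]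
        apply hw₀ne
        have h3 : φ ^ 2 ^ n = (ψ ^ 2) ^ 2 ^ (n - 1) := by
          rw [hψdef, ← pow_mul, ← pow_succ']
          congr 2
          omega
        rw [h3]
        exact hstepk _ g₀ w₀ hw₀

end Main

end Cfsg.Agent.Helper47.GrossSsl
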