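-- helper47 library: piece SSL of CALL S3795 (helper63): small support (an operator of
-- two-power order annihilated by a cubic, in characteristic dividing `2 ^ j - 1`, normalizing
-- an `r`-group), adapted from `Helper63.Gross.gross_linear`.
import Cfsg.Agent.Helper47.Gross2SslB

set_option autoImplicit false

namespace Cfsg.Agent.Helper47.GrossSsl

open Module Cfsg.Agent.Helper63.Gross Cfsg.Agent.Helper63.Shult Cfsg.Agent.Helper63.ProjRep

universe u v

section Linear

variable {K : Type u} [Field K] [IsAlgClosed K] {M : Type v} [AddCommGroup M] [Module K M]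
  [FiniteDimensional K M]

/-- **Small support**, by induction on the order of the group. -/
theorem small_support_aux {r : ℕ} [hrF : Fact r.Prime] (hr2 : r ≠ 2) (hrK : (r : K) ≠ 0)
    (h2K : (2 : K) ≠ 0) (n : ℕ) (hn : 1 ≤ n) (hcharK : ((2 ^ (n + 1) - 1 : ℕ) : K) = 0)
    (x : (Module.End K M)ˣ) (hxp : x ^ 2 ^ (n + 1) = 1) (c₁ c₂ c₃ : K)
    (hcub : ((x : Module.End K M) - c₁ • (1 : Module.End K M)) *
      ((x : Module.End K M) - c₂ • (1 : Module.End K M)) *
      ((x : Module.End K M) - c₃ • (1 : Module.End K M)) = 0) (m : ℕ) :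
    ∀ (Q : Subgroup (Module.End K M)ˣ) [Finite Q], Nat.card Q = m → IsPGroup r Q →
      (∀ g ∈ Q, x * g * x⁻¹ ∈ Q) →
      ∀ g ∈ Q, x ^ 2 ^ n * g * (x ^ 2 ^ n)⁻¹ = g := by
  induction m using Nat.strong_induction_on with
  | _ m ih =>
    intro Q _ hm hQ hxQ
    by_contra hcon
    push Not at hcon
    obtain ⟨g₀, hg₀Q, hg₀⟩ := hcon
    have hN0 : 0 < 2 ^ (n + 1) := Nat.pow_pos (by norm_num)
    have hxN := mem_normalizer_of_pow Q x hN0 hxp hxQ
    obtain ⟨φ, hφdef⟩ : ∃ φ : MulAut ↥Q, φ = conjAut Q x hxN := ⟨_, rfl⟩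
    have hφval : ∀ g : ↥Q, ((φ g : ↥Q) : (Module.End K M)ˣ) = x * g * x⁻¹ := by
      intro g
      rw [hφdef]
      rfl
    have hφkval : ∀ (k : ℕ) (g : ↥Q),
        (((φ ^ k) g : ↥Q) : (Module.End K M)ˣ) = x ^ k * g * (x ^ k)⁻¹ := by
      intro k g
      rw [hφdef]
      exact conjAut_pow_apply Q x hxN k g
    have hφ : φ ^ 2 ^ (n + 1) = 1 := by
      rw [hφdef]
      exact conjAut_pow_eq_one Q x hxN hxp
    have hφne : (φ ^ 2 ^ n) ⟨g₀, hg₀Q⟩ ≠ ⟨g₀, hg₀Q⟩ := by
      intro h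
      apply hg₀
      have h1 := congrArg Subtype.val h
      rw [hφkval] at h1
      exact h1
    by_cases hstep : ∃ P₀ : Subgroup ↥Q, P₀ ≠ ⊤ ∧ (∀ g ∈ P₀, φ g ∈ P₀) ∧
        ∃ g ∈ P₀, (φ ^ 2 ^ n) g ≠ g
    · obtain ⟨P₀, hP₀top, hP₀φ, g₁, hg₁P, hg₁⟩ := hstep
      have hle : P₀.map Q.subtype ≤ Q := by
        rintro _ ⟨a, _, rfl⟩
        exact a.2
      have : Finite ↥(P₀.map Q.subtype) := Finite.of_injective _
        (Subgroup.inclusion_injective hle)
      have hcard : Nat.card ↥(P₀.map Q.subtype) < Nat.card ↥Q := by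
        rw [Subgroup.card_map_of_injective Q.subtype_injective]
        apply lt_of_le_of_ne (Subgroup.card_le_card_group P₀)
        intro h
        exact hP₀top ((Subgroup.card_eq_iff_eq_top P₀).mp h)
      have hinv : ∀ g ∈ P₀.map Q.subtype, x * g * x⁻¹ ∈ P₀.map Q.subtype := by
        rintro _ ⟨a, ha, rfl⟩
        exact ⟨φ a, hP₀φ a ha, hφval a⟩
      have h1 := ih (Nat.card ↥(P₀.map Q.subtype)) (by omega) (P₀.map Q.subtype) rfl
        (hQ.to_le hle) hinv (g₁ : (Module.End K M)ˣ) ⟨g₁, hg₁P, rfl⟩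
      apply hg₁
      apply Subtype.ext
      rw [hφkval]
      exact h1
    · have hmin : ∀ P₀ : Subgroup ↥Q, P₀ ≠ ⊤ → (∀ g ∈ P₀, φ g ∈ P₀) →
          ∀ g ∈ P₀, (φ ^ 2 ^ n) g = g := by
        intro P₀ h1 h2 g hg
        by_contra h3
        exact hstep ⟨P₀, h1, h2, g, hg, h3⟩
      obtain ⟨hcc, hfree, -⟩ := critical' Nat.prime_two hr2 hQ φ n hφ hmin ⟨_, hφne⟩
      refine main_false2 (K := K) hr2 hrK h2K hQ φ n hn hcharK hcc hfree ⟨g₀, hg₀Q⟩ c₁ c₂ c₃
        (finrank K M) M (unitsRep Q) (x : Module.End K M) rfl ?_ ?_ ?_ ?_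
      · intro g
        rw [unitsRep_apply, unitsRep_apply, hφval, ← Units.val_mul, ← Units.val_mul]
        congr 1
        group
      · rw [← Units.val_pow_eq_pow_val, hxp, Units.val_one]
      · intro v
        have h1 := LinearMap.congr_fun hcub v
        simp only [Module.End.mul_apply, LinearMap.sub_apply, LinearMap.smul_apply,
          Module.End.one_apply, map_sub, map_smul, LinearMap.zero_apply] at h1
        rw [← sub_eq_zero, ← h1]
        module
      · intro h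
        exact hφne (unitsRep_injective Q h)

end Linear

end Cfsg.Agent.Helper47.GrossSsl

namespace Cfsg.Agent.Helper47

open Cfsg.Agent.Helper63.Gross2

universe u

/-- **Small support** (piece SSL of CALL S3795). -/
theorem small_support : SmallSupportStmt.{u} := by
  intro K _ _ A _ _ _ r hr hr2 hrK h2K j hj hchar y hy c₁ c₂ c₃ hcub R hRfin hR hyR g hg
  have : Fact r.Prime := ⟨hr⟩
  obtain ⟨n, rfl⟩ : ∃ n, j = n + 1 := ⟨j - 1, by omega⟩
  have h := GrossSsl.small_support_aux hr2 hrK h2K n (by omega) hchar y hy c₁ c₂ c₃ hcub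
    (Nat.card R) R rfl hR hyR g hg
  rw [Nat.add_sub_cancel]
  exact h

end Cfsg.Agent.Helper47
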