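import Mathlib
import Cfsg.Agent.Lead.H581Defs

/-!
# S4221 (Hall 5.8.1), core of piece A3: every involution has exactly `f0` fixed points

`nfix_inv_of` is the statement with its three dependencies (A2 third part, A3a, A3c) as hypotheses.
-/

set_option autoImplicit false

namespace Cfsg.Agent.Helper47.H581A3

open Cfsg.Agent.Lead.H581 Equiv

variable {α : Type*} [Fintype α] [DecidableEq α]

theorem nfix_add_support (y : Perm α) : nfix y + y.support.card = Fintype.card α := by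
  have h : Finset.univ.filter (fun x => y x = x) = y.supportᶜ := by
    ext x
    simp [Equiv.Perm.mem_support]
  unfold nfix
  rw [h, Finset.card_compl]
  have := Finset.card_le_univ y.support
  omega

theorem nfix_eq_f0_of (y : Perm α) (hy2 : y * y = 1) (h3 : nfix y ≤ 3) (p q : α) (hpq : p ≠ q)
    (hp : y p = p) (hq : y q = q) : nfix y = f0 α := by
  have hsum := nfix_add_support y
  have hdvd : 2 ∣ y.support.card := Equiv.Perm.two_dvd_card_support (by rw [pow_two]; exact hy2)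
  have h2 : 2 ≤ nfix y := by
    unfold nfix
    have hsub : ({p, q} : Finset α) ⊆ Finset.univ.filter (fun x => y x = x) := by
      intro x hx
      rw [Finset.mem_insert, Finset.mem_singleton] at hx
      rw [Finset.mem_filter]
      rcases hx with rfl | rfl
      · exact ⟨Finset.mem_univ _, hp⟩
      · exact ⟨Finset.mem_univ _, hq⟩
    have := Finset.card_le_card hsub
    rw [Finset.card_pair hpq] at this
    exact this
  unfold f0
  obtain ⟨k, hk⟩ := hdvd
  split_ifs with he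
  · obtain ⟨m, hm⟩ := he
    omega
  · rw [Nat.not_even_iff_odd] at he
    obtain ⟨m, hm⟩ := he
    omega

theorem common_fix_card (y₁ y₂ : Perm α) (h22 : y₂ * y₂ = 1) (hc12 : y₁ * y₂ = y₂ * y₁)
    (h3 : nfix y₁ ≤ 3) (c d : α) (hcd : c ≠ d) (e3 : y₁ c = c) (e4 : y₁ d = d) (e7 : y₂ c = d)
    (e8 : y₂ d = c) :
    (Finset.univ.filter (fun x => y₁ x = x ∧ y₂ x = x)).card + 2 = nfix y₁ := by
  have hy22 : ∀ x, y₂ (y₂ x) = x := fun x => by
    have := congrArg (fun f : Perm α => f x) h22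
    simpa using this
  have hcomm : ∀ x, y₁ (y₂ x) = y₂ (y₁ x) := fun x => by
    have := congrArg (fun f : Perm α => f x) hc12
    simpa using this
  have hsub : ({c, d} : Finset α) ⊆ Finset.univ.filter (fun x => y₁ x = x) := by
    intro x hx
    rw [Finset.mem_insert, Finset.mem_singleton] at hx
    rw [Finset.mem_filter]
    rcases hx with rfl | rfl
    · exact ⟨Finset.mem_univ _, e3⟩
    · exact ⟨Finset.mem_univ _, e4⟩
  have hcard : (Finset.univ.filter (fun x => y₁ x = x) \ {c, d}).card + 2 = nfix y₁ := by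
    rw [Finset.card_sdiff_of_subset hsub, Finset.card_pair hcd]
    have := Finset.card_le_card hsub
    rw [Finset.card_pair hcd] at this
    unfold nfix
    omega
  have hle1 : (Finset.univ.filter (fun x => y₁ x = x) \ {c, d}).card ≤ 1 := by omega
  have heq : Finset.univ.filter (fun x => y₁ x = x ∧ y₂ x = x) =
      Finset.univ.filter (fun x => y₁ x = x) \ {c, d} := by
    ext x
    simp only [Finset.mem_filter, Finset.mem_univ, true_and, Finset.mem_sdiff, Finset.mem_insert,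
      Finset.mem_singleton, not_or]
    constructor
    · rintro ⟨h1, h2⟩
      refine ⟨h1, ?_, ?_⟩
      · rintro rfl
        exact hcd (h2.symm.trans e7)
      · rintro rfl
        exact hcd (e8.symm.trans h2)
    · rintro ⟨h1, hxc, hxd⟩
      refine ⟨h1, ?_⟩
      have hmem1 : x ∈ Finset.univ.filter (fun x => y₁ x = x) \ {c, d} := by
        simp only [Finset.mem_filter, Finset.mem_univ, true_and, Finset.mem_sdiff, Finset.mem_insert,
          Finset.mem_singleton, not_or]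
        exact ⟨h1, hxc, hxd⟩
      have hmem2 : y₂ x ∈ Finset.univ.filter (fun x => y₁ x = x) \ {c, d} := by
        simp only [Finset.mem_filter, Finset.mem_univ, true_and, Finset.mem_sdiff, Finset.mem_insert,
          Finset.mem_singleton, not_or]
        refine ⟨?_, ?_, ?_⟩
        · rw [hcomm, h1]
        · intro h
          apply hxd
          rw [← hy22 x, h, e7]
        · intro h
          apply hxc
          rw [← hy22 x, h, e8]
      exact Finset.card_le_one.mp hle1 _ hmem2 _ hmem1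
  rw [heq]
  exact hcard

theorem nfix_inv_key (G : Subgroup (Perm α)) (hn : 6 ≤ Fintype.card α)
    (hV : ∀ (a b c d : α), Dist4 a b c d → ∀ t : Perm α, t ∈ invA G a b c d →
      ∃ y₁ ∈ G, ∃ y₂ ∈ G, y₁ * y₁ = 1 ∧ y₂ * y₂ = 1 ∧ y₁ * y₂ = y₂ * y₁ ∧ y₁ * y₂ = t ∧
        y₁ a = b ∧ y₁ b = a ∧ y₁ c = c ∧ y₁ d = d ∧ y₂ a = a ∧ y₂ b = b ∧ y₂ c = d ∧ y₂ d = c)
    (h3 : ∀ u : Perm α, u ∈ G → u * u = 1 → u ≠ 1 → nfix u ≤ 3)
    (h4 : ∀ y₁ y₂ : Perm α, y₁ * y₁ = 1 → y₂ * y₂ = 1 → y₁ * y₂ = y₂ * y₁ →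
      ∃ r : ℕ, Fintype.card α + 2 * (Finset.univ.filter (fun x => y₁ x = x ∧ y₂ x = x)).card =
        nfix y₁ + nfix y₂ + nfix (y₁ * y₂) + 4 * r ∧ 4 * r = (regPts y₁ y₂).card)
    (v : Perm α) (hv : v ∈ G) (hv2 : v * v = 1) (hv1 : v ≠ 1) :
    (∃ y ∈ G, y * y = 1 ∧ y ≠ 1 ∧ nfix y = f0 α) ∧
      ∃ r : ℕ, Fintype.card α = nfix v + 4 * (r + 1) := by
  have hv3 := h3 v hv hv2 hv1
  have hsum := nfix_add_support v
  obtain ⟨a, ha⟩ : v.support.Nonempty := Finset.card_pos.mp (by omega)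
  have hab : v a ≠ a := Equiv.Perm.mem_support.mp ha
  have hvv : ∀ x, v (v x) = x := fun x => by
    have := congrArg (fun f : Perm α => f x) hv2
    simpa using this
  obtain ⟨c, hc⟩ : (v.support \ {a, v a}).Nonempty := by
    apply Finset.card_pos.mp
    have h1 := Finset.le_card_sdiff ({a, v a} : Finset α) v.support
    have h2 : ({a, v a} : Finset α).card ≤ 2 := Finset.card_le_two
    omega
  rw [Finset.mem_sdiff, Finset.mem_insert, Finset.mem_singleton, not_or] at hc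
  obtain ⟨hcs, hca, hcb⟩ := hc
  have hcd : v c ≠ c := Equiv.Perm.mem_support.mp hcs
  have hd4 : Dist4 a (v a) c (v c) := by
    refine ⟨hab.symm, fun h => hca h.symm, ?_, fun h => hcb h.symm, ?_, hcd.symm⟩
    · intro h
      apply hcb
      rw [h, hvv]
    · intro h
      exact hca (v.injective h).symm
  have hinvA : v ∈ invA G a (v a) c (v c) := ⟨hv, hv2, rfl, rfl⟩
  obtain ⟨y₁, hy₁, y₂, hy₂, h11, h22, hc12, hprod, e1, e2, e3, e4, e5, e6, e7, e8⟩ :=
    hV a (v a) c (v c) hd4 v hinvA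
  have hy₁1 : y₁ ≠ 1 := by
    intro h
    rw [h] at e1
    exact hab e1.symm
  have hy₂1 : y₂ ≠ 1 := by
    intro h
    rw [h] at e7
    exact hcd e7.symm
  have hn1 := h3 y₁ hy₁ h11 hy₁1
  have hn2 := h3 y₂ hy₂ h22 hy₂1
  have hf1 : nfix y₁ = f0 α := nfix_eq_f0_of y₁ h11 hn1 c (v c) hcd.symm e3 e4
  have hf2 : nfix y₂ = f0 α := nfix_eq_f0_of y₂ h22 hn2 a (v a) hab.symm e5 e6
  have hF0 := common_fix_card y₁ y₂ h22 hc12 hn1 c (v c) hcd.symm e3 e4 e7 e8
  obtain ⟨r, hr, -⟩ := h4 y₁ y₂ h11 h22 hc12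
  rw [hprod] at hr
  refine ⟨⟨y₁, hy₁, h11, hy₁1, hf1⟩, r, ?_⟩
  omega

/-- Piece A3 with its dependencies as hypotheses. -/
theorem nfix_inv_of (G : Subgroup (Perm α)) (hn : 6 ≤ Fintype.card α)
    (hV : ∀ (a b c d : α), Dist4 a b c d → ∀ t : Perm α, t ∈ invA G a b c d →
      ∃ y₁ ∈ G, ∃ y₂ ∈ G, y₁ * y₁ = 1 ∧ y₂ * y₂ = 1 ∧ y₁ * y₂ = y₂ * y₁ ∧ y₁ * y₂ = t ∧
        y₁ a = b ∧ y₁ b = a ∧ y₁ c = c ∧ y₁ d = d ∧ y₂ a = a ∧ y₂ b = b ∧ y₂ c = d ∧ y₂ d = c)
    (h3 : ∀ u : Perm α, u ∈ G → u * u = 1 → u ≠ 1 → nfix u ≤ 3)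
    (h4 : ∀ y₁ y₂ : Perm α, y₁ * y₁ = 1 → y₂ * y₂ = 1 → y₁ * y₂ = y₂ * y₁ →
      ∃ r : ℕ, Fintype.card α + 2 * (Finset.univ.filter (fun x => y₁ x = x ∧ y₂ x = x)).card =
        nfix y₁ + nfix y₂ + nfix (y₁ * y₂) + 4 * r ∧ 4 * r = (regPts y₁ y₂).card)
    (u : Perm α) (hu : u ∈ G) (hu2 : u * u = 1) (hu1 : u ≠ 1) : nfix u = f0 α := by
  obtain ⟨⟨y, hy, hy2, hy1, hyf⟩, r, hr⟩ := nfix_inv_key G hn hV h3 h4 u hu hu2 hu1
  obtain ⟨-, r', hr'⟩ := nfix_inv_key G hn hV h3 h4 y hy hy2 hy1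
  have hu3 := h3 u hu hu2 hu1
  have hf : f0 α ≤ 3 := by
    unfold f0
    split_ifs <;> omega
  omega

end Cfsg.Agent.Helper47.H581A3
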