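import Mathlib
import Cfsg.Agent.Lead.H581Defs

/-!
# S4221 (Hall 5.8.1), piece A3a: an involution of `G` has at most three fixed points
-/

set_option autoImplicit false

namespace Cfsg.Agent.Helper47.H581A3a

open Cfsg.Agent.Lead.H581 Equiv

variable {α : Type*} [Fintype α] [DecidableEq α]

theorem nfix_le_three (G : Subgroup (Perm α)) (h : ℕ) (H : Hyp G h) (u : Perm α) (hu : u ∈ G) (hu2 : u * u = 1)
    (hu1 : u ≠ 1) : nfix u ≤ 3 := by
  by_contra hlt
  have h4 : 4 ≤ (Finset.univ.filter (fun x => u x = x)).card := by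
    unfold nfix at hlt
    omega
  obtain ⟨s, hs⟩ : ∃ s : Finset α, s = Finset.univ.filter (fun x => u x = x) := ⟨_, rfl⟩
  rw [← hs] at h4
  have hfix : ∀ x ∈ s, u x = x := by
    intro x hx
    rw [hs, Finset.mem_filter] at hx
    exact hx.2
  obtain ⟨a, ha⟩ : s.Nonempty := Finset.card_pos.mp (by omega)
  have h3 : 3 ≤ (s.erase a).card := by
    rw [Finset.card_erase_of_mem ha]
    omega
  obtain ⟨b, hb⟩ : (s.erase a).Nonempty := Finset.card_pos.mp (by omega)
  have h2 : 2 ≤ ((s.erase a).erase b).card := by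
    rw [Finset.card_erase_of_mem hb]
    omega
  obtain ⟨c, hc⟩ : ((s.erase a).erase b).Nonempty := Finset.card_pos.mp (by omega)
  have h1 : 1 ≤ (((s.erase a).erase b).erase c).card := by
    rw [Finset.card_erase_of_mem hc]
    omega
  obtain ⟨d, hd⟩ : (((s.erase a).erase b).erase c).Nonempty := Finset.card_pos.mp (by omega)
  have hba : b ≠ a := (Finset.mem_erase.mp hb).1
  have hbs : b ∈ s := (Finset.mem_erase.mp hb).2
  have hcb : c ≠ b := (Finset.mem_erase.mp hc).1
  have hc' := (Finset.mem_erase.mp hc).2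
  have hca : c ≠ a := (Finset.mem_erase.mp hc').1
  have hcs : c ∈ s := (Finset.mem_erase.mp hc').2
  have hdc : d ≠ c := (Finset.mem_erase.mp hd).1
  have hd' := (Finset.mem_erase.mp hd).2
  have hdb : d ≠ b := (Finset.mem_erase.mp hd').1
  have hd'' := (Finset.mem_erase.mp hd').2
  have hda : d ≠ a := (Finset.mem_erase.mp hd'').1
  have hds : d ∈ s := (Finset.mem_erase.mp hd'').2
  have hD : Dist4 a b c d := ⟨hba.symm, hca.symm, hda.symm, hcb.symm, hdb.symm, hdc.symm⟩
  have hmem : u ∈ stab4 G a b c d := ⟨hu, hfix a ha, hfix b hbs, hfix c hcs, hfix d hds⟩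
  have hcard := H.card a b c d hD
  have hord : orderOf u = 2 := orderOf_eq_prime (by rw [pow_two]; exact hu2) hu1
  have hdvd : orderOf (⟨u, hmem⟩ : stab4 G a b c d) ∣ Nat.card (stab4 G a b c d) := orderOf_dvd_natCard _
  rw [Subgroup.orderOf_mk, hord, hcard] at hdvd
  obtain ⟨k, hk⟩ := H.odd
  omega

end Cfsg.Agent.Helper47.H581A3a
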