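import Mathlib
import Cfsg.Agent.Lead.H581Defs
import Cfsg.Agent.Helper47.H581A3Core
import Cfsg.Agent.Helper47.H581A3a
import Cfsg.Agent.Helper31.H581A3c
import Cfsg.Agent.Helper50.H581A2

/-!
# S4221 (Hall 5.8.1), piece A3: every involution has exactly `f0` fixed points
-/

set_option autoImplicit false

namespace Cfsg.Agent.Helper47.H581A3

open Cfsg.Agent.Lead.H581 Equiv

variable {α : Type*} [Fintype α] [DecidableEq α]

theorem nfix_inv (G : Subgroup (Perm α)) (h : ℕ) (H : Hyp G h) (hn : 6 ≤ Fintype.card α)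
    (u : Perm α) (hu : u ∈ G) (hu2 : u * u = 1) (hu1 : u ≠ 1) : nfix u = f0 α :=
  nfix_inv_of G hn
    (fun a b c d hd t ht => Cfsg.Agent.Helper50.H581A2.exists_V1_mul_eq G h H a b c d hd t ht)
    (fun v hv hv2 hv1 => Cfsg.Agent.Helper47.H581A3a.nfix_le_three G h H v hv hv2 hv1)
    (fun y₁ y₂ h1 h2 hc => Cfsg.Agent.Helper31.H581A3c.four_group_count y₁ y₂ h1 h2 hc)
    u hu hu2 hu1

end Cfsg.Agent.Helper47.H581A3
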