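import Mathlib
import Cfsg.Agent.Lead.H581Defs
import Cfsg.Agent.Helper47.H581A3Core

/-!
# S4221 (Hall 5.8.1), core of piece A4: the number of regular points of a four-group
-/

set_option autoImplicit false

namespace Cfsg.Agent.Helper47.H581A4

open Cfsg.Agent.Lead.H581 Equiv

variable {α : Type*} [Fintype α] [DecidableEq α]

/-- Piece A4 with its dependencies (A3, A3c) as hypotheses. -/
theorem reg_card_of (G : Subgroup (Perm α))
    (hA3 : ∀ u : Perm α, u ∈ G → u * u = 1 → u ≠ 1 → nfix u = f0 α)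
    (h4 : ∀ y₁ y₂ : Perm α, y₁ * y₁ = 1 → y₂ * y₂ = 1 → y₁ * y₂ = y₂ * y₁ →
      ∃ r : ℕ, Fintype.card α + 2 * (Finset.univ.filter (fun x => y₁ x = x ∧ y₂ x = x)).card =
        nfix y₁ + nfix y₂ + nfix (y₁ * y₂) + 4 * r ∧ 4 * r = (regPts y₁ y₂).card)
    (a b c d : α)
    (hd : Dist4 a b c d) (y₁ y₂ : Perm α) (hy₁ : y₁ ∈ G) (hy₂ : y₂ ∈ G) (h1 : y₁ * y₁ = 1) (h2 : y₂ * y₂ = 1)
    (hc : y₁ * y₂ = y₂ * y₁) (e1 : y₁ a = b) (e2 : y₁ c = c) (e3 : y₁ d = d) (e4 : y₂ a = a)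
    (e6 : y₂ c = d) :
    (regPts y₁ y₂).card + (if Even (Fintype.card α) then 6 else 7) = Fintype.card α := by
  obtain ⟨hab, hac, had, hbc, hbd, hcd⟩ := hd
  have hy₁1 : y₁ ≠ 1 := by
    intro h
    rw [h] at e1
    exact hab e1
  have hy₂1 : y₂ ≠ 1 := by
    intro h
    rw [h] at e6
    exact hcd e6
  have h121 : y₁ * y₂ ≠ 1 := by
    intro h
    have := congrArg (fun f : Perm α => f a) h
    simp only [Equiv.Perm.mul_apply, Equiv.Perm.one_apply, e4, e1] at this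
    exact hab this.symm
  have h1212 : (y₁ * y₂) * (y₁ * y₂) = 1 := by
    calc (y₁ * y₂) * (y₁ * y₂) = y₁ * (y₂ * y₁) * y₂ := by group
      _ = y₁ * (y₁ * y₂) * y₂ := by rw [hc]
      _ = (y₁ * y₁) * (y₂ * y₂) := by group
      _ = 1 := by rw [h1, h2, mul_one]
  have hf1 := hA3 y₁ hy₁ h1 hy₁1
  have hf2 := hA3 y₂ hy₂ h2 hy₂1
  have hf3 := hA3 (y₁ * y₂) (G.mul_mem hy₁ hy₂) h1212 h121
  have e7 : y₂ d = c := by
    have := congrArg (fun f : Perm α => f c) h2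
    simp only [Equiv.Perm.mul_apply, Equiv.Perm.one_apply, e6] at this
    exact this
  have hf : f0 α ≤ 3 := by
    unfold f0
    split_ifs <;> omega
  have hF0 := Cfsg.Agent.Helper47.H581A3.common_fix_card y₁ y₂ h2 hc (by omega) c d hcd e2 e3 e6 e7
  obtain ⟨r, hr, hr'⟩ := h4 y₁ y₂ h1 h2 hc
  rw [hf1, hf2, hf3] at hr
  rw [hf1] at hF0
  unfold f0 at hr hF0
  split_ifs at hr hF0 ⊢ <;> omega

end Cfsg.Agent.Helper47.H581A4
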