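import Mathlib
import Cfsg.Agent.Lead.H581Defs
import Cfsg.Agent.Helper47.H581A3
import Cfsg.Agent.Helper47.H581A4Core
import Cfsg.Agent.Helper31.H581A3c

/-!
# S4221 (Hall 5.8.1), piece A4: the number of regular points of a four-group
-/

set_option autoImplicit false

namespace Cfsg.Agent.Helper47.H581A4

open Cfsg.Agent.Lead.H581 Equiv

variable {α : Type*} [Fintype α] [DecidableEq α]

theorem reg_card (G : Subgroup (Perm α)) (h : ℕ) (H : Hyp G h) (hn : 6 ≤ Fintype.card α) (a b c d : α)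
    (hd : Dist4 a b c d) (y₁ y₂ : Perm α) (hy₁ : y₁ ∈ G) (hy₂ : y₂ ∈ G) (h1 : y₁ * y₁ = 1) (h2 : y₂ * y₂ = 1)
    (hc : y₁ * y₂ = y₂ * y₁) (e1 : y₁ a = b) (e2 : y₁ c = c) (e3 : y₁ d = d) (e4 : y₂ a = a) (e5 : y₂ b = b)
    (e6 : y₂ c = d) :
    (regPts y₁ y₂).card + (if Even (Fintype.card α) then 6 else 7) = Fintype.card α :=
  reg_card_of G
    (fun u hu hu2 hu1 => Cfsg.Agent.Helper47.H581A3.nfix_inv G h H hn u hu hu2 hu1)
    (fun z₁ z₂ k1 k2 kc => Cfsg.Agent.Helper31.H581A3c.four_group_count z₁ z₂ k1 k2 kc)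
    a b c d hd y₁ y₂ hy₁ hy₂ h1 h2 hc e1 e2 e3 e4 e6

end Cfsg.Agent.Helper47.H581A4
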