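import Mathlib
import Cfsg.Agent.Lead.H581Defs
import Cfsg.Agent.Helper47.H581A3Core

/-!
# S4221 (Hall 5.8.1), core of piece E3a: degree 11, the centraliser of an involution in a four-point stabiliser

`cent_eleven_of` is the statement with its dependency A3 (`nfix_inv`) as a hypothesis.
-/

set_option autoImplicit false

namespace Cfsg.Agent.Helper47.H581E3a

open Cfsg.Agent.Lead.H581 Equiv

variable {α : Type*} [Fintype α] [DecidableEq α]

theorem odd_pow_fix (w : Perm α) (m : ℕ) (hm : Odd m) (hw : w ^ m = 1) (x : α) (h2 : w (w x) = x) :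
    w x = x := by
  obtain ⟨k, rfl⟩ := hm
  have h3 : ∀ j : ℕ, (w ^ (2 * j)) x = x := by
    intro j
    induction j with
    | zero => simp
    | succ j ih =>
      rw [Nat.mul_succ, pow_add, Equiv.Perm.mul_apply, pow_two, Equiv.Perm.mul_apply, h2, ih]
  have h4 := congrArg (fun f : Perm α => f x) hw
  simp only [Equiv.Perm.one_apply] at h4
  rw [pow_succ', Equiv.Perm.mul_apply, h3 k] at h4
  exact h4

theorem odd_pow_fix4 (w : Perm α) (m : ℕ) (hm : Odd m) (hw : w ^ m = 1) (x : α)
    (h4 : w (w (w (w x))) = x) : w x = x := by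
  have hww : (w * w) ^ m = 1 := by
    rw [← pow_two, ← pow_mul, mul_comm, pow_mul, hw, one_pow]
  have h1 : (w * w) x = x := odd_pow_fix (w * w) m hm hww x (by
    simp only [Equiv.Perm.mul_apply]
    exact h4)
  exact odd_pow_fix w m hm hw x h1

theorem fix4 (w z : Perm α) (hwz : ∀ x, w (z x) = z (w x)) (m : ℕ) (hm : Odd m) (hw : w ^ m = 1)
    (e f p q : α) (hef : z e = f) (hfe : z f = e) (hpq : z p = q) (hqp : z q = p)
    (hmem : ∀ x, x = e ∨ x = f ∨ x = p ∨ x = q → w x = e ∨ w x = f ∨ w x = p ∨ w x = q) :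
    w e = e := by
  have L := odd_pow_fix w m hm hw
  have L4 := odd_pow_fix4 w m hm hw
  have hwf : w f = z (w e) := by rw [← hef, hwz]
  have hwq : w q = z (w p) := by rw [← hpq, hwz]
  have hwp : w p = z (w q) := by rw [← hqp, hwz]
  have case2 : w e = f → w e = e := by
    intro h
    apply L
    rw [h, hwf, h, hfe]
  rcases hmem e (Or.inl rfl) with h | h | h | h
  · exact h
  · exact case2 h
  · rcases hmem p (Or.inr (Or.inr (Or.inl rfl))) with h' | h' | h' | h'
    · apply L
      rw [h, h']
    · apply L4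
      rw [h, h', hwf, h, hpq, hwq, h', hfe]
    · apply w.injective
      rw [h, h']
    · apply case2
      have h5 : w p = w f := by rw [h', hwf, h, hpq]
      rw [h]
      exact w.injective h5
  · rcases hmem q (Or.inr (Or.inr (Or.inr rfl))) with h' | h' | h' | h'
    · apply L
      rw [h, h']
    · apply L4
      rw [h, h', hwf, h, hqp, hwp, h', hfe]
    · apply case2
      have h5 : w q = w f := by rw [h', hwf, h, hqp]
      rw [h]
      exact w.injective h5
    · apply w.injective
      rw [h, h']

/-- Piece E3a with its dependency A3 as a hypothesis. -/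
theorem cent_eleven_of (G : Subgroup (Perm α)) (h : ℕ) (H : Hyp G h)
    (hA3 : ∀ u : Perm α, u ∈ G → u * u = 1 → u ≠ 1 → nfix u = f0 α)
    (hn : Fintype.card α = 11) (a b c d : α)
    (hd : Dist4 a b c d) (z : Perm α) (hz : z ∈ invA G a b c d) :
    Nat.card ↥(stab4 G a b c d ⊓ Subgroup.centralizer ({z} : Set (Perm α))) = 1 ∨
      ∃ g ∈ G, g.IsThreeCycle := by
  obtain ⟨hzG, hz2, hza, hzc⟩ := hz
  have hD := hd
  obtain ⟨hab, hac, had, hbc, hbd, hcd⟩ := hd
  have hzz : ∀ x, z (z x) = x := fun x => by
    have := congrArg (fun f : Perm α => f x) hz2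
    simpa using this
  have hzb : z b = a := by rw [← hza, hzz]
  have hzd : z d = c := by rw [← hzc, hzz]
  have hz1 : z ≠ 1 := by
    intro h1
    rw [h1] at hza
    exact hab hza
  have hnf : nfix z = 3 := by
    rw [hA3 z hzG hz2 hz1]
    unfold f0
    rw [hn]
    decide
  have hsupp : z.support.card = 8 := by
    have := Cfsg.Agent.Helper47.H581A3.nfix_add_support z
    omega
  have habcd : ({a, b, c, d} : Finset α) ⊆ z.support := by
    intro x hx
    simp only [Finset.mem_insert, Finset.mem_singleton] at hx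
    rw [Equiv.Perm.mem_support]
    rcases hx with h1 | h1 | h1 | h1
    · rw [h1, hza]; exact hab.symm
    · rw [h1, hzb]; exact hab
    · rw [h1, hzc]; exact hcd.symm
    · rw [h1, hzd]; exact hcd
  have hcard4 : ({a, b, c, d} : Finset α).card = 4 := by
    rw [Finset.card_insert_of_notMem (by simp [hab, hac, had]),
      Finset.card_insert_of_notMem (by simp [hbc, hbd]),
      Finset.card_insert_of_notMem (by simp [hcd]), Finset.card_singleton]
  obtain ⟨M, hMdef⟩ : ∃ M : Finset α, M = z.support \ {a, b, c, d} := ⟨_, rfl⟩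
  have hMcard : M.card = 4 := by
    rw [hMdef, Finset.card_sdiff_of_subset habcd, hsupp, hcard4]
  have hMmem : ∀ x, x ∈ M ↔ z x ≠ x ∧ x ≠ a ∧ x ≠ b ∧ x ≠ c ∧ x ≠ d := by
    intro x
    rw [hMdef, Finset.mem_sdiff, Equiv.Perm.mem_support]
    simp only [Finset.mem_insert, Finset.mem_singleton, not_or]
  have hzM : ∀ x ∈ M, z x ∈ M := by
    intro x hx
    rw [hMmem] at hx ⊢
    obtain ⟨h0, h1, h2, h3, h4⟩ := hx
    refine ⟨?_, ?_, ?_, ?_, ?_⟩
    · rw [hzz]; exact fun h5 => h0 h5.symm
    · intro h5; apply h2; rw [← hzz x, h5, hza]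
    · intro h5; apply h1; rw [← hzz x, h5, hzb]
    · intro h5; apply h4; rw [← hzz x, h5, hzc]
    · intro h5; apply h3; rw [← hzz x, h5, hzd]
  obtain ⟨e, he⟩ : M.Nonempty := Finset.card_pos.mp (by omega)
  have hze : z e ≠ e := ((hMmem e).mp he).1
  obtain ⟨p, hp⟩ : (M \ {e, z e}).Nonempty := by
    apply Finset.card_pos.mp
    have h1 := Finset.le_card_sdiff ({e, z e} : Finset α) M
    have h2 : ({e, z e} : Finset α).card ≤ 2 := Finset.card_le_two
    omega
  rw [Finset.mem_sdiff, Finset.mem_insert, Finset.mem_singleton, not_or] at hp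
  obtain ⟨hpM, hpe, hpze⟩ := hp
  have hzp : z p ≠ p := ((hMmem p).mp hpM).1
  have hsub : ({e, z e, p, z p} : Finset α) ⊆ M := by
    intro x hx
    simp only [Finset.mem_insert, Finset.mem_singleton] at hx
    rcases hx with h1 | h1 | h1 | h1
    · rw [h1]; exact he
    · rw [h1]; exact hzM e he
    · rw [h1]; exact hpM
    · rw [h1]; exact hzM p hpM
  have hcard4' : ({e, z e, p, z p} : Finset α).card = 4 := by
    have h1 : e ≠ z e := fun h5 => hze h5.symm
    have h2 : e ≠ p := fun h5 => hpe h5.symm
    have h3 : e ≠ z p := by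
      intro h5
      apply hpze
      rw [h5, hzz]
    have h4 : z e ≠ p := fun h5 => hpze h5.symm
    have h5 : z e ≠ z p := fun h6 => hpe (z.injective h6).symm
    have h6 : p ≠ z p := fun h7 => hzp h7.symm
    rw [Finset.card_insert_of_notMem (by simp [h1, h2, h3]),
      Finset.card_insert_of_notMem (by simp [h4, h5]),
      Finset.card_insert_of_notMem (by simp [h6]), Finset.card_singleton]
  have hMeq : ({e, z e, p, z p} : Finset α) = M :=
    Finset.eq_of_subset_of_card_le hsub (by rw [hMcard, hcard4'])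
  have hM4 : ∀ x, x ∈ M ↔ x = e ∨ x = z e ∨ x = p ∨ x = z p := by
    intro x
    rw [← hMeq]
    simp only [Finset.mem_insert, Finset.mem_singleton]
  -- every element of the centraliser fixes the support of `z` pointwise
  have hkey : ∀ w ∈ stab4 G a b c d ⊓ Subgroup.centralizer ({z} : Set (Perm α)),
      w ≠ 1 → w.IsThreeCycle := by
    intro w hw hw1
    obtain ⟨hws, hwc⟩ := hw
    obtain ⟨hwG, hwa, hwb, hwc', hwd⟩ := hws
    have hcomm : z * w = w * z := (Subgroup.mem_centralizer_iff.mp hwc) z (Set.mem_singleton z)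
    have hwz : ∀ x, w (z x) = z (w x) := fun x => by
      have := congrArg (fun f : Perm α => f x) hcomm
      simpa using this.symm
    have hwh : w ^ h = 1 := by
      have h1 : (⟨w, ⟨hwG, hwa, hwb, hwc', hwd⟩⟩ : stab4 G a b c d) ^ Nat.card (stab4 G a b c d) = 1 :=
        pow_card_eq_one'
      rw [H.card a b c d hD] at h1
      exact congrArg Subtype.val h1
    have hwM : ∀ x ∈ M, w x ∈ M := by
      intro x hx
      rw [hMmem] at hx ⊢
      obtain ⟨h0, h1, h2, h3, h4⟩ := hx
      refine ⟨?_, ?_, ?_, ?_, ?_⟩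
      · rw [← hwz]
        exact fun h5 => h0 (w.injective h5)
      · intro h5; apply h1; apply w.injective; rw [h5, hwa]
      · intro h5; apply h2; apply w.injective; rw [h5, hwb]
      · intro h5; apply h3; apply w.injective; rw [h5, hwc']
      · intro h5; apply h4; apply w.injective; rw [h5, hwd]
    have hwe : w e = e := by
      apply fix4 w z hwz h H.odd hwh e (z e) p (z p) rfl (hzz e) rfl (hzz p)
      intro x hx
      exact (hM4 (w x)).mp (hwM x ((hM4 x).mpr hx))
    have hwp : w p = p := by
      apply fix4 w z hwz h H.odd hwh p (z p) e (z e) rfl (hzz p) rfl (hzz e)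
      intro x hx
      have hx' : x = e ∨ x = z e ∨ x = p ∨ x = z p := by
        rcases hx with h1 | h1 | h1 | h1
        · exact Or.inr (Or.inr (Or.inl h1))
        · exact Or.inr (Or.inr (Or.inr h1))
        · exact Or.inl h1
        · exact Or.inr (Or.inl h1)
      rcases (hM4 (w x)).mp (hwM x ((hM4 x).mpr hx')) with h1 | h1 | h1 | h1
      · exact Or.inr (Or.inr (Or.inl h1))
      · exact Or.inr (Or.inr (Or.inr h1))
      · exact Or.inl h1
      · exact Or.inr (Or.inl h1)
    have hfix : ∀ x, z x ≠ x → w x = x := by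
      intro x hx
      by_cases hxa : x = a
      · rw [hxa]; exact hwa
      by_cases hxb : x = b
      · rw [hxb]; exact hwb
      by_cases hxc : x = c
      · rw [hxc]; exact hwc'
      by_cases hxd : x = d
      · rw [hxd]; exact hwd
      have hxM : x ∈ M := (hMmem x).mpr ⟨hx, hxa, hxb, hxc, hxd⟩
      rcases (hM4 x).mp hxM with h1 | h1 | h1 | h1
      · rw [h1]; exact hwe
      · rw [h1, hwz, hwe]
      · rw [h1]; exact hwp
      · rw [h1, hwz, hwp]
    have hle : w.support.card ≤ 3 := by
      have hsub' : w.support ⊆ Finset.univ.filter (fun x => z x = x) := by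
        intro x hx
        rw [Equiv.Perm.mem_support] at hx
        rw [Finset.mem_filter]
        refine ⟨Finset.mem_univ _, ?_⟩
        by_contra h1
        exact hx (hfix x h1)
      have := Finset.card_le_card hsub'
      unfold nfix at hnf
      omega
    have h0 : w.support.card ≠ 0 := by
      intro h1
      exact hw1 (Equiv.Perm.card_support_eq_zero.mp h1)
    have h1 : w.support.card ≠ 1 := Equiv.Perm.card_support_ne_one w
    have h2 : w.support.card ≠ 2 := by
      intro h3
      have hsw : w.IsSwap := Equiv.Perm.card_support_eq_two.mp h3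
      obtain ⟨x, y, hxy, rfl⟩ := hsw
      have h4 : ∀ t : α, (swap x y) ((swap x y) t) = t := fun t => Equiv.swap_apply_self x y t
      have h5 := odd_pow_fix (swap x y) h H.odd hwh x (h4 x)
      rw [Equiv.swap_apply_left] at h5
      exact hxy h5.symm
    exact card_support_eq_three_iff.mp (by omega)
  by_cases hall : ∀ w ∈ stab4 G a b c d ⊓ Subgroup.centralizer ({z} : Set (Perm α)), w = 1
  · left
    have hbot : stab4 G a b c d ⊓ Subgroup.centralizer ({z} : Set (Perm α)) = ⊥ :=
      (Subgroup.eq_bot_iff_forall _).mpr hall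
    rw [hbot]
    exact Subgroup.card_bot
  · right
    rw [not_forall] at hall
    obtain ⟨w, hw⟩ := hall
    rw [Classical.not_imp] at hw
    exact ⟨w, hw.1.1.1, hkey w hw.1 hw.2⟩

end Cfsg.Agent.Helper47.H581E3a
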