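import Mathlib
import Cfsg.Agent.Lead.H581Defs
import Cfsg.Agent.Helper47.H581A3
import Cfsg.Agent.Helper47.H581E3aCore

/-!
# S4221 (Hall 5.8.1), piece E3a: degree 11, the centraliser of an involution in a four-point stabiliser
-/

set_option autoImplicit false

namespace Cfsg.Agent.Helper47.H581E3a

open Cfsg.Agent.Lead.H581 Equiv

variable {α : Type*} [Fintype α] [DecidableEq α]

theorem cent_eleven (G : Subgroup (Perm α)) (h : ℕ) (H : Hyp G h) (hn : Fintype.card α = 11) (a b c d : α)
    (hd : Dist4 a b c d) (z : Perm α) (hz : z ∈ invA G a b c d) :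
    Nat.card ↥(stab4 G a b c d ⊓ Subgroup.centralizer ({z} : Set (Perm α))) = 1 ∨ ∃ g ∈ G, g.IsThreeCycle :=
  cent_eleven_of G h H
    (fun u hu hu2 hu1 => Cfsg.Agent.Helper47.H581A3.nfix_inv G h H (by omega) u hu hu2 hu1)
    hn a b c d hd z hz

end Cfsg.Agent.Helper47.H581E3a
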