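import Mathlib
import Cfsg.Agent.Helper90.HTDefs
import Cfsg.Agent.Helper47.HTFld

/-!
# CALL S5953, piece ROOT (helper47)

A scalar of norm one is an `r`-th power of a scalar of norm one, or it is not an `r`-th power at
all (and then `r ∣ q + 1` and its order has the full `r`-part of `q + 1`).
-/

set_option autoImplicit false

namespace Cfsg.Agent.Helper47.HT5953

open Module Polynomial Cfsg.Agent.Helper90.HT

section field

variable {F : Type*} [Field F] [Fintype F] (q : ℕ) (hq : Fintype.card F = q ^ 2) (σ : F →+* F)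
  (hσ : ∀ a, σ a = a ^ q)

include hq hσ

/-- ROOT: a scalar of norm one is an `r`-th power of a scalar of norm one, or `X^r - z` is
irreducible (and then `r ∣ q + 1` and the order of `z` has the full `r`-part of `q + 1`). -/
theorem ht_root_or_irr (r : ℕ) [Fact r.Prime] (hr2 : 2 < r) (z : F) (hz : z * σ z = 1) :
    (∃ w : F, w * σ w = 1 ∧ w ^ r = z) ∨
    (r ∣ q + 1 ∧ (∀ b : F, b ^ r ≠ z) ∧ ∀ s : ℕ, z ^ s = 1 → r ^ padicValNat r (q + 1) ∣ s) := by
  have hr : r.Prime := Fact.out
  have hq2 := Cfsg.Agent.Helper47.HTF.two_le_q q hq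
  obtain ⟨g, hg, hgen⟩ := Cfsg.Agent.Helper47.HTF.exists_gen q hq
  rw [Cfsg.Agent.Helper47.HTF.norm_eq q σ hσ] at hz
  have hz0 : z ≠ 0 := by
    rintro rfl
    rw [zero_pow (by omega)] at hz
    exact zero_ne_one hz
  obtain ⟨k, hk⟩ := hgen z hz0
  have hk1 : (q - 1) ∣ k := by
    have h1 : g ^ (k * (q + 1)) = 1 := by
      apply Units.ext
      rw [pow_mul, Units.val_pow_eq_pow_val, hk, hz]; rfl
    have h2 := orderOf_dvd_of_pow_eq_one h1
    rw [hg] at h2
    exact Nat.dvd_of_mul_dvd_mul_right (by omega) h2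
  obtain ⟨k', rfl⟩ := hk1
  by_cases hcase : r ∣ q + 1 ∧ ¬ r ∣ k'
  · right
    obtain ⟨hrq, hrk⟩ := hcase
    have hrq1 : ¬ r ∣ q - 1 := by
      intro hd
      have h1 : r ∣ (q + 1) - (q - 1) := Nat.dvd_sub hrq hd
      have h2 : (q + 1) - (q - 1) = 2 := by omega
      rw [h2] at h1
      have := Nat.le_of_dvd (by norm_num) h1
      omega
    refine ⟨hrq, ?_, ?_⟩
    · intro b hb
      have hb0 : b ≠ 0 := by
        rintro rfl
        rw [zero_pow hr.ne_zero] at hb
        exact hz0 hb.symm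
      obtain ⟨l, hl⟩ := hgen b hb0
      have h1 : g ^ (l * r) = g ^ ((q - 1) * k') := by
        apply Units.ext
        rw [pow_mul, Units.val_pow_eq_pow_val, hl, hb, hk]
      rw [pow_eq_pow_iff_modEq, hg] at h1
      have hrN : r ∣ (q - 1) * (q + 1) := Dvd.dvd.mul_left hrq _
      have h2 : r ∣ (q - 1) * k' := (h1.dvd_iff hrN).1 (Dvd.intro_left l rfl)
      rcases (Nat.Prime.dvd_mul hr).1 h2 with h3 | h3
      · exact hrq1 h3
      · exact hrk h3
    · intro s hs
      have h1 : g ^ ((q - 1) * k' * s) = 1 := by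
        apply Units.ext
        rw [pow_mul, Units.val_pow_eq_pow_val, hk, hs]; rfl
      have h2 := orderOf_dvd_of_pow_eq_one h1
      rw [hg] at h2
      have h3 : (q + 1) ∣ k' * s := by
        rw [mul_assoc] at h2
        exact Nat.dvd_of_mul_dvd_mul_left (by omega) h2
      have h4 : r ^ padicValNat r (q + 1) ∣ k' * s := dvd_trans pow_padicValNat_dvd h3
      have hcop : Nat.Coprime (r ^ padicValNat r (q + 1)) k' :=
        Nat.Coprime.pow_left _ ((Nat.Prime.coprime_iff_not_dvd hr).2 hrk)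
      exact hcop.dvd_of_dvd_mul_left h4
  · left
    by_cases hrq : r ∣ q + 1
    · have hrk : r ∣ k' := by
        by_contra h
        exact hcase ⟨hrq, h⟩
      obtain ⟨k'', rfl⟩ := hrk
      refine ⟨((g ^ ((q - 1) * k'') : Fˣ) : F), ?_, ?_⟩
      · rw [Cfsg.Agent.Helper47.HTF.norm_eq q σ hσ, ← Units.val_pow_eq_pow_val, ← pow_mul]
        have h1 : (q - 1) * k'' * (q + 1) = ((q - 1) * (q + 1)) * k'' := by ring
        rw [h1, pow_mul, ← hg, pow_orderOf_eq_one, one_pow]; rfl
      · rw [← Units.val_pow_eq_pow_val, ← pow_mul, ← hk]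
        have h1 : (q - 1) * k'' * r = (q - 1) * (r * k'') := by ring
        rw [h1]
    · have hcop : Nat.Coprime r (q + 1) := (Nat.Prime.coprime_iff_not_dvd hr).2 hrq
      obtain ⟨j, _, hj⟩ := Nat.exists_mul_mod_eq_one_of_coprime hcop (by omega : 1 < q + 1)
      refine ⟨z ^ j, ?_, ?_⟩
      · rw [Cfsg.Agent.Helper47.HTF.norm_eq q σ hσ, ← pow_mul, mul_comm, pow_mul, hz, one_pow]
      · rw [← pow_mul, mul_comm j r]
        have h1 : r * j = (q + 1) * (r * j / (q + 1)) + 1 := by
          have := Nat.div_add_mod (r * j) (q + 1)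
          rw [hj] at this
          exact this.symm
        rw [h1, pow_succ, pow_mul, hz, one_pow, one_mul]

end field

end Cfsg.Agent.Helper47.HT5953
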