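import Mathlib
import Cfsg.Agent.Helper64.LW2Defs
import Cfsg.Agent.Helper58.LWG1b

/-!
helper47: piece C1 of CALL S0745 (helper64, Livingstone-Wagner): the order of an m-transitive group.
-/

set_option autoImplicit false

namespace Cfsg.Agent.Helper47.LW2C1

open Cfsg.Agent.Lead.LW Cfsg.Agent.Helper64.LW2

variable {α : Type*} [Fintype α] [DecidableEq α]

-- PIECE C1
theorem card_eq_descFactorial (G : Subgroup (Equiv.Perm α)) (m : ℕ) (hT : KTrans G m)
    (Γ : Finset α) (hΓ : Γ.card = m) :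
    Nat.card G = (Fintype.card α).descFactorial m * Nat.card (pstab G Γ) := by
  have hpre : MulAction.IsMultiplyPretransitive (↥G) α m :=
    Cfsg.Agent.Helper58.LWG1b.pretransitive_of_ktrans G m hT
  let e : ↥Γ ≃ Fin m := Γ.equivFinOfCardEq hΓ
  let x : Fin m ↪ α := ⟨fun i => (e.symm i : α), fun i j hij => e.symm.injective (Subtype.ext hij)⟩
  have hx : ∀ i, x i = (e.symm i : α) := fun _ => rfl
  have h1 := @MulAction.index_stabilizer_of_transitive (↥G) (Fin m ↪ α) _ _ x hpre
  have h2 : Nat.card (Fin m ↪ α) = (Fintype.card α).descFactorial m := by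
    rw [Nat.card_eq_fintype_card, Fintype.card_embedding_eq, Fintype.card_fin]
  have h3 := Subgroup.card_mul_index (MulAction.stabilizer (↥G) x)
  rw [h1, h2] at h3
  have h4 : Nat.card (MulAction.stabilizer (↥G) x) = Nat.card (pstab G Γ) := by
    apply Nat.card_congr
    refine ⟨fun g => ⟨g.1.1, mem_pstab.mpr ⟨g.1.2, fun a ha => ?_⟩⟩,
      fun h => ⟨⟨h.1, (mem_pstab.mp h.2).1⟩, ?_⟩, ?_, ?_⟩
    · have hg := MulAction.mem_stabilizer_iff.mp g.2
      have h5 : g.1.1 (x (e ⟨a, ha⟩)) = x (e ⟨a, ha⟩) :=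
        congrArg (fun y : Fin m ↪ α => y (e ⟨a, ha⟩)) hg
      have h6 : x (e ⟨a, ha⟩) = a := by rw [hx, Equiv.symm_apply_apply]
      rw [h6] at h5
      exact h5
    · rw [MulAction.mem_stabilizer_iff]
      ext i
      exact (mem_pstab.mp h.2).2 (x i) (by rw [hx]; exact (e.symm i).2)
    · intro g
      rfl
    · intro h
      rfl
  rw [← h3, h4, mul_comm]

end Cfsg.Agent.Helper47.LW2C1
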