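import Mathlib
import Cfsg.Agent.Helper64.LW2Defs
import Cfsg.Agent.Helper58.LWG1a
import Cfsg.Agent.S0744
import Cfsg.Agent.Helper47.LW2H2

/-!
helper47: piece H3 of CALL S0745 (helper64, Livingstone-Wagner): trivial pointwise stabilisers of (m+1)-sets.
-/

set_option autoImplicit false

namespace Cfsg.Agent.Helper47.LW2H3

open Cfsg.Agent.Lead.LW Cfsg.Agent.Helper64.LW2

variable {α : Type*} [Fintype α] [DecidableEq α]

theorem card_fixing_eq (G : Subgroup (Equiv.Perm α)) (s : Finset α) :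
    Nat.card (fixingSubgroup ↥G (s : Set α)) = Nat.card (pstab G s) := by
  apply Nat.card_congr
  refine ⟨fun g => ⟨g.1.1, mem_pstab.mpr ⟨g.1.2, fun a ha => ?_⟩⟩,
    fun h => ⟨⟨h.1, (mem_pstab.mp h.2).1⟩, ?_⟩, ?_, ?_⟩
  · have h1 := (mem_fixingSubgroup_iff ↥G).mp g.2 a (Finset.mem_coe.mpr ha)
    exact h1
  · rw [mem_fixingSubgroup_iff]
    intro a ha
    exact (mem_pstab.mp h.2).2 a (Finset.mem_coe.mp ha)
  · intro g
    rfl
  · intro h
    rfl

-- PIECE H3  (S0744 + G1a + H2)
theorem pstab_eq_bot_of_not_ktrans (G : Subgroup (Equiv.Perm α)) (m : ℕ)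
    (hmn : m + 2 ≤ Fintype.card α) (hnT : ¬ KTrans G (m + 1)) (hH1 : Homog G (m + 1))
    (hH2 : Homog G (m + 2)) (A : Finset α) (hA : A.card = m + 1) : pstab G A = ⊥ := by
  by_contra hne
  have hl : 1 < Nat.card (pstab G A) := by
    rcases Nat.lt_or_ge 1 (Nat.card (pstab G A)) with h | h
    · exact h
    · exfalso
      apply hne
      apply Subgroup.eq_bot_of_card_eq
      have : 0 < Nat.card (pstab G A) := Nat.card_pos
      omega
  obtain ⟨B, -, hB⟩ := Finset.exists_subset_card_eq (s := (Finset.univ : Finset α))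
    (n := m + 2) (by rw [Finset.card_univ]; exact hmn)
  have h744 := Cfsg.Agent.S0744.result G (k := m + 2) (by omega) hmn (Nat.card (pstab G A))
    (Nat.card (pstab G B)) hl
    (fun s hs => by
      rw [card_fixing_eq]
      exact Cfsg.Agent.Helper47.LW2H2.card_pstab_of_homog G (m + 1) hH1 s A (by omega) hA)
    (fun s hs => by
      rw [card_fixing_eq]
      exact Cfsg.Agent.Helper47.LW2H2.card_pstab_of_homog G (m + 2) hH2 s B hs hB)
  have h1 : m + 2 - 1 = m + 1 := rfl
  rw [h1] at h744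
  exact hnT (Cfsg.Agent.Helper58.LWG1a.ktrans_of_pretransitive G (m + 1) h744)

end Cfsg.Agent.Helper47.LW2H3
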