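import Mathlib
import Cfsg.Agent.Helper64.LW2Defs
import Cfsg.Agent.Helper58.LWG1b
import Cfsg.Agent.Helper58.LWT1
import Cfsg.Agent.S0680

/-!
helper47: piece X2 of CALL S0745 (helper64, Livingstone-Wagner): no sharply 3-transitive group of degree 7.
-/

set_option autoImplicit false

namespace Cfsg.Agent.Helper47.LW2X2

open Cfsg.Agent.Lead.LW Cfsg.Agent.Helper64.LW2

variable {α : Type*} [Fintype α] [DecidableEq α]

-- PIECE X2  (no sharply 3-transitive group of degree 7; S0680 + lead's T1)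
theorem no_sharp3_seven (G : Subgroup (Equiv.Perm α)) (hn : Fintype.card α = 7)
    (hT : KTrans G 3) (hsharp : ∀ Γ : Finset α, Γ.card = 3 → pstab G Γ = ⊥) : False := by
  have hne : Nonempty α := by
    rw [← Fintype.card_pos_iff, hn]
    norm_num
  obtain ⟨x⟩ := hne
  have hK2 : KTrans (induced (pstab G {x}) ({x} : Finset α)ᶜ) 2 :=
    Cfsg.Agent.Helper58.LWT1.ktrans_induced_compl G 3 hT {x} 2 (by rw [Finset.card_singleton])
  have hcard : Fintype.card ↥(({x} : Finset α)ᶜ) = 6 := by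
    rw [Fintype.card_coe, Finset.card_compl, hn, Finset.card_singleton]
  have hpre : MulAction.IsMultiplyPretransitive (↥(induced (pstab G {x}) ({x} : Finset α)ᶜ))
      ↥(({x} : Finset α)ᶜ) 2 :=
    Cfsg.Agent.Helper58.LWG1b.pretransitive_of_ktrans _ 2 hK2
  have hst : ∀ y : Fin 2 ↪ ↥(({x} : Finset α)ᶜ),
      MulAction.stabilizer (↥(induced (pstab G {x}) ({x} : Finset α)ᶜ)) y = ⊥ := by
    intro y
    rw [Subgroup.eq_bot_iff_forall]
    rintro ⟨σ, hσ⟩ hσy
    obtain ⟨g, hg, hgσ⟩ := mem_induced.mp hσ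
    rw [MulAction.mem_stabilizer_iff] at hσy
    have hy : ∀ i, σ (y i) = y i := by
      intro i
      exact congrArg (fun z : Fin 2 ↪ ↥(({x} : Finset α)ᶜ) => z i) hσy
    have hy0 : ((y 0 : ↥(({x} : Finset α)ᶜ)) : α) ≠ x := by
      have := (y 0).2
      rw [Finset.mem_compl, Finset.mem_singleton] at this
      exact this
    have hy1 : ((y 1 : ↥(({x} : Finset α)ᶜ)) : α) ≠ x := by
      have := (y 1).2
      rw [Finset.mem_compl, Finset.mem_singleton] at this
      exact this
    have hy01 : ((y 0 : ↥(({x} : Finset α)ᶜ)) : α) ≠ (y 1 : ↥(({x} : Finset α)ᶜ)) := by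
      intro h
      have := y.injective (Subtype.ext h)
      exact absurd this (by decide)
    have hg3 : g ∈ pstab G {x, ((y 0 : ↥(({x} : Finset α)ᶜ)) : α),
        ((y 1 : ↥(({x} : Finset α)ᶜ)) : α)} := by
      rw [mem_pstab]
      refine ⟨(mem_pstab.mp hg).1, fun a ha => ?_⟩
      rw [Finset.mem_insert, Finset.mem_insert, Finset.mem_singleton] at ha
      rcases ha with rfl | rfl | rfl
      · exact (mem_pstab.mp hg).2 a (Finset.mem_singleton_self a)
      · rw [hgσ (y 0), hy 0]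
      · rw [hgσ (y 1), hy 1]
    rw [hsharp _ (by
      rw [Finset.card_insert_of_notMem, Finset.card_insert_of_notMem, Finset.card_singleton]
      · rw [Finset.mem_singleton]; exact hy01
      · rw [Finset.mem_insert, Finset.mem_singleton]
        push Not
        exact ⟨hy0.symm, hy1.symm⟩), Subgroup.mem_bot] at hg3
    apply Subtype.ext
    apply Equiv.ext
    intro z
    apply Subtype.ext
    rw [← hgσ z, hg3]
    rfl
  obtain ⟨p, j, hp, hj, hpj, -⟩ := Cfsg.Agent.S0680.result
    (induced (pstab G {x}) ({x} : Finset α)ᶜ) hst (by rw [hcard]; norm_num)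
  rw [hcard] at hpj
  have h2 : 2 ∣ p := Nat.Prime.dvd_of_dvd_pow Nat.prime_two (hpj ▸ (by norm_num : 2 ∣ 6))
  have h3 : 3 ∣ p := Nat.Prime.dvd_of_dvd_pow Nat.prime_three (hpj ▸ (by norm_num : 3 ∣ 6))
  have e2 := (Nat.prime_dvd_prime_iff_eq Nat.prime_two hp).mp h2
  have e3 := (Nat.prime_dvd_prime_iff_eq Nat.prime_three hp).mp h3
  omega

end Cfsg.Agent.Helper47.LW2X2
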