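import Cfsg.Agent.Helper64.MRDefs

/-!
# CALL MR (helper64), piece LAT (helper47, double): solutions of the torus equations from a
lattice certificate.
-/

set_option autoImplicit false

namespace Cfsg.Agent.Helper47.MRLAT

open Cfsg Cfsg.Lie Cfsg.Agent.Helper36 Cfsg.Agent.Helper64.UC Cfsg.Agent.Helper64.MR

theorem lat_aux47 {G : Type*} [CommGroup G] (n : ℕ) (A : ℕ → ℕ → ℤ) (B : ℕ → ℤ) (t : ℕ → G)
    (h : ∀ j < n, ∏ i ∈ Finset.range n, t i ^ A i j = 1) :
    ∏ i ∈ Finset.range n, t i ^ (∑ j ∈ Finset.range n, A i j * B j) = 1 := by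
  have h2 : ∀ i ∈ Finset.range n, t i ^ (∑ j ∈ Finset.range n, A i j * B j) =
      ∏ j ∈ Finset.range n, (t i ^ A i j) ^ B j := by
    intro i _
    rw [Cfsg.Agent.Helper36.zpow_range_sum]
    apply Finset.prod_congr rfl
    intro j _
    rw [zpow_mul]
  rw [Finset.prod_congr rfl h2, Finset.prod_comm]
  apply Finset.prod_eq_one
  intro j hj
  rw [Finset.prod_zpow, h j (Finset.mem_range.mp hj), one_zpow]

theorem lat_solve {G : Type*} [CommGroup G] {D : ChevalleyDatum} {m i₀ : ℕ} {c : ℕ → ℤ}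
    (L : LatCert D m i₀ c) (t : ℕ → G)
    (h : ∀ j < D.rank,
      ∏ i ∈ Finset.range D.rank, t i ^ D.pairing (D.simple i) (D.simple j) = 1) :
    (∀ k < D.rank, t k = t i₀ ^ c k) ∧ t i₀ ^ m = 1 := by
  obtain ⟨M, hM⟩ := L.mat
  obtain ⟨v, hv⟩ := L.vec
  have hi₀ := L.hi₀
  constructor
  · intro k hk
    have h1 := lat_aux47 D.rank (fun i j => D.pairing (D.simple i) (D.simple j))
      (fun j => M j k) t h
    have h4 : ∀ i ∈ Finset.range D.rank,
        t i ^ (∑ j ∈ Finset.range D.rank, D.pairing (D.simple i) (D.simple j) * M j k) =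
          (if i = k then t i else 1) * (if i = i₀ then (t i ^ c k)⁻¹ else 1) := by
      intro i hi
      rw [← Cfsg.Agent.Helper36.list_sum_range_eq, hM i (Finset.mem_range.mp hi) k hk, zpow_sub]
      split_ifs <;> simp
    rw [Finset.prod_congr rfl h4, Finset.prod_mul_distrib, Finset.prod_ite_eq',
      Finset.prod_ite_eq', if_pos (Finset.mem_range.mpr hk),
      if_pos (Finset.mem_range.mpr hi₀)] at h1
    exact mul_inv_eq_one.mp h1
  · have h1 := lat_aux47 D.rank (fun i j => D.pairing (D.simple i) (D.simple j)) v t h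
    have h4 : ∀ i ∈ Finset.range D.rank,
        t i ^ (∑ j ∈ Finset.range D.rank, D.pairing (D.simple i) (D.simple j) * v j) =
          if i = i₀ then t i ^ m else 1 := by
      intro i hi
      rw [← Cfsg.Agent.Helper36.list_sum_range_eq, hv i (Finset.mem_range.mp hi)]
      by_cases hi0 : i = i₀
      · rw [if_pos hi0, if_pos hi0, zpow_natCast]
      · rw [if_neg hi0, if_neg hi0, zpow_zero]
    rw [Finset.prod_congr rfl h4, Finset.prod_ite_eq', if_pos (Finset.mem_range.mpr hi₀)] at h1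
    exact h1

end Cfsg.Agent.Helper47.MRLAT
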