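import Cfsg.Agent.Helper64.MRDefs
import Cfsg.Agent.Helper64.MRData7

/-! CALL MR (helper64), table piece LC7 (helper47, double): the lattice certificate for `E7`. -/

set_option autoImplicit false

namespace Cfsg.Agent.Helper47.MRLC7

open Cfsg Cfsg.Lie Cfsg.Agent.Helper64.MR

/-- PIECE LC7 (witnesses: `latME7`, `latVE7`). -/
theorem lat_E7 : LatCert chevE7 2 6 cE7 where
  hi₀ := by decide
  hc := by decide
  mat := ⟨latME7, by decide +kernel⟩
  vec := ⟨latVE7, by decide +kernel⟩
  root := by decide +kernel

end Cfsg.Agent.Helper47.MRLC7
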