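import Mathlib
import Cfsg.Prelude.Def_GeometricClasses
import Cfsg.Prelude.Def_Classical
import Cfsg.Agent.Helper58.TSDefs
import Cfsg.Agent.Helper65.TSOBDefs
import Cfsg.Agent.Helper98.OPar
import Cfsg.Agent.Helper43.OTDefs
import Cfsg.Agent.Helper34.HTHFIX
import Cfsg.Agent.Helper47.HTHTIB

set_option autoImplicit false

/-!
# Sub-CALL OB (helper65) of CALL TS, piece CD (helper47).
-/

namespace Cfsg.Agent.Helper47.OB

open Module Cfsg Cfsg.Geo Cfsg.Agent.Helper58.TS Cfsg.Agent.Helper65.TSOB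

section geo

variable {ι : Type} [Fintype ι] [DecidableEq ι] {F : Type*} [Field F] [Fintype F]

/-- CD: a totally singular subspace of `range (T - 1)` has at most half its dimension. -/
theorem ob_cd (Q : (ι → F) → F) (hQ : IsNondegenerateQuadraticForm Q)
    (T : Module.End F (ι → F)) (hT : ∀ v, Q (T v) = Q v) (r : ℕ) (hrF : (r : F) ≠ 0)
    (hTr : T ^ r = 1) (W : Submodule F (ι → F)) (hW0 : ∀ w ∈ W, Q w = 0)
    (hW : W ≤ LinearMap.range (T - 1)) :
    2 * finrank F W ≤ finrank F (LinearMap.range (T - 1)) := by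
  have hh := Cfsg.Agent.Helper43.OT.isHerm_ph (Cfsg.Agent.Helper98.op_qf Q hQ)
  have hnd : ∀ v, (∀ w, Cfsg.Agent.Helper43.OT.ph (Cfsg.Agent.Helper98.op_qf Q hQ) v w = 0) →
      v = 0 := fun v hv => (Cfsg.Agent.Helper98.op_qf_nondeg Q hQ).1 v hv
  have hpres := Cfsg.Agent.Helper43.OT.hpres_ph (Cfsg.Agent.Helper98.op_qf Q hQ) T hT
  have hfix := Cfsg.Agent.Helper34.HT5953.ht_fix (RingHom.id F)
    (Cfsg.Agent.Helper43.OT.ph (Cfsg.Agent.Helper98.op_qf Q hQ)) hh hnd T hpres r hrF hTr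
  have hTI : Cfsg.Agent.Helper90.HT.HTI
      (Cfsg.Agent.Helper43.OT.ph (Cfsg.Agent.Helper98.op_qf Q hQ)) W := by
    intro u hu v hv
    show QuadraticMap.polar Q u v = 0
    rw [QuadraticMap.polar, hW0 _ (W.add_mem hu hv), hW0 u hu, hW0 v hv]
    simp
  exact Cfsg.Agent.Helper47.HT5953.ht_bound (RingHom.id F)
    (Cfsg.Agent.Helper43.OT.ph (Cfsg.Agent.Helper98.op_qf Q hQ)) hh _ W hfix.2.2.2.2.2 hW hTI

end geo

end Cfsg.Agent.Helper47.OB
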