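import Mathlib
import Cfsg.Agent.Helper43.OTDefs

set_option autoImplicit false

namespace Cfsg.Agent.Helper47.OT5972

open Module Polynomial Cfsg.Agent.Helper90.HT Cfsg.Agent.Helper43.OT

universe u

section cntaux

variable {F : Type*} [Field F] {d : ℕ}

theorem cnta_padd (x y z : Unit ⊕ (Fin d ⊕ Fin d) → F) :
    QuadraticMap.polar (Cfsg.quadFormOdd d F) x (y + z) =
      QuadraticMap.polar (Cfsg.quadFormOdd d F) x y +
        QuadraticMap.polar (Cfsg.quadFormOdd d F) x z :=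
  QuadraticMap.polar_add_right (Cfsg.Agent.Helper43.oddQF d F) x y z

theorem cnta_psmul (c : F) (x y : Unit ⊕ (Fin d ⊕ Fin d) → F) :
    QuadraticMap.polar (Cfsg.quadFormOdd d F) x (c • y) =
      c * QuadraticMap.polar (Cfsg.quadFormOdd d F) x y := by
  have h := QuadraticMap.polar_smul_right (Cfsg.Agent.Helper43.oddQF d F) c x y
  rw [smul_eq_mul] at h
  exact h

theorem cnta_pzero (x : Unit ⊕ (Fin d ⊕ Fin d) → F) :
    QuadraticMap.polar (Cfsg.quadFormOdd d F) x 0 = 0 :=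
  QuadraticMap.polar_zero_right (Cfsg.Agent.Helper43.oddQF d F) x

theorem cnta_pself (x : Unit ⊕ (Fin d ⊕ Fin d) → F) :
    QuadraticMap.polar (Cfsg.quadFormOdd d F) x x = 2 * Cfsg.quadFormOdd d F x :=
  ph_self (Cfsg.Agent.Helper43.oddQF d F) x

theorem cnta_qadd (x y : Unit ⊕ (Fin d ⊕ Fin d) → F) :
    Cfsg.quadFormOdd d F (x + y) = Cfsg.quadFormOdd d F x + Cfsg.quadFormOdd d F y +
      QuadraticMap.polar (Cfsg.quadFormOdd d F) x y := by
  unfold QuadraticMap.polar
  ring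

theorem cnta_qsmul (c : F) (x : Unit ⊕ (Fin d ⊕ Fin d) → F) :
    Cfsg.quadFormOdd d F (c • x) = c * c * Cfsg.quadFormOdd d F x := by
  have h := QuadraticMap.map_smul (Cfsg.Agent.Helper43.oddQF d F) c x
  rw [smul_eq_mul] at h
  exact h

theorem cnta_qzero : Cfsg.quadFormOdd d F (0 : Unit ⊕ (Fin d ⊕ Fin d) → F) = 0 :=
  map_zero (Cfsg.Agent.Helper43.oddQF d F)

theorem cnta_span_perp {m : ℕ} (v : Fin m → (Unit ⊕ (Fin d ⊕ Fin d) → F))
    (hp : ∀ a b, QuadraticMap.polar (Cfsg.quadFormOdd d F) (v a) (v b) = 0)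
    (x : Unit ⊕ (Fin d ⊕ Fin d) → F) (hx : x ∈ Submodule.span F (Set.range v)) (a : Fin m) :
    QuadraticMap.polar (Cfsg.quadFormOdd d F) (v a) x = 0 := by
  induction hx using Submodule.span_induction with
  | mem y hy =>
    obtain ⟨b, rfl⟩ := hy
    exact hp a b
  | zero => exact cnta_pzero _
  | add y z _ _ hy hz => rw [cnta_padd, hy, hz, add_zero]
  | smul c y _ hy => rw [cnta_psmul, hy, mul_zero]

theorem cnta_span_perp2 {m : ℕ} (v : Fin m → (Unit ⊕ (Fin d ⊕ Fin d) → F))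
    (hp : ∀ a b, QuadraticMap.polar (Cfsg.quadFormOdd d F) (v a) (v b) = 0)
    (x : Unit ⊕ (Fin d ⊕ Fin d) → F) (hx : x ∈ Submodule.span F (Set.range v))
    (y : Unit ⊕ (Fin d ⊕ Fin d) → F) (hy : y ∈ Submodule.span F (Set.range v)) :
    QuadraticMap.polar (Cfsg.quadFormOdd d F) x y = 0 := by
  induction hy using Submodule.span_induction with
  | mem y hy =>
    obtain ⟨b, rfl⟩ := hy
    rw [QuadraticMap.polar_comm]
    exact cnta_span_perp v hp x hx b
  | zero => exact cnta_pzero _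
  | add y z _ _ hy hz => rw [cnta_padd, hy, hz, add_zero]
  | smul c y _ hy => rw [cnta_psmul, hy, mul_zero]

theorem cnta_span_sing {m : ℕ} (v : Fin m → (Unit ⊕ (Fin d ⊕ Fin d) → F))
    (hs : ∀ a, Cfsg.quadFormOdd d F (v a) = 0)
    (hp : ∀ a b, QuadraticMap.polar (Cfsg.quadFormOdd d F) (v a) (v b) = 0)
    (x : Unit ⊕ (Fin d ⊕ Fin d) → F) (hx : x ∈ Submodule.span F (Set.range v)) :
    Cfsg.quadFormOdd d F x = 0 := by
  induction hx using Submodule.span_induction with
  | mem y hy =>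
    obtain ⟨b, rfl⟩ := hy
    exact hs b
  | zero => exact cnta_qzero
  | add y z hy' hz' hy hz =>
    rw [cnta_qadd, hy, hz, cnta_span_perp2 v hp y hy' z hz', add_zero, add_zero]
  | smul c y _ hy => rw [cnta_qsmul, hy, mul_zero]

theorem cnta_perp_count (F : Type*) [Field F] [Fintype F] (d m : ℕ)
    (v : Fin m → (Unit ⊕ (Fin d ⊕ Fin d) → F)) (hli : LinearIndependent F v)
    (hs : ∀ a, Cfsg.quadFormOdd d F (v a) = 0)
    (hp : ∀ a b, QuadraticMap.polar (Cfsg.quadFormOdd d F) (v a) (v b) = 0)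
    (hcnt : Nat.card {w : Unit ⊕ (Fin d ⊕ Fin d) → F // Cfsg.quadFormOdd d F w = 0 ∧
      ∀ a, QuadraticMap.polar (Cfsg.quadFormOdd d F) (v a) w = 0} =
        Fintype.card F ^ (2 * d - m)) :
    Nat.card {x : Unit ⊕ (Fin d ⊕ Fin d) → F // x ∉ Submodule.span F (Set.range v) ∧
      Cfsg.quadFormOdd d F x = 0 ∧
      ∀ a, QuadraticMap.polar (Cfsg.quadFormOdd d F) (v a) x = 0} =
      Fintype.card F ^ (2 * d - m) - Fintype.card F ^ m := by
  classical
  obtain ⟨W, hW⟩ : ∃ W : Submodule F (Unit ⊕ (Fin d ⊕ Fin d) → F),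
    W = Submodule.span F (Set.range v) := ⟨_, rfl⟩
  obtain ⟨P, hP⟩ : ∃ P : Set (Unit ⊕ (Fin d ⊕ Fin d) → F),
    P = {w | Cfsg.quadFormOdd d F w = 0 ∧
      ∀ a, QuadraticMap.polar (Cfsg.quadFormOdd d F) (v a) w = 0} := ⟨_, rfl⟩
  have hWP : (W : Set (Unit ⊕ (Fin d ⊕ Fin d) → F)) ⊆ P := by
    intro x hx
    rw [hP]
    rw [SetLike.mem_coe, hW] at hx
    exact ⟨cnta_span_sing v hs hp x hx, fun a => cnta_span_perp v hp x hx a⟩
  have hfW : finrank F W = m := by
    rw [hW, finrank_span_eq_card hli, Fintype.card_fin]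
  have hcW : Nat.card W = Fintype.card F ^ m := by
    rw [Module.natCard_eq_pow_finrank (K := F), hfW, Nat.card_eq_fintype_card]
  have hcP : Nat.card P = Fintype.card F ^ (2 * d - m) := by
    rw [hP]
    exact hcnt
  have hset : {x : Unit ⊕ (Fin d ⊕ Fin d) → F | x ∉ Submodule.span F (Set.range v) ∧
      Cfsg.quadFormOdd d F x = 0 ∧
      ∀ a, QuadraticMap.polar (Cfsg.quadFormOdd d F) (v a) x = 0} =
      P \ (W : Set (Unit ⊕ (Fin d ⊕ Fin d) → F)) := by
    ext x
    rw [hP, hW]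
    simp only [Set.mem_ofPred_eq, Set.mem_sdiff, SetLike.mem_coe]
    tauto
  have h1 : Nat.card {x : Unit ⊕ (Fin d ⊕ Fin d) → F // x ∉ Submodule.span F (Set.range v) ∧
      Cfsg.quadFormOdd d F x = 0 ∧
      ∀ a, QuadraticMap.polar (Cfsg.quadFormOdd d F) (v a) x = 0} =
      Set.ncard {x : Unit ⊕ (Fin d ⊕ Fin d) → F | x ∉ Submodule.span F (Set.range v) ∧
      Cfsg.quadFormOdd d F x = 0 ∧
      ∀ a, QuadraticMap.polar (Cfsg.quadFormOdd d F) (v a) x = 0} := Nat.card_coe_set_eq _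
  rw [h1, hset, Set.ncard_sdiff hWP (Set.toFinite _),
    ← Nat.card_coe_set_eq, ← Nat.card_coe_set_eq]
  exact congrArg₂ (· - ·) hcP hcW

/-- Splitting off the last vector of a totally singular independent family. -/
noncomputable def cntaEquiv (F : Type*) [Field F] (d m : ℕ) : TSFam F d (m + 1) ≃
    Σ s : TSFam F d m, {x : Unit ⊕ (Fin d ⊕ Fin d) → F //
      x ∉ Submodule.span F (Set.range s.1) ∧ Cfsg.quadFormOdd d F x = 0 ∧
      ∀ a, QuadraticMap.polar (Cfsg.quadFormOdd d F) (s.1 a) x = 0} where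
  toFun u :=
    ⟨⟨Fin.init u.1,
        (linearIndependent_finSnoc.mp (by rw [Fin.snoc_init_self]; exact u.2.1)).1,
        fun a => u.2.2.1 _, fun a b => u.2.2.2 _ _⟩,
      ⟨u.1 (Fin.last m),
        (linearIndependent_finSnoc.mp (by rw [Fin.snoc_init_self]; exact u.2.1)).2,
        u.2.2.1 _, fun a => u.2.2.2 _ _⟩⟩
  invFun p :=
    ⟨Fin.snoc p.1.1 p.2.1, linearIndependent_finSnoc.mpr ⟨p.1.2.1, p.2.2.1⟩, by
      intro a
      induction a using Fin.lastCases with
      | last =>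
        rw [Fin.snoc_last]
        exact p.2.2.2.1
      | cast a =>
        rw [Fin.snoc_castSucc]
        exact p.1.2.2.1 a, by
      intro a b
      induction a using Fin.lastCases with
      | last =>
        induction b using Fin.lastCases with
        | last =>
          rw [Fin.snoc_last, cnta_pself, p.2.2.2.1, mul_zero]
        | cast b =>
          rw [Fin.snoc_last, Fin.snoc_castSucc, QuadraticMap.polar_comm]
          exact p.2.2.2.2 b
      | cast a =>
        induction b using Fin.lastCases with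
        | last =>
          rw [Fin.snoc_last, Fin.snoc_castSucc]
          exact p.2.2.2.2 a
        | cast b =>
          rw [Fin.snoc_castSucc, Fin.snoc_castSucc]
          exact p.1.2.2.2 a b⟩
  left_inv u := Subtype.ext (Fin.snoc_init_self _)
  right_inv p := by
    apply Sigma.subtype_ext
    · apply Subtype.ext
      show Fin.init (Fin.snoc (α := fun _ => Unit ⊕ (Fin d ⊕ Fin d) → F) p.1.1 p.2.1) = p.1.1
      exact Fin.init_snoc _ _
    · show Fin.snoc (α := fun _ => Unit ⊕ (Fin d ⊕ Fin d) → F) p.1.1 p.2.1 (Fin.last m) = p.2.1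
      exact Fin.snoc_last _ _

theorem cnta_of (F : Type*) [Field F] [Fintype F] (d : ℕ)
    (hperp : ∀ m, m ≤ d → ∀ v : Fin m → (Unit ⊕ (Fin d ⊕ Fin d) → F), LinearIndependent F v →
      (∀ a, Cfsg.quadFormOdd d F (v a) = 0) →
      (∀ a b, QuadraticMap.polar (Cfsg.quadFormOdd d F) (v a) (v b) = 0) →
      Nat.card {w : Unit ⊕ (Fin d ⊕ Fin d) → F // Cfsg.quadFormOdd d F w = 0 ∧
        ∀ a, QuadraticMap.polar (Cfsg.quadFormOdd d F) (v a) w = 0} =
        Fintype.card F ^ (2 * d - m)) (m : ℕ) (hmd : m ≤ d) :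
    Nat.card (TSFam F d m) =
      ∏ j ∈ Finset.range m, (Fintype.card F ^ (2 * d - j) - Fintype.card F ^ j) := by
  classical
  induction m with
  | zero =>
    rw [Finset.prod_range_zero]
    have : Subsingleton (TSFam F d 0) := ⟨fun a b => Subtype.ext (Subsingleton.elim _ _)⟩
    have : Nonempty (TSFam F d 0) :=
      ⟨⟨fun a => Fin.elim0 a, linearIndependent_empty_type, fun a => Fin.elim0 a,
        fun a => Fin.elim0 a⟩⟩
    exact Nat.card_unique
  | succ m ih =>
    have : Finite (TSFam F d m) := by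
      unfold TSFam
      infer_instance
    have : Fintype (TSFam F d m) := Fintype.ofFinite _
    have hfib : ∀ s : TSFam F d m, Nat.card {x : Unit ⊕ (Fin d ⊕ Fin d) → F //
        x ∉ Submodule.span F (Set.range s.1) ∧ Cfsg.quadFormOdd d F x = 0 ∧
        ∀ a, QuadraticMap.polar (Cfsg.quadFormOdd d F) (s.1 a) x = 0} =
        Fintype.card F ^ (2 * d - m) - Fintype.card F ^ m := fun s =>
      cnta_perp_count F d m s.1 s.2.1 s.2.2.1 s.2.2.2
        (hperp m (by omega) s.1 s.2.1 s.2.2.1 s.2.2.2)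
    rw [Finset.prod_range_succ, ← ih (by omega), Nat.card_congr (cntaEquiv F d m),
      Nat.card_sigma, Finset.sum_congr rfl (fun s _ => hfib s),
      Finset.sum_const, Finset.card_univ, smul_eq_mul, Nat.card_eq_fintype_card]

end cntaux

/-- CNTA with CNTPERP passed in as a hypothesis. -/
theorem ot_cnt_a_core (F : Type u) [Field F] [Fintype F] (d m : ℕ) (hmd : m ≤ d)
    (hperp : ∀ m, m ≤ d → ∀ v : Fin m → (Unit ⊕ (Fin d ⊕ Fin d) → F), LinearIndependent F v →
      (∀ a, Cfsg.quadFormOdd d F (v a) = 0) →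
      (∀ a b, QuadraticMap.polar (Cfsg.quadFormOdd d F) (v a) (v b) = 0) →
      Nat.card {w : Unit ⊕ (Fin d ⊕ Fin d) → F // Cfsg.quadFormOdd d F w = 0 ∧
        ∀ a, QuadraticMap.polar (Cfsg.quadFormOdd d F) (v a) w = 0} =
        Fintype.card F ^ (2 * d - m)) :
    Nat.card (TSFam F d m) =
      ∏ j ∈ Finset.range m, (Fintype.card F ^ (2 * d - j) - Fintype.card F ^ j) :=
  cnta_of F d hperp m hmd

end Cfsg.Agent.Helper47.OT5972
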