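import Mathlib
import Cfsg.Agent.Helper43.OTDefs
import Cfsg.Agent.Helper12.OTWITT

set_option autoImplicit false

namespace Cfsg.Agent.Helper47.OT5972

open Module Polynomial Cfsg.Agent.Helper90.HT Cfsg.Agent.Helper43.OT

universe u

theorem cntperp_polar_single {F : Type*} [Field F] (d : ℕ) (a : Fin d)
    (w : Unit ⊕ (Fin d ⊕ Fin d) → F) :
    QuadraticMap.polar (Cfsg.quadFormOdd d F) (Pi.single (Sum.inr (Sum.inl a)) 1) w =
      w (Sum.inr (Sum.inr a)) := by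
  classical
  have e0 : (Pi.single (Sum.inr (Sum.inl a)) (1 : F) : Unit ⊕ (Fin d ⊕ Fin d) → F)
      (Sum.inl ()) = 0 := by simp
  have e1 : ∀ i, (Pi.single (Sum.inr (Sum.inl a)) (1 : F) : Unit ⊕ (Fin d ⊕ Fin d) → F)
      (Sum.inr (Sum.inl i)) = if i = a then 1 else 0 := by
    intro i; simp [Pi.single_apply]
  have e2 : ∀ i, (Pi.single (Sum.inr (Sum.inl a)) (1 : F) : Unit ⊕ (Fin d ⊕ Fin d) → F)
      (Sum.inr (Sum.inr i)) = 0 := by intro i; simp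
  simp only [QuadraticMap.polar, Cfsg.quadFormOdd, Pi.add_apply, e0, e1, e2]
  simp [add_mul, Finset.sum_add_distrib]

theorem cntperp_of (F : Type*) [Field F] (d m : ℕ) (hmd : m ≤ d)
    (v : Fin m → (Unit ⊕ (Fin d ⊕ Fin d) → F))
    (g : (Unit ⊕ (Fin d ⊕ Fin d) → F) ≃ₗ[F] (Unit ⊕ (Fin d ⊕ Fin d) → F))
    (hg : ∀ x, Cfsg.quadFormOdd d F (g x) = Cfsg.quadFormOdd d F x)
    (hgv : ∀ a : Fin m, g (Pi.single (Sum.inr (Sum.inl (Fin.castLE hmd a))) 1) = v a) :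
    Nat.card {w : Unit ⊕ (Fin d ⊕ Fin d) → F // Cfsg.quadFormOdd d F w = 0 ∧
      ∀ a, QuadraticMap.polar (Cfsg.quadFormOdd d F) (v a) w = 0} =
    Nat.card {w : Unit ⊕ (Fin d ⊕ Fin d) → F // Cfsg.quadFormOdd d F w = 0 ∧
      ∀ a : Fin d, (a : ℕ) < m → w (Sum.inr (Sum.inr a)) = 0} := by
  apply Nat.card_congr
  symm
  refine g.toEquiv.subtypeEquiv ?_
  intro w
  show _ ↔ (Cfsg.quadFormOdd d F (g w) = 0 ∧
    ∀ a, QuadraticMap.polar (Cfsg.quadFormOdd d F) (v a) (g w) = 0)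
  rw [hg]
  have key : ∀ a : Fin m, QuadraticMap.polar (Cfsg.quadFormOdd d F) (v a) (g w) =
      w (Sum.inr (Sum.inr (Fin.castLE hmd a))) := by
    intro a
    rw [← hgv a, ← cntperp_polar_single d (Fin.castLE hmd a) w]
    unfold QuadraticMap.polar
    rw [← map_add, hg, hg, hg]
  constructor
  · rintro ⟨h0, h1⟩
    refine ⟨h0, fun a => ?_⟩
    rw [key]
    exact h1 _ (by simp)
  · rintro ⟨h0, h1⟩
    refine ⟨h0, fun a ha => ?_⟩
    have h3 := h1 ⟨a, ha⟩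
    rw [key] at h3
    exact h3

/-- CNTPERP with CNTSTD passed in as a hypothesis (WITT is `Cfsg.Agent.Helper12.OTWITT.ot_witt`). -/
theorem ot_cnt_perp_core (F : Type u) [Field F] [Fintype F] (h2 : (2 : F) ≠ 0) (d m : ℕ)
    (hmd : m ≤ d)
    (hstd : Nat.card {w : Unit ⊕ (Fin d ⊕ Fin d) → F // Cfsg.quadFormOdd d F w = 0 ∧
      ∀ a : Fin d, (a : ℕ) < m → w (Sum.inr (Sum.inr a)) = 0} = Fintype.card F ^ (2 * d - m))
    (v : Fin m → (Unit ⊕ (Fin d ⊕ Fin d) → F)) (hv : LinearIndependent F v)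
    (hs : ∀ a, Cfsg.quadFormOdd d F (v a) = 0)
    (hp : ∀ a b, QuadraticMap.polar (Cfsg.quadFormOdd d F) (v a) (v b) = 0) :
    Nat.card {w : Unit ⊕ (Fin d ⊕ Fin d) → F // Cfsg.quadFormOdd d F w = 0 ∧
      ∀ a, QuadraticMap.polar (Cfsg.quadFormOdd d F) (v a) w = 0} =
      Fintype.card F ^ (2 * d - m) := by
  obtain ⟨g, hg, hgv⟩ := Cfsg.Agent.Helper12.OTWITT.ot_witt F h2 d m hmd v hv hs hp
  rw [cntperp_of F d m hmd v g hg hgv, hstd]

end Cfsg.Agent.Helper47.OT5972
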