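import Mathlib
import Cfsg.Agent.Helper47.OTCNTPERPCore
import Cfsg.Agent.Helper12.OTCNTSTD

/-!
# CALL OT (S5972), piece CNTPERP (helper47)
-/

set_option autoImplicit false

namespace Cfsg.Agent.Helper47.OT5972

open Module Polynomial Cfsg.Agent.Helper90.HT Cfsg.Agent.Helper43.OT

universe u

/-- CNTPERP (uses CNTSTD, WITT): singular vectors orthogonal to any totally singular `m`-frame. -/
theorem ot_cnt_perp (F : Type u) [Field F] [Fintype F] (h2 : (2 : F) ≠ 0) (d m : ℕ) (hmd : m ≤ d)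
    (v : Fin m → (Unit ⊕ (Fin d ⊕ Fin d) → F)) (hv : LinearIndependent F v)
    (hs : ∀ a, Cfsg.quadFormOdd d F (v a) = 0)
    (hp : ∀ a b, QuadraticMap.polar (Cfsg.quadFormOdd d F) (v a) (v b) = 0) :
    Nat.card {w : Unit ⊕ (Fin d ⊕ Fin d) → F // Cfsg.quadFormOdd d F w = 0 ∧
      ∀ a, QuadraticMap.polar (Cfsg.quadFormOdd d F) (v a) w = 0} =
      Fintype.card F ^ (2 * d - m) :=
  ot_cnt_perp_core F h2 d m hmd (Cfsg.Agent.Helper12.OTCNTSTD.ot_cnt_std F d m hmd) v hv hs hp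

end Cfsg.Agent.Helper47.OT5972
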