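import Mathlib
import Cfsg.Agent.Helper47.OTCNTACore
import Cfsg.Agent.Helper47.OTCNTPERP

/-!
# CALL OT (S5972), piece CNTA (helper47)
-/

set_option autoImplicit false

namespace Cfsg.Agent.Helper47.OT5972

open Module Polynomial Cfsg.Agent.Helper90.HT Cfsg.Agent.Helper43.OT

universe u

/-- CNTA (uses CNTPERP; induction on `m`): the number of totally singular frames. -/
theorem ot_cnt_a (F : Type u) [Field F] [Fintype F] (h2 : (2 : F) ≠ 0) (d m : ℕ) (hmd : m ≤ d) :
    Nat.card (TSFam F d m) =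
      ∏ j ∈ Finset.range m, (Fintype.card F ^ (2 * d - j) - Fintype.card F ^ j) :=
  ot_cnt_a_core F d m hmd (fun m' hm' v hv hs hp => ot_cnt_perp F h2 d m' hm' v hv hs hp)

end Cfsg.Agent.Helper47.OT5972
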