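import Mathlib

set_option autoImplicit false

/-!
PIECE B of CALL S4719 (helper78): the centralizer of the image of `t` in a quotient is no larger
than the centralizer of `t`.
-/

namespace Cfsg.Agent.Helper47

theorem quot_centralizer_card_le {G : Type*} [Group G] [Finite G] (N : Subgroup G) [N.Normal]
    (t : G) :
    Nat.card ↥(Subgroup.centralizer ({(QuotientGroup.mk t : G ⧸ N)} : Set (G ⧸ N))) ≤
      Nat.card ↥(Subgroup.centralizer ({t} : Set G)) := by
  classical
  obtain ⟨H, hH⟩ : ∃ H : Subgroup (G ⧸ N),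
      H = Subgroup.centralizer ({(QuotientGroup.mk t : G ⧸ N)} : Set (G ⧸ N)) := ⟨_, rfl⟩
  rw [← hH]
  obtain ⟨K, hK⟩ : ∃ K : Subgroup G, K = H.comap (QuotientGroup.mk' N) := ⟨_, rfl⟩
  have hcardK : Nat.card K = Nat.card H * Nat.card N := by
    have h1 : K.index = H.index := by
      rw [hK]; exact Subgroup.index_comap_of_surjective H (QuotientGroup.mk'_surjective N)
    have h2 := K.card_mul_index
    have h3 := H.card_mul_index
    have h4 : Nat.card G = Nat.card (G ⧸ N) * Nat.card N :=
      Subgroup.card_eq_card_quotient_mul_card_subgroup N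
    have hpos : 0 < H.index := Nat.pos_of_ne_zero Subgroup.index_ne_zero_of_finite
    rw [h1] at h2
    have h5 : Nat.card K * H.index = Nat.card H * Nat.card N * H.index := by
      rw [h2, h4, ← h3]; ring
    exact Nat.eq_of_mul_eq_mul_right hpos h5
  have hf : ∀ x : K, (x : G)⁻¹ * t⁻¹ * x * t ∈ N := by
    intro x
    have hmemK : ∀ y ∈ K, (QuotientGroup.mk' N y) ∈ H := by
      intro y hy
      rw [hK] at hy
      exact hy
    have hx : (QuotientGroup.mk' N (x : G)) ∈ H := hmemK _ x.2
    rw [hH, Subgroup.mem_centralizer_singleton_iff] at hx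
    rw [← QuotientGroup.eq_one_iff (N := N)]
    have hx' : (QuotientGroup.mk (x : G) : G ⧸ N) * (QuotientGroup.mk t : G ⧸ N) =
        (QuotientGroup.mk t : G ⧸ N) * (QuotientGroup.mk (x : G) : G ⧸ N) := hx
    simp only [QuotientGroup.mk_mul, QuotientGroup.mk_inv]
    rw [mul_assoc, hx']
    group
  let f : K → N := fun x => ⟨(x : G)⁻¹ * t⁻¹ * x * t, hf x⟩
  let rep : N → K := fun n => if h : ∃ y : K, f y = n then h.choose else 1
  have hrep : ∀ x : K, f (rep (f x)) = f x := by
    intro x
    have h : ∃ y : K, f y = f x := ⟨x, rfl⟩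
    simp only [rep, dif_pos h]
    exact h.choose_spec
  have hmem : ∀ x : K, (x : G) * ((rep (f x) : K) : G)⁻¹ ∈ Subgroup.centralizer ({t} : Set G) := by
    intro x
    rw [Subgroup.mem_centralizer_singleton_iff]
    have h := congrArg Subtype.val (hrep x)
    have h' : ((rep (f x) : K) : G)⁻¹ * t⁻¹ * (rep (f x) : K) * t = (x : G)⁻¹ * t⁻¹ * x * t := h
    have h2 : ((rep (f x) : K) : G)⁻¹ * t⁻¹ * (rep (f x) : K) = (x : G)⁻¹ * t⁻¹ * x :=
      mul_right_cancel h'
    have h3 : ((rep (f x) : K) : G)⁻¹ * t * (rep (f x) : K) = (x : G)⁻¹ * t * x := by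
      have := congrArg (fun g => g⁻¹) h2
      simpa [mul_assoc] using this
    have h4 : t = (x : G) * ((rep (f x) : K) : G)⁻¹ * t * (rep (f x) : K) * (x : G)⁻¹ := by
      have : (x : G) * (((rep (f x) : K) : G)⁻¹ * t * (rep (f x) : K)) * (x : G)⁻¹ = t := by
        rw [h3]; group
      calc t = (x : G) * (((rep (f x) : K) : G)⁻¹ * t * (rep (f x) : K)) * (x : G)⁻¹ := this.symm
        _ = (x : G) * ((rep (f x) : K) : G)⁻¹ * t * (rep (f x) : K) * (x : G)⁻¹ := by group
    refine Eq.symm ?_
    calc t * ((x : G) * ((rep (f x) : K) : G)⁻¹)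
        = ((x : G) * ((rep (f x) : K) : G)⁻¹ * t * (rep (f x) : K) * (x : G)⁻¹) *
            ((x : G) * ((rep (f x) : K) : G)⁻¹) := by rw [← h4]
      _ = (x : G) * ((rep (f x) : K) : G)⁻¹ * t := by group
  let g : K → N × Subgroup.centralizer ({t} : Set G) := fun x =>
    (f x, ⟨(x : G) * ((rep (f x) : K) : G)⁻¹, hmem x⟩)
  have hg : Function.Injective g := by
    intro x y hxy
    have h1 : f x = f y := congrArg Prod.fst hxy
    have h2 : (x : G) * ((rep (f x) : K) : G)⁻¹ = (y : G) * ((rep (f y) : K) : G)⁻¹ :=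
      congrArg (fun p => ((p.2 : Subgroup.centralizer ({t} : Set G)) : G)) hxy
    rw [h1] at h2
    exact Subtype.ext (mul_right_cancel h2)
  have hle : Nat.card K ≤ Nat.card (N × Subgroup.centralizer ({t} : Set G)) :=
    Nat.card_le_card_of_injective g hg
  rw [Nat.card_prod, hcardK, mul_comm] at hle
  exact Nat.le_of_mul_le_mul_left hle Nat.card_pos

end Cfsg.Agent.Helper47
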