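import Mathlib
import Cfsg.Agent.Helper87.SFDefs
import Cfsg.Agent.Helper29.SFORB
import Cfsg.Agent.Helper51.SFCOMPL

/-!
# S2752, piece BETA2: the second alternative of `Good` from an inner involution of a simple
subnormal factor.
-/

set_option autoImplicit false

namespace Cfsg.Agent.Helper47

open Cfsg.Agent.Helper87.SF

/-- a simple non-commutative subgroup has trivial centre (elementwise form) -/
theorem sf_center_trivial {G : Type*} [Group G] (K : Subgroup G) (hKs : IsSimpleGroup ↥K)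
    (hKn : NC K) (k : G) (hk : k ∈ K) (hc : ∀ k' ∈ K, k * k' = k' * k) : k = 1 := by
  have h1 : (⟨k, hk⟩ : ↥K) ∈ Subgroup.center ↥K := by
    rw [Subgroup.mem_center_iff]
    intro x
    apply Subtype.ext
    exact (hc x.1 x.2).symm
  rcases (inferInstance : (Subgroup.center ↥K).Normal).eq_bot_or_eq_top with h | h
  · rw [h, Subgroup.mem_bot] at h1
    exact congrArg Subtype.val h1
  · exfalso
    apply hKn
    intro x hx y hy
    have h2 : (⟨x, hx⟩ : ↥K) ∈ Subgroup.center ↥K := by rw [h]; trivial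
    rw [Subgroup.mem_center_iff] at h2
    exact (congrArg Subtype.val (h2 ⟨y, hy⟩)).symm

/-- BETA2 -/
theorem sf_beta2 {G : Type*} [Group G] [Finite G] (A K : Subgroup G) (hA : EA2 A)
    (hKs : IsSimpleGroup ↥K) (hKn : NC K) (hcc : CC K A)
    (a s g₀ : G) (ha : a ∈ A) (hs : s ∈ K) (hg₀ : g₀ ∈ K)
    (has : ∀ k ∈ K, a * k * a⁻¹ = s * k * s⁻¹)
    (r N q : ℕ) (hr : r.Prime) (hr2 : r ≠ 2) (hord : orderOf (s * g₀⁻¹ * s⁻¹ * g₀) = r)
    (hprim : ∀ k : ℕ, 0 < k → k < N → ¬ r ∣ 2 ^ k - 1) (hq : q ^ 4 ≤ 2 ^ (N + 1))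
    (Cs As : Subgroup G) (hCs : ∀ c ∈ Cs, c ∈ A ∧ ∀ k ∈ K, c * k = k * c)
    (hAs : ∀ c : G, c ∈ As ↔ c ∈ A ∧ ∀ k ∈ K, c * k * c⁻¹ ∈ K)
    (hcard : Nat.card As ≤ q * Nat.card Cs) : Good A := by
  classical
  have hAsA : As ≤ A := fun c hc => ((hAs c).mp hc).1
  obtain ⟨T, hTA, hinf, hsup, hcardT⟩ := Cfsg.Agent.Helper51.sf_compl A As hA hAsA
  have hTK : ∀ c ∈ T, (∀ k ∈ K, c * k * c⁻¹ ∈ K) → c = 1 := by
    intro c hc hcK
    have h1 : c ∈ As ⊓ T := ⟨(hAs c).mpr ⟨hTA hc, hcK⟩, hc⟩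
    rw [hinf, Subgroup.mem_bot] at h1
    exact h1
  obtain ⟨Δ, hΔ1, hΔ2, hΔ3, -⟩ := Cfsg.Agent.Helper29.sf_orb A K T hA hTA hcc hTK
  -- `Δ` is injective
  have hΔinj : Function.Injective Δ := by
    rw [injective_iff_map_eq_one]
    intro k hk
    have h1 := hΔ3 k
    rw [hk, one_mul] at h1
    have h2 : ((k : G))⁻¹ = 1 := by
      apply sf_center_trivial K hKs hKn _ (K.inv_mem k.2)
      intro k' hk'
      exact h1 k' hk'
    apply Subtype.ext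
    rw [inv_eq_one] at h2
    exact h2
  have haa : a * a = 1 := hA.2 a ha
  have hainv : a⁻¹ = a := inv_eq_of_mul_eq_one_left haa
  obtain ⟨g, hg⟩ : ∃ g : G, g = Δ ⟨g₀, hg₀⟩ := ⟨_, rfl⟩
  have hCsA : Cs ≤ A := fun c hc => (hCs c hc).1
  have hCsAs : Cs ≤ As := by
    intro c hc
    rw [hAs]
    refine ⟨hCsA hc, ?_⟩
    intro k hk
    rw [(hCs c hc).2 k hk, mul_assoc, mul_inv_cancel, mul_one]
    exact hk
  -- `g` commutes with `Cs ⊔ T`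
  have hgB : ∀ b ∈ Cs ⊔ T, g * b = b * g := by
    have h1 : Cs ⊔ T ≤ Subgroup.centralizer ({g} : Set G) := by
      apply sup_le
      · intro c hc
        rw [Subgroup.mem_centralizer_iff]
        intro x hx
        rw [Set.mem_singleton_iff] at hx
        rw [hx, hg]
        have h2 := hΔ2 c (hCsA hc) ⟨g₀, hg₀⟩ ⟨g₀, hg₀⟩ (by
          show c * g₀ * c⁻¹ = g₀
          rw [(hCs c hc).2 g₀ hg₀, mul_assoc, mul_inv_cancel, mul_one])
        calc Δ ⟨g₀, hg₀⟩ * c = c * Δ ⟨g₀, hg₀⟩ * c⁻¹ * c := by rw [h2]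
          _ = c * Δ ⟨g₀, hg₀⟩ := by group
      · intro c hc
        rw [Subgroup.mem_centralizer_iff]
        intro x hx
        rw [Set.mem_singleton_iff] at hx
        rw [hx, hg]
        exact (hΔ1 ⟨g₀, hg₀⟩ c hc).symm
    intro b hb
    have h2 := h1 hb
    rw [Subgroup.mem_centralizer_iff] at h2
    exact h2 g rfl
  -- the order of `a g⁻¹ a g`
  have hk'K : s * g₀⁻¹ * s⁻¹ ∈ K := K.mul_mem (K.mul_mem hs (K.inv_mem hg₀)) (K.inv_mem hs)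
  have hy : orderOf (a * g⁻¹ * a * g) = r := by
    have h1 : a * g⁻¹ * a = Δ ⟨s * g₀⁻¹ * s⁻¹, hk'K⟩ := by
      have h2 := hΔ2 a ha (⟨g₀, hg₀⟩⁻¹ : ↥K) ⟨s * g₀⁻¹ * s⁻¹, hk'K⟩ (by
        show a * g₀⁻¹ * a⁻¹ = s * g₀⁻¹ * s⁻¹
        exact has _ (K.inv_mem hg₀))
      rw [map_inv, hainv] at h2
      rw [hg]
      exact h2
    rw [h1, hg, ← map_mul, orderOf_injective Δ hΔinj]
    have h3 : ((⟨s * g₀⁻¹ * s⁻¹, hk'K⟩ * ⟨g₀, hg₀⟩ : ↥K) : G) = s * g₀⁻¹ * s⁻¹ * g₀ := rfl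
    rw [← Subgroup.orderOf_coe, h3]
    exact hord
  -- the cardinality bound
  have hinfCT : ∀ c ∈ Cs, ∀ t ∈ T, ∀ c' ∈ Cs, ∀ t' ∈ T, c * t = c' * t' → c = c' ∧ t = t' := by
    intro c hc t ht c' hc' t' ht' h
    have h1 : c'⁻¹ * c = t' * t⁻¹ := by
      calc c'⁻¹ * c = c'⁻¹ * (c * t) * t⁻¹ := by group
        _ = c'⁻¹ * (c' * t') * t⁻¹ := by rw [h]
        _ = t' * t⁻¹ := by group
    have h2 : c'⁻¹ * c ∈ As ⊓ T :=
      ⟨hCsAs (Cs.mul_mem (Cs.inv_mem hc') hc), by rw [h1]; exact T.mul_mem ht' (T.inv_mem ht)⟩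
    rw [hinf, Subgroup.mem_bot] at h2
    have h3 : c = c' := by
      have := inv_mul_eq_one.mp h2
      exact this.symm
    refine ⟨h3, ?_⟩
    rw [h3] at h
    exact mul_left_cancel h
  have hcardB : Nat.card Cs * Nat.card T ≤ Nat.card ↥(Cs ⊔ T) := by
    rw [← Nat.card_prod]
    apply Nat.card_le_card_of_injective
      (fun p : ↥Cs × ↥T => (⟨(p.1 : G) * (p.2 : G),
        (Cs ⊔ T).mul_mem ((le_sup_left : Cs ≤ Cs ⊔ T) p.1.2)
          ((le_sup_right : T ≤ Cs ⊔ T) p.2.2)⟩ : ↥(Cs ⊔ T)))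
    intro p p' hpp
    have h1 : (p.1 : G) * (p.2 : G) = (p'.1 : G) * (p'.2 : G) := congrArg Subtype.val hpp
    obtain ⟨h2, h3⟩ := hinfCT _ p.1.2 _ p.2.2 _ p'.1.2 _ p'.2.2 h1
    exact Prod.ext (Subtype.ext h2) (Subtype.ext h3)
  refine ⟨Cs ⊔ T, a, g, r, sup_le hCsA hTA, ha, hgB, hr, hr2, hy, Or.inr ⟨N, hprim, ?_⟩⟩
  have h1 : Nat.card A ≤ q * Nat.card ↥(Cs ⊔ T) := by
    calc Nat.card A = Nat.card As * Nat.card T := hcardT.symm
      _ ≤ q * Nat.card Cs * Nat.card T := Nat.mul_le_mul_right _ hcard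
      _ = q * (Nat.card Cs * Nat.card T) := by ring
      _ ≤ q * Nat.card ↥(Cs ⊔ T) := Nat.mul_le_mul_left _ hcardB
  calc Nat.card A ^ 4 ≤ (q * Nat.card ↥(Cs ⊔ T)) ^ 4 := Nat.pow_le_pow_left h1 4
    _ = q ^ 4 * Nat.card ↥(Cs ⊔ T) ^ 4 := by ring
    _ ≤ 2 ^ (N + 1) * Nat.card ↥(Cs ⊔ T) ^ 4 := Nat.mul_le_mul_right _ hq

end Cfsg.Agent.Helper47
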