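import Mathlib
import Cfsg.Agent.Helper87.SFDefs

/-!
# S2752, piece GQUOT: the configuration `Good` lifts through a central quotient of odd order.
-/

set_option autoImplicit false

namespace Cfsg.Agent.Helper47

open Cfsg.Agent.Helper87.SF

/-- GQUOT -/
theorem sf_good_quot {G : Type*} [Group G] [Finite G] (N : Subgroup G) [N.Normal]
    (hN : N ≤ Subgroup.center G) (hodd : Odd (Nat.card N)) (A : Subgroup G) (hA : EA2 A)
    (h : Good (A.map (QuotientGroup.mk' N))) : Good A := by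
  classical
  obtain ⟨B', a', g', r, hB'A, ha', hg'B', hr, hr2, hy', hcard⟩ := h
  obtain ⟨π, hπ⟩ : ∃ π : G →* G ⧸ N, π = QuotientGroup.mk' N := ⟨_, rfl⟩
  rw [← hπ] at hB'A ha' hcard
  have hker : ∀ x : G, π x = 1 ↔ x ∈ N := fun x => by
    rw [hπ]; exact QuotientGroup.eq_one_iff x
  have hN1 : ∀ n ∈ N, n * n = 1 → n = 1 := by
    intro n hn hnn
    have h1 : orderOf n ∣ 2 := orderOf_dvd_of_pow_eq_one (by rw [pow_two]; exact hnn)
    have h2 : orderOf n ∣ Nat.card N := Subgroup.orderOf_dvd_natCard N hn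
    have h3 : orderOf n ∣ Nat.gcd 2 (Nat.card N) := Nat.dvd_gcd h1 h2
    rw [Nat.coprime_two_left.mpr hodd] at h3
    exact orderOf_eq_one_iff.mp (Nat.dvd_one.mp h3)
  have hcen : ∀ n ∈ N, ∀ x : G, n * x = x * n := fun n hn x =>
    (Subgroup.mem_center_iff.mp (hN hn) x).symm
  have hinj : ∀ x ∈ A, ∀ y ∈ A, π x = π y → x = y := by
    intro x hx y hy hxy
    have h1 : x * y⁻¹ ∈ N := by rw [← hker, map_mul, map_inv, hxy, mul_inv_cancel]
    have h2 : x * y⁻¹ ∈ A := A.mul_mem hx (A.inv_mem hy)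
    have h3 := hN1 _ h1 (hA.2 _ h2)
    exact mul_inv_eq_one.mp h3
  obtain ⟨a, haA, rfl⟩ := ha'
  obtain ⟨g, rfl⟩ : ∃ g, π g = g' := by
    rw [hπ]; exact QuotientGroup.mk'_surjective N g'
  obtain ⟨B, hB⟩ : ∃ B : Subgroup G, B = A ⊓ B'.comap π := ⟨_, rfl⟩
  have hBA : B ≤ A := by rw [hB]; exact inf_le_left
  have hBB' : ∀ b ∈ B, π b ∈ B' := by
    intro b hb
    rw [hB] at hb
    exact hb.2
  have hBmap : B.map π = B' := by
    ext x
    constructor
    · rintro ⟨b, hb, rfl⟩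
      exact hBB' b hb
    · intro hx
      obtain ⟨b, hbA, rfl⟩ := hB'A hx
      refine ⟨b, ?_, rfl⟩
      rw [hB]
      exact ⟨hbA, hx⟩
  have hcardA : Nat.card (A.map π) = Nat.card A := by
    symm
    apply Nat.card_congr
    exact Equiv.ofBijective (π.subgroupMap A)
      ⟨fun x y hxy => Subtype.ext (hinj x.1 x.2 y.1 y.2 (congrArg Subtype.val hxy)),
        π.subgroupMap_surjective A⟩
  have hcardB : Nat.card B' = Nat.card B := by
    rw [← hBmap]
    symm
    apply Nat.card_congr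
    exact Equiv.ofBijective (π.subgroupMap B)
      ⟨fun x y hxy => Subtype.ext (hinj x.1 (hBA x.2) y.1 (hBA y.2) (congrArg Subtype.val hxy)),
        π.subgroupMap_surjective B⟩
  have haa : a * a = 1 := hA.2 a haA
  have hgB : ∀ b ∈ B, g * b = b * g := by
    intro b hb
    have hbb : b * b = 1 := hA.2 b (hBA hb)
    obtain ⟨n, hn⟩ : ∃ n, n = g * b * g⁻¹ * b⁻¹ := ⟨_, rfl⟩
    have h1 : n ∈ N := by
      rw [← hker, hn]
      simp only [map_mul, map_inv]
      rw [hg'B' (π b) (hBB' b hb)]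
      group
    have h2 : g * b * g⁻¹ = n * b := by rw [hn]; group
    have h3 : n * n = 1 := by
      have h4 : (g * b * g⁻¹) * (g * b * g⁻¹) = 1 := by
        have e : (g * b * g⁻¹) * (g * b * g⁻¹) = g * (b * b) * g⁻¹ := by group
        rw [e, hbb]; group
      rw [h2] at h4
      have h5 : n * b * (n * b) = n * n * (b * b) := by
        have e : b * n = n * b := (hcen n h1 b).symm
        calc n * b * (n * b) = n * (b * n) * b := by group
          _ = n * (n * b) * b := by rw [e]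
          _ = n * n * (b * b) := by group
      rw [h5, hbb, mul_one] at h4
      exact h4
    have h6 := hN1 n h1 h3
    rw [h6, one_mul] at h2
    calc g * b = g * b * g⁻¹ * g := by group
      _ = b * g := by rw [h2]
  have hy : orderOf (a * g⁻¹ * a * g) = r := by
    obtain ⟨y, hydef⟩ : ∃ y, y = a * g⁻¹ * a * g := ⟨_, rfl⟩
    rw [← hydef]
    have hπy : π y = π a * (π g)⁻¹ * π a * π g := by
      rw [hydef]; simp only [map_mul, map_inv]
    have h1 : orderOf (π y) = r := by rw [hπy]; exact hy'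
    have h2 : y ^ r ∈ N := by rw [← hker, map_pow, ← h1, pow_orderOf_eq_one]
    have hainv : a⁻¹ = a := inv_eq_of_mul_eq_one_left haa
    have h3 : a * y * a⁻¹ = y⁻¹ := by
      rw [hydef]
      have e1 : a * (a * g⁻¹ * a * g) * a⁻¹ = (a * a) * g⁻¹ * a * g * a⁻¹ := by group
      have e2 : (a * g⁻¹ * a * g)⁻¹ = g⁻¹ * a⁻¹ * g * a⁻¹ := by group
      rw [e1, e2, haa, one_mul, hainv]
    have h4 : a * y ^ r * a⁻¹ = (y ^ r)⁻¹ := by rw [← conj_pow, h3, inv_pow]
    have h5 : a * y ^ r * a⁻¹ = y ^ r := by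
      rw [← hcen _ h2 a, mul_assoc, mul_inv_cancel, mul_one]
    have h6 : y ^ r * y ^ r = 1 := by
      have e : (y ^ r)⁻¹ = y ^ r := h4.symm.trans h5
      calc y ^ r * y ^ r = y ^ r * (y ^ r)⁻¹ := by rw [e]
        _ = 1 := mul_inv_cancel _
    have h7 := hN1 _ h2 h6
    have h8 : orderOf y ∣ r := orderOf_dvd_of_pow_eq_one h7
    have h9 : r ∣ orderOf y := by rw [← h1]; exact orderOf_map_dvd π y
    exact Nat.dvd_antisymm h8 h9
  refine ⟨B, a, g, r, hBA, haA, hgB, hr, hr2, hy, ?_⟩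
  rcases hcard with h | ⟨N₀, hN₀, hle⟩
  · left
    rw [← hcardA, h, hcardB]
  · right
    refine ⟨N₀, hN₀, ?_⟩
    rw [← hcardA, ← hcardB]
    exact hle

end Cfsg.Agent.Helper47
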