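import Mathlib
import Cfsg.Agent.Helper87.SFDefs
import Cfsg.Agent.Helper66.SFINVODD

/-!
# S2752, piece LKEY (core): the key configuration in `PSL₂(3^(2n+1))`, with the pieces
NOT3, L3, L4T as hypotheses.
-/

set_option autoImplicit false

namespace Cfsg.Agent.Helper47

open Cfsg.Agent.Helper87.SF

/-- LKEY with NOT3, L3, L4T as hypotheses -/
theorem sf_l_key_aux {K : Type*} [Group K] [Finite K] {F : Type} [Field F] [Fintype F] (n : ℕ)
    (hF : Fintype.card F = 3 ^ (2 * n + 1))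
    (hnot3 : Fintype.card F = 3 →
      ¬ IsSimpleGroup (Matrix.ProjectiveSpecialLinearGroup (Fin 2) F))
    (hsyl : ∀ E' : Subgroup (Matrix.ProjectiveSpecialLinearGroup (Fin 2) F),
      IsPGroup 2 E' → Nat.card E' ∣ 4)
    (hfour : 1 ≤ n → ∀ E' : Subgroup (Matrix.ProjectiveSpecialLinearGroup (Fin 2) F),
      EA2 E' → Nat.card E' = 4 →
      ∃ v w x₀ : Matrix.ProjectiveSpecialLinearGroup (Fin 2) F, v ∈ E' ∧ w ∈ E' ∧ v ≠ 1 ∧
        w ≠ 1 ∧ v ≠ w ∧ x₀ ≠ 1 ∧ Odd (orderOf x₀) ∧ v * x₀ = x₀ * v ∧ w * x₀ * w⁻¹ = x₀⁻¹)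
    (e : K ≃* Matrix.ProjectiveSpecialLinearGroup (Fin 2) F) (hKs : IsSimpleGroup K)
    (hKn : ¬ ∀ x y : K, x * y = y * x)
    (E : Subgroup K) (hE : EA2 E) (hE1 : E ≠ ⊥) :
    ∃ (E₀ : Subgroup K) (w x₀ : K), E₀ ≤ E ∧ Nat.card E = 2 * Nat.card E₀ ∧ w ∈ E ∧ x₀ ≠ 1 ∧
      Odd (orderOf x₀) ∧ (∀ b ∈ E₀, b * x₀ = x₀ * b) ∧ w * x₀ * w⁻¹ = x₀⁻¹ := by
  classical
  -- `n ≥ 1`
  have hn : 1 ≤ n := by
    by_contra h0
    have hn0 : n = 0 := by omega
    rw [hn0] at hF
    exact hnot3 (by simpa using hF) (e.isSimpleGroup_congr.mp hKs)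
  -- the image of `E`
  obtain ⟨E', hE'⟩ : ∃ E' : Subgroup (Matrix.ProjectiveSpecialLinearGroup (Fin 2) F),
      E' = E.map (e : K →* Matrix.ProjectiveSpecialLinearGroup (Fin 2) F) := ⟨_, rfl⟩
  have hmem : ∀ x, x ∈ E' ↔ e.symm x ∈ E := by
    intro x
    rw [hE']
    constructor
    · rintro ⟨y, hy, rfl⟩
      simpa using hy
    · intro hx
      exact ⟨e.symm x, hx, by simp⟩
  have hE'E : EA2 E' := by
    refine ⟨?_, ?_⟩
    · intro x hx y hy
      have h1 := hE.1 _ ((hmem x).mp hx) _ ((hmem y).mp hy)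
      have h2 := congrArg e h1
      simpa using h2
    · intro x hx
      have h1 := hE.2 _ ((hmem x).mp hx)
      have h2 := congrArg e h1
      simpa using h2
  have hE'p : IsPGroup 2 E' := by
    intro x
    refine ⟨1, ?_⟩
    apply Subtype.ext
    rw [pow_one, pow_two]
    exact hE'E.2 x.1 x.2
  have hcardE : Nat.card E' = Nat.card E := by
    rw [hE']
    exact Subgroup.card_map_of_injective e.injective
  have hdvd : Nat.card E ∣ 4 := hcardE ▸ hsyl E' hE'p
  have hEne : Nat.card E ≠ 1 := by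
    intro h
    exact hE1 (Subgroup.card_eq_one.mp h)
  have hle : Nat.card E ≤ 4 := Nat.le_of_dvd (by norm_num) hdvd
  have hpos : 0 < Nat.card E := Nat.card_pos
  have hcases : Nat.card E = 2 ∨ Nat.card E = 4 := by
    interval_cases h : Nat.card E
    · exact absurd rfl hEne
    · left; rfl
    · exfalso; revert hdvd; decide
    · right; rfl
  rcases hcases with h2 | h4
  · -- `|E| = 2`
    obtain ⟨w, hwE, hw1⟩ : ∃ w ∈ E, w ≠ 1 := by
      by_contra hcon
      push Not at hcon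
      apply hE1
      rw [Subgroup.eq_bot_iff_forall]
      exact hcon
    obtain ⟨x₀, hx1, hxo, hwx⟩ := Cfsg.Agent.Helper66.sf_inv_odd hKs hKn w hw1 (hE.2 w hwE)
    refine ⟨⊥, w, x₀, bot_le, ?_, hwE, hx1, hxo, ?_, hwx⟩
    · rw [h2, Subgroup.card_bot]
    · intro b hb
      rw [Subgroup.mem_bot] at hb
      rw [hb, one_mul, mul_one]
  · -- `|E| = 4`
    obtain ⟨v, w, x₀, hvE, hwE, hv1, hw1, hvw, hx1, hxo, hvx, hwx⟩ :=
      hfour hn E' hE'E (hcardE.trans h4)
    have hv'E : e.symm v ∈ E := (hmem v).mp hvE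
    have hw'E : e.symm w ∈ E := (hmem w).mp hwE
    have hv'1 : e.symm v ≠ 1 := by
      intro h
      apply hv1
      have := congrArg e h
      simpa using this
    have hx'1 : e.symm x₀ ≠ 1 := by
      intro h
      apply hx1
      have := congrArg e h
      simpa using this
    have hvv : e.symm v * e.symm v = 1 := hE.2 _ hv'E
    have hord2 : orderOf (e.symm v) = 2 := by
      apply orderOf_eq_prime
      · rw [pow_two]; exact hvv
      · exact hv'1
    refine ⟨Subgroup.zpowers (e.symm v), e.symm w, e.symm x₀, ?_, ?_, hw'E, hx'1, ?_, ?_, ?_⟩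
    · rw [Subgroup.zpowers_le]
      exact hv'E
    · rw [h4, Nat.card_zpowers, hord2]
    · rw [MulEquiv.orderOf_eq]
      exact hxo
    · intro b hb
      obtain ⟨k, rfl⟩ := Subgroup.mem_zpowers_iff.mp hb
      have hc : Commute (e.symm v) (e.symm x₀) := by
        show e.symm v * e.symm x₀ = e.symm x₀ * e.symm v
        rw [← map_mul, ← map_mul, hvx]
      exact (hc.zpow_left k).eq
    · rw [← map_inv, ← map_mul, ← map_mul, hwx, map_inv]

end Cfsg.Agent.Helper47
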