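import Mathlib
import Cfsg.Agent.Helper47.SFLKEYAux
import Cfsg.Agent.Helper70.SFL3
import Cfsg.Agent.Helper33.SFL4T

/-!
# Helper47: PIECE LKEY of CALL S2752 (helper87), final form.
-/

set_option autoImplicit false

namespace Cfsg.Agent.Helper47

open Cfsg.Agent.Helper87.SF

/-- LKEY -/
theorem sf_l_key {K : Type*} [Group K] [Finite K] {F : Type} [Field F] [Fintype F] (n : ℕ)
    (hF : Fintype.card F = 3 ^ (2 * n + 1))
    (e : K ≃* Matrix.ProjectiveSpecialLinearGroup (Fin 2) F) (hKs : IsSimpleGroup K)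
    (hKn : ¬ ∀ x y : K, x * y = y * x)
    (E : Subgroup K) (hE : EA2 E) (hE1 : E ≠ ⊥) :
    ∃ (E₀ : Subgroup K) (w x₀ : K), E₀ ≤ E ∧ Nat.card E = 2 * Nat.card E₀ ∧ w ∈ E ∧ x₀ ≠ 1 ∧
      Odd (orderOf x₀) ∧ (∀ b ∈ E₀, b * x₀ = x₀ * b) ∧ w * x₀ * w⁻¹ = x₀⁻¹ :=
  sf_l_key_aux n hF Cfsg.Agent.Helper70.sf_not3 (Cfsg.Agent.Helper70.sf_l_syl n hF)
    (fun hn E' hE' h4 => Cfsg.Agent.Helper33.sf_l_four n hn hF E' hE' h4) e hKs hKn E hE hE1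

end Cfsg.Agent.Helper47
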