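import Mathlib
import Cfsg.Agent.Helper87.SFDefs

/-!
# S2752, piece MIND (core): the offender bound `|A|² |C_M(A)| ≤ |M|` by induction on `|A|`,
with the module step MSTEP as a hypothesis.
-/

set_option autoImplicit false

namespace Cfsg.Agent.Helper47

open Cfsg.Agent.Helper87.SF

/-- the fixed points of a subgroup form an additive subgroup -/
def sfFix {Γ M : Type*} [Group Γ] [AddCommGroup M] [DistribMulAction Γ M] (A : Subgroup Γ) :
    AddSubgroup M where
  carrier := {m | ∀ a ∈ A, a • m = m}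
  zero_mem' := fun a _ => smul_zero a
  add_mem' := fun {x y} hx hy a ha => by rw [smul_add, hx a ha, hy a ha]
  neg_mem' := fun {x} hx a ha => by rw [smul_neg, hx a ha]

theorem sf_card_fix_pow {Γ M : Type*} [Group Γ] [AddCommGroup M] [Finite M]
    [DistribMulAction Γ M] (A : Subgroup Γ) (t : ℕ) (ht : Nat.card M = 2 ^ t) :
    ∃ v, Nat.card {m : M // ∀ a ∈ A, a • m = m} = 2 ^ v := by
  have h1 : Nat.card (sfFix (M := M) A) ∣ Nat.card M := AddSubgroup.card_addSubgroup_dvd_card _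
  rw [ht] at h1
  obtain ⟨v, -, hv⟩ := (Nat.dvd_prime_pow Nat.prime_two).mp h1
  exact ⟨v, hv⟩

theorem sf_card_pow_of_two {M : Type*} [AddCommGroup M] [Finite M] (h2 : ∀ m : M, 2 • m = 0) :
    ∃ t, Nat.card M = 2 ^ t := by
  have : Fact (Nat.Prime 2) := ⟨Nat.prime_two⟩
  have hp : IsPGroup 2 (Multiplicative M) := by
    intro x
    refine ⟨1, ?_⟩
    rw [pow_one]
    exact congrArg Multiplicative.ofAdd (h2 (Multiplicative.toAdd x))
  obtain ⟨t, ht⟩ := IsPGroup.iff_card.mp hp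
  exact ⟨t, ht⟩

theorem sf_ea2_pgroup {Γ : Type*} [Group Γ] (A : Subgroup Γ) (hA : EA2 A) : IsPGroup 2 A := by
  intro x
  refine ⟨1, ?_⟩
  apply Subtype.ext
  rw [pow_one, pow_two]
  exact hA.2 x.1 x.2

/-- MIND with the module step as a hypothesis -/
theorem sf_mind_aux {Γ M : Type*} [Group Γ] [Finite Γ] [AddCommGroup M] [Finite M]
    [DistribMulAction Γ M] (h2 : ∀ m : M, 2 • m = 0)
    (hstep : ∀ (B : Subgroup Γ), IsPGroup 2 B → ∀ (a g : Γ), (∀ b ∈ B, a * b = b * a) →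
      (∀ b ∈ B, g * b = b * g) → ∀ (r N : ℕ), r.Prime → r ≠ 2 →
      orderOf (a * g⁻¹ * a * g) = r → (∃ m : M, (a * g⁻¹ * a * g) • m ≠ m) →
      (∀ k : ℕ, 0 < k → k < N → ¬ r ∣ 2 ^ k - 1) →
      2 ^ N * Nat.card {m : M // (∀ b ∈ B, b • m = m) ∧ a • m = m} ^ 2 ≤
        Nat.card {m : M // ∀ b ∈ B, b • m = m} ^ 2)
    (hfaith : ∀ g : Γ, (∀ m : M, g • m = m) → g = 1)
    (hS3 : NoS3 Γ) (hgood : ∀ A : Subgroup Γ, EA2 A → A ≠ ⊥ → Good A) :
    ∀ (n : ℕ) (A : Subgroup Γ), Nat.card A = n → EA2 A →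
      Nat.card A ^ 2 * Nat.card {m : M // ∀ a ∈ A, a • m = m} ≤ Nat.card M := by
  have : Fact (Nat.Prime 2) := ⟨Nat.prime_two⟩
  intro n
  induction n using Nat.strong_induction_on with
  | _ n ih =>
  intro A hAn hA
  by_cases hbot : A = ⊥
  · subst hbot
    rw [Subgroup.card_bot, one_pow, one_mul]
    exact Nat.card_le_card_of_injective (fun m => m.1) Subtype.val_injective
  · obtain ⟨B, a, g, r, hBA, haA, hgB, hr, hr2, hy, hcard⟩ := hgood A hA hbot
    have haa : a * a = 1 := hA.2 a haA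
    have hainv : a⁻¹ = a := inv_eq_of_mul_eq_one_left haa
    have haB : ∀ b ∈ B, a * b = b * a := fun b hb => hA.1 a haA b (hBA hb)
    have hy1 : a * g⁻¹ * a * g ≠ 1 := by
      intro h
      rw [h, orderOf_one] at hy
      exact hr.ne_one hy.symm
    have haB' : a ∉ B := by
      intro hab
      apply hy1
      have h3 := hgB a hab
      calc a * g⁻¹ * a * g = a * g⁻¹ * (a * g) := by group
        _ = a * g⁻¹ * (g * a) := by rw [h3]
        _ = a * a := by group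
        _ = 1 := haa
    have hBlt : Nat.card B < Nat.card A := by
      refine lt_of_le_of_ne (Subgroup.card_le_of_le hBA) ?_
      intro h
      have h3 := Subgroup.eq_of_le_of_card_ge hBA (le_of_eq h.symm)
      exact haB' (h3 ▸ haA)
    have hBE : EA2 B :=
      ⟨fun x hx y hy => hA.1 x (hBA hx) y (hBA hy), fun x hx => hA.2 x (hBA hx)⟩
    have ihB := ih (Nat.card B) (hAn ▸ hBlt) B rfl hBE
    have hBp : IsPGroup 2 B := sf_ea2_pgroup B hBE
    have hnt : ∃ m : M, (a * g⁻¹ * a * g) • m ≠ m := by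
      by_contra hcon
      push Not at hcon
      exact hy1 (hfaith _ hcon)
    have key : ∃ N : ℕ, (∀ k : ℕ, 0 < k → k < N → ¬ r ∣ 2 ^ k - 1) ∧
        Nat.card A ^ 4 ≤ 2 ^ (N + 1) * Nat.card B ^ 4 := by
      rcases hcard with h | h
      · refine ⟨3, ?_, ?_⟩
        · intro k hk0 hk3
          have hr3 : r ≠ 3 := by
            intro h3
            apply hS3 a (a * g⁻¹ * a * g) haa (by rw [hy, h3])
            have e1 : a * (a * g⁻¹ * a * g) * a⁻¹ = (a * a) * g⁻¹ * a * g * a⁻¹ := by group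
            have e2 : (a * g⁻¹ * a * g)⁻¹ = g⁻¹ * a⁻¹ * g * a⁻¹ := by group
            rw [e1, e2, haa, one_mul, hainv]
          interval_cases k
          · intro hd
            have h5 := Nat.le_of_dvd (by norm_num) hd
            have h6 := hr.two_le
            omega
          · intro hd
            have h5 : r ∣ 3 := hd
            rcases (Nat.dvd_prime Nat.prime_three).mp h5 with h6 | h6
            · exact hr.ne_one h6
            · exact hr3 h6
        · rw [h]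
          have e : (2 * Nat.card B) ^ 4 = 2 ^ (3 + 1) * Nat.card B ^ 4 := by ring
          exact e.le
      · exact h
    obtain ⟨N, hprim, hA4⟩ := key
    have hms := hstep B hBp a g haB hgB r N hr hr2 hy hnt hprim
    have hFA : Nat.card {m : M // ∀ a' ∈ A, a' • m = m} ≤
        Nat.card {m : M // (∀ b ∈ B, b • m = m) ∧ a • m = m} := by
      apply Nat.card_le_card_of_injective
        (fun m : {m : M // ∀ a' ∈ A, a' • m = m} =>
          (⟨m.1, fun b hb => m.2 b (hBA hb), m.2 a haA⟩ :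
            {m : M // (∀ b ∈ B, b • m = m) ∧ a • m = m}))
      intro x y hxy
      exact Subtype.ext (congrArg (fun z : {m : M // (∀ b ∈ B, b • m = m) ∧ a • m = m} => z.1) hxy)
    obtain ⟨t, ht⟩ := sf_card_pow_of_two h2
    obtain ⟨v, hv⟩ := sf_card_fix_pow (M := M) A t ht
    obtain ⟨u, hu⟩ := IsPGroup.iff_card.mp (sf_ea2_pgroup A hA)
    obtain ⟨FBa, hFBa⟩ : ∃ x, x = Nat.card {m : M // (∀ b ∈ B, b • m = m) ∧ a • m = m} :=
      ⟨_, rfl⟩
    obtain ⟨FB, hFB⟩ : ∃ x, x = Nat.card {m : M // ∀ b ∈ B, b • m = m} := ⟨_, rfl⟩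
    obtain ⟨β, hβ⟩ : ∃ x, x = Nat.card B := ⟨_, rfl⟩
    rw [← hFBa, ← hFB] at hms
    rw [← hFBa, hv] at hFA
    rw [← hβ, ← hFB, ht] at ihB
    rw [← hβ, hu] at hA4
    rw [hu, hv, ht]
    have hsq : ((2 ^ u) ^ 2 * 2 ^ v) ^ 2 ≤ 2 * (2 ^ t) ^ 2 := by
      calc ((2 ^ u) ^ 2 * 2 ^ v) ^ 2 = (2 ^ u) ^ 4 * (2 ^ v) ^ 2 := by ring
        _ ≤ (2 ^ (N + 1) * β ^ 4) * FBa ^ 2 := Nat.mul_le_mul hA4 (Nat.pow_le_pow_left hFA 2)
        _ = 2 * β ^ 4 * (2 ^ N * FBa ^ 2) := by ring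
        _ ≤ 2 * β ^ 4 * FB ^ 2 := Nat.mul_le_mul_left _ hms
        _ = 2 * (β ^ 2 * FB) ^ 2 := by ring
        _ ≤ 2 * (2 ^ t) ^ 2 := Nat.mul_le_mul_left _ (Nat.pow_le_pow_left ihB 2)
    have e1 : ((2 ^ u) ^ 2 * 2 ^ v) ^ 2 = 2 ^ (2 * (2 * u + v)) := by
      rw [← pow_mul, ← pow_add, ← pow_mul]
      congr 1
      ring
    have e2 : 2 * (2 ^ t) ^ 2 = 2 ^ (2 * t + 1) := by
      rw [← pow_mul, pow_succ]
      ring
    rw [e1, e2] at hsq
    have h7 := (Nat.pow_le_pow_iff_right (by norm_num : 1 < 2)).mp hsq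
    have e3 : (2 ^ u) ^ 2 * 2 ^ v = 2 ^ (2 * u + v) := by
      rw [← pow_mul, ← pow_add]
      congr 1
      ring
    rw [e3]
    exact Nat.pow_le_pow_right (by norm_num) (by omega)

end Cfsg.Agent.Helper47
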