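import Mathlib
import Cfsg.Agent.Helper87.SFDefs
import Cfsg.Agent.Helper47.SFMINDAux
import Cfsg.Agent.Helper33.SFMSTEP

/-!
# S2752, piece MIND: the offender bound `|A|² |C_M(A)| ≤ |M|`.
-/

set_option autoImplicit false

namespace Cfsg.Agent.Helper47

open Cfsg.Agent.Helper87.SF

/-- MIND -/
theorem sf_mind {Γ M : Type*} [Group Γ] [Finite Γ] [AddCommGroup M] [Finite M]
    [DistribMulAction Γ M] (h2 : ∀ m : M, 2 • m = 0)
    (hfaith : ∀ g : Γ, (∀ m : M, g • m = m) → g = 1)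
    (hS3 : NoS3 Γ) (hgood : ∀ A : Subgroup Γ, EA2 A → A ≠ ⊥ → Good A)
    (A : Subgroup Γ) (hA : EA2 A) :
    Nat.card A ^ 2 * Nat.card {m : M // ∀ a ∈ A, a • m = m} ≤ Nat.card M :=
  sf_mind_aux h2 (fun B hB a g haB hgB r N hr hr2 hy hnt hprim =>
    Cfsg.Agent.Helper33.sf_mstep h2 B hB a g haB hgB r N hr hr2 hy hnt hprim)
    hfaith hS3 hgood _ A rfl hA

end Cfsg.Agent.Helper47
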