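import Mathlib
import Cfsg.Prelude.Def_GeometricClasses
import Cfsg.Agent.Helper97.UForm

/-!
# Preparations for the tensor (2 ⊗ 2) → subfield lemma for `SU_4(q)`
(piece TS of the CALL for S5784)
-/

set_option autoImplicit false

namespace Cfsg.Agent.Helper47

open Cfsg Cfsg.Geo Matrix Polynomial

/-- The fixed field of `x ↦ x ^ q` in the field with `q ^ 2` elements has `q` elements. -/
theorem ts_card_fixed {F : Type*} [Field F] [Fintype F] {q : ℕ} {σ : F ≃+* F}
    (h : Cfsg.Agent.Helper97.IsSigma q σ) (hF : Fintype.card F = q ^ 2) (F₀ : Subfield F)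
    (hF₀ : ∀ x, x ∈ F₀ ↔ σ x = x) : Nat.card F₀ = q := by
  classical
  have hq2 : 2 ≤ q := Cfsg.Agent.Helper97.two_le_of_card hF
  have hq1 : 1 < q := by omega
  apply le_antisymm
  · -- at most `q` roots of `X ^ q - X`
    have hP : (X ^ q - X : F[X]) ≠ 0 := FiniteField.X_pow_card_sub_X_ne_zero F hq1
    have hdeg := FiniteField.X_pow_card_sub_X_natDegree_eq F hq1
    have hsub : ∀ x : F₀, x.1 ∈ (X ^ q - X : F[X]).roots.toFinset := by
      intro x
      rw [Multiset.mem_toFinset, Polynomial.mem_roots hP]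
      have hx : x.1 ^ q = x.1 := by rw [← h.pow]; exact (hF₀ x.1).mp x.2
      simp [Polynomial.IsRoot, hx]
    calc Nat.card F₀
        ≤ Nat.card ((X ^ q - X : F[X]).roots.toFinset) :=
          Nat.card_le_card_of_injective (fun x => ⟨x.1, hsub x⟩)
            (fun x y hxy => Subtype.ext (by have h' := congrArg Subtype.val hxy; exact h'))
      _ = (X ^ q - X : F[X]).roots.toFinset.card := Nat.card_eq_finsetCard _
      _ ≤ Multiset.card (X ^ q - X : F[X]).roots := Multiset.toFinset_card_le _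
      _ ≤ (X ^ q - X : F[X]).natDegree := Polynomial.card_roots' _
      _ = q := hdeg
  · -- `q` explicit fixed elements
    obtain ⟨m, rfl⟩ : ∃ m, q = m + 1 := ⟨q - 1, by omega⟩
    obtain ⟨g, hg⟩ := IsCyclic.exists_ofOrder_eq_natCard (α := Fˣ)
    have hord : orderOf g = m * (m + 2) := by
      rw [hg, Nat.card_units, Nat.card_eq_fintype_card, hF]
      have : (m + 1) ^ 2 = m * (m + 2) + 1 := by ring
      rw [this, Nat.add_sub_cancel]
    have hgpow : (g : F) ^ (m * (m + 2)) = 1 := by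
      rw [← hord, ← Units.val_pow_eq_pow_val, pow_orderOf_eq_one, Units.val_one]
    have hfix : ∀ k : ℕ, σ ((g : F) ^ ((m + 2) * k)) = (g : F) ^ ((m + 2) * k) := by
      intro k
      rw [h.pow, ← pow_mul]
      have e1 : (m + 2) * k * (m + 1) = m * (m + 2) * k + (m + 2) * k := by ring
      rw [e1, pow_add, pow_mul, hgpow, one_pow, one_mul]
    let φ : Option (Fin m) → F₀ := fun o =>
      match o with
      | none => ⟨0, (hF₀ 0).mpr (map_zero σ)⟩
      | some k => ⟨(g : F) ^ ((m + 2) * (k : ℕ)), (hF₀ _).mpr (hfix k)⟩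
    have hφ : Function.Injective φ := by
      intro o o' hoo
      have hval := congrArg Subtype.val hoo
      match o, o' with
      | none, none => rfl
      | none, some k =>
        exfalso
        have h0 : (0 : F) = (g : F) ^ ((m + 2) * (k : ℕ)) := hval
        exact (pow_ne_zero _ g.ne_zero) h0.symm
      | some k, none =>
        exfalso
        have h0 : (g : F) ^ ((m + 2) * (k : ℕ)) = 0 := hval
        exact (pow_ne_zero _ g.ne_zero) h0
      | some k, some k' =>
        have h0 : (g : F) ^ ((m + 2) * (k : ℕ)) = (g : F) ^ ((m + 2) * (k' : ℕ)) := hval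
        have h1 : g ^ ((m + 2) * (k : ℕ)) = g ^ ((m + 2) * (k' : ℕ)) := by
          apply Units.ext
          rw [Units.val_pow_eq_pow_val, Units.val_pow_eq_pow_val]
          exact h0
        have hk : (m + 2) * (k : ℕ) < orderOf g := by
          rw [hord, mul_comm m]
          exact Nat.mul_lt_mul_of_pos_left k.2 (by omega)
        have hk' : (m + 2) * (k' : ℕ) < orderOf g := by
          rw [hord, mul_comm m]
          exact Nat.mul_lt_mul_of_pos_left k'.2 (by omega)
        have h2 := pow_injOn_Iio_orderOf (Set.mem_Iio.mpr hk) (Set.mem_Iio.mpr hk') h1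
        have h3 : (k : ℕ) = k' := Nat.eq_of_mul_eq_mul_left (by omega) h2
        rw [Fin.ext h3]
    have hle := Nat.card_le_card_of_injective φ hφ
    rw [Nat.card_eq_fintype_card, Fintype.card_option, Fintype.card_fin] at hle
    exact hle

/-- Hilbert 90 for the involution of the field with `q ^ 2` elements. -/
theorem ts_hilbert90 {F : Type*} [Field F] {q : ℕ} {σ : F ≃+* F}
    (h : Cfsg.Agent.Helper97.IsSigma q σ) (ρ : F) (hρ : σ ρ * ρ = 1) :
    ∃ c : F, c ≠ 0 ∧ σ c * ρ = c := by
  by_cases h1 : ρ = -1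
  · obtain ⟨c, hc0, hc⟩ := h.exists_trace_zero
    exact ⟨c, hc0, by rw [hc, h1]; ring⟩
  · refine ⟨1 + ρ, ?_, ?_⟩
    · intro h0
      apply h1
      linear_combination h0
    · rw [map_add, map_one]
      linear_combination hρ

/-- The matrix `J`. -/
def tsJ (F : Type*) [Field F] : Matrix (Fin 2) (Fin 2) F := !![0, 1; -1, 0]

theorem tsJ_conj {F : Type*} [Field F] (M : Matrix (Fin 2) (Fin 2) F) :
    Mᵀ * tsJ F * M = M.det • tsJ F := by
  ext i j
  fin_cases i <;> fin_cases j <;>
    simp [tsJ, Matrix.mul_apply, Fin.sum_univ_two, Matrix.det_fin_two] <;> ring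

theorem tsJ_mul_self {F : Type*} [Field F] : tsJ F * tsJ F = (-1 : F) • (1 : Matrix (Fin 2) (Fin 2) F) := by
  ext i j
  fin_cases i <;> fin_cases j <;>
    simp [tsJ, Matrix.mul_apply, Fin.sum_univ_two]

/-- The basis matrix `B`. -/
def tsB {F : Type*} [Field F] (σ : F ≃+* F) (ν ω : F) : Matrix (Fin 2) (Fin 2) F :=
  !![1, ω; -(σ ν), -(σ ν * σ ω)]

theorem tsB_map {F : Type*} [Field F] {q : ℕ} {σ : F ≃+* F}
    (h : Cfsg.Agent.Helper97.IsSigma q σ) (ν ω : F) (hν : ν * σ ν = -1) :
    (tsB σ ν ω).map σ = ν • (tsJ F * tsB σ ν ω) := by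
  ext i j
  fin_cases i <;> fin_cases j
  · show σ 1 = ν * (tsJ F * tsB σ ν ω) 0 0
    simp [tsJ, tsB, Matrix.mul_apply, Fin.sum_univ_two]
    linear_combination hν
  · show σ ω = ν * (tsJ F * tsB σ ν ω) 0 1
    simp [tsJ, tsB, Matrix.mul_apply, Fin.sum_univ_two]
    linear_combination (σ ω) * hν
  · show σ (-(σ ν)) = ν * (tsJ F * tsB σ ν ω) 1 0
    simp [tsJ, tsB, Matrix.mul_apply, Fin.sum_univ_two, h.inv]
  · show σ (-(σ ν * σ ω)) = ν * (tsJ F * tsB σ ν ω) 1 1
    simp [tsJ, tsB, Matrix.mul_apply, Fin.sum_univ_two, h.inv]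

theorem tsB_det {F : Type*} [Field F] (σ : F ≃+* F) (ν ω : F) :
    (tsB σ ν ω).det = σ ν * (ω - σ ω) := by
  rw [Matrix.det_fin_two]
  simp [tsB]
  ring

end Cfsg.Agent.Helper47
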