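import Mathlib
import Cfsg.Prelude.Def_GeometricClasses
import Cfsg.Agent.Helper97.UForm
import Cfsg.Agent.Helper97.SFBasic
import Cfsg.Agent.Helper98.Tensor2
import Cfsg.Agent.Helper67.HermGS
import Cfsg.Agent.Helper47.SU4TSa

/-!
# A tensor decomposition `2 ⊗ 2` of the unitary form in dimension four is a subfield structure
(piece TS of the CALL for S5784)
-/

set_option autoImplicit false

namespace Cfsg.Agent.Helper47

open Cfsg Cfsg.Geo Matrix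
open scoped Kronecker

theorem ts_kron_map {F : Type*} [Field F] (σ : F ≃+* F) (X Y : Matrix (Fin 2) (Fin 2) F) :
    (X ⊗ₖ Y).map σ = X.map σ ⊗ₖ Y.map σ := by
  ext ⟨i, j⟩ ⟨k, l⟩
  simp [Matrix.kroneckerMap_apply]

theorem ts_kron_transpose {F : Type*} [Field F] (X Y : Matrix (Fin 2) (Fin 2) F) :
    (X ⊗ₖ Y)ᵀ = Xᵀ ⊗ₖ Yᵀ :=
  (Matrix.kroneckerMap_transpose _ _ _).symm

theorem ts_kron_gram {F : Type*} [Field F] (σ : F ≃+* F) (C1 C2 A S : Matrix (Fin 2) (Fin 2) F) :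
    (C1 ⊗ₖ C2)ᵀ * (A ⊗ₖ S) * (C1 ⊗ₖ C2).map σ
      = (C1ᵀ * A * C1.map σ) ⊗ₖ (C2ᵀ * S * C2.map σ) := by
  rw [ts_kron_transpose, ts_kron_map, ← Matrix.mul_kronecker_mul, ← Matrix.mul_kronecker_mul]

theorem su4_tensor_subfield {F : Type*} [Field F] [Fintype F] {q : ℕ} {σ : F ≃+* F}
    (h : Cfsg.Agent.Helper97.IsSigma q σ) (hF : Fintype.card F = q ^ 2)
    (e : Fin 4 ≃ Fin 2 × Fin 2) (P : GL (Fin 4) F) (A S : Matrix (Fin 2) (Fin 2) F)
    (hA : Aᵀ = A.map σ) (hS : Sᵀ = S.map σ) (hAdet : A.det ≠ 0) (hSdet : S.det ≠ 0)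
    (hG : Matrix.reindexAlgEquiv F F e
      ((P : Matrix (Fin 4) (Fin 4) F)ᵀ * (P : Matrix (Fin 4) (Fin 4) F).map σ) = A ⊗ₖ S) :
    ∃ (F₀ : Subfield F) (P' : GL (Fin 4) F), Fintype.card F = Nat.card F₀ ^ 2 ∧
      IsFormRationalStructure (hermForm 4 F q) F₀ 1 P' ∧
      ((2 : F) = 0 → ∀ u : Fin 4 → F, (∀ i, u i ∈ F₀) →
        hermForm 4 F q ((P' : Matrix (Fin 4) (Fin 4) F) *ᵥ u)
          ((P' : Matrix (Fin 4) (Fin 4) F) *ᵥ u) = 0) ∧
      tensorProductSubgroup 2 2 e P ⊓ GU 4 F q ≤ subfieldSubgroup F₀ P' := by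
  classical
  obtain ⟨F₀, hF₀⟩ : ∃ F₀ : Subfield F,
      F₀ = RingHom.eqLocusField (σ : F →+* F) (RingHom.id F) := ⟨_, rfl⟩
  have hmem : ∀ a : F, a ∈ F₀ ↔ σ a = a := by
    intro a
    rw [hF₀, RingHom.mem_eqLocusField, RingHom.id_apply]
    rfl
  have hcardF₀ : Nat.card F₀ = q := ts_card_fixed h hF F₀ hmem
  obtain ⟨U1, hU1det, hU1⟩ := Cfsg.Agent.Helper67.herm_gram_schmidt q hF σ h.pow 2 A hA hAdet
  obtain ⟨U2, hU2det, hU2⟩ := Cfsg.Agent.Helper67.herm_gram_schmidt q hF σ h.pow 2 S hS hSdet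
  obtain ⟨ν, hν⟩ := h.exists_norm_eq hF (-1) (by rw [map_neg, map_one]) (by norm_num)
  obtain ⟨ω, hω⟩ := h.exists_ne
  have hν0 : σ ν ≠ 0 := by
    intro h0
    rw [h0, mul_zero] at hν
    have h1 : (1 : F) = 0 := by linear_combination hν
    exact one_ne_zero h1
  obtain ⟨B, hBdef⟩ : ∃ B, B = tsB σ ν ω := ⟨_, rfl⟩
  obtain ⟨J, hJdef⟩ : ∃ J, J = tsJ F := ⟨_, rfl⟩
  obtain ⟨η, hηdef⟩ : ∃ η, η = σ ω - ω := ⟨_, rfl⟩
  have hη0 : η ≠ 0 := by
    rw [hηdef]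
    exact sub_ne_zero.mpr hω
  have hBdet : B.det = σ ν * (ω - σ ω) := by rw [hBdef, tsB_det]
  have hBdet0 : B.det ≠ 0 := by
    rw [hBdet]
    exact mul_ne_zero hν0 (sub_ne_zero.mpr (Ne.symm hω))
  have hBσ : B.map σ = ν • (J * B) := by
    rw [hBdef, hJdef]
    exact tsB_map h ν ω hν
  have hBB : Bᵀ * B.map σ = η • J := by
    rw [hBσ, Matrix.mul_smul, ← mul_assoc, hJdef, tsJ_conj, smul_smul, hBdet, hηdef]
    congr 1
    linear_combination (ω - σ ω) * hν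
  obtain ⟨C1, hC1⟩ : ∃ C1, C1 = U1 * B := ⟨_, rfl⟩
  obtain ⟨C2, hC2⟩ : ∃ C2, C2 = U2 * B := ⟨_, rfl⟩
  have hC1det : IsUnit C1.det := by
    rw [hC1, Matrix.det_mul]
    exact (mul_ne_zero hU1det hBdet0).isUnit
  have hC2det : IsUnit C2.det := by
    rw [hC2, Matrix.det_mul]
    exact (mul_ne_zero hU2det hBdet0).isUnit
  have hC1g : C1ᵀ * A * C1.map σ = η • J := by
    rw [hC1, Matrix.transpose_mul, Matrix.map_mul]
    calc Bᵀ * U1ᵀ * A * (U1.map σ * B.map σ) = Bᵀ * (U1ᵀ * A * U1.map σ) * B.map σ := by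
          simp only [mul_assoc]
      _ = η • J := by rw [hU1, mul_one, hBB]
  have hC2g : C2ᵀ * S * C2.map σ = η • J := by
    rw [hC2, Matrix.transpose_mul, Matrix.map_mul]
    calc Bᵀ * U2ᵀ * S * (U2.map σ * B.map σ) = Bᵀ * (U2ᵀ * S * U2.map σ) * B.map σ := by
          simp only [mul_assoc]
      _ = η • J := by rw [hU2, mul_one, hBB]
  obtain ⟨Q, hQ⟩ : ∃ Q : Matrix (Fin 2 × Fin 2) (Fin 2 × Fin 2) F, Q = C1 ⊗ₖ C2 := ⟨_, rfl⟩
  obtain ⟨Qi, hQi⟩ : ∃ Qi : Matrix (Fin 2 × Fin 2) (Fin 2 × Fin 2) F, Qi = C1⁻¹ ⊗ₖ C2⁻¹ :=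
    ⟨_, rfl⟩
  have hQQi : Q * Qi = 1 := by
    rw [hQ, hQi, ← Matrix.mul_kronecker_mul, Matrix.mul_nonsing_inv _ hC1det,
      Matrix.mul_nonsing_inv _ hC2det, Matrix.one_kronecker_one]
  have hQiQ : Qi * Q = 1 := by
    rw [hQ, hQi, ← Matrix.mul_kronecker_mul, Matrix.nonsing_inv_mul _ hC1det,
      Matrix.nonsing_inv_mul _ hC2det, Matrix.one_kronecker_one]
  obtain ⟨N, hN⟩ : ∃ N : Matrix (Fin 2 × Fin 2) (Fin 2 × Fin 2) F, N = J ⊗ₖ J := ⟨_, rfl⟩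
  have hQg : Qᵀ * (A ⊗ₖ S) * Q.map σ = (η * η) • N := by
    rw [hQ, ts_kron_gram, hC1g, hC2g, Matrix.smul_kronecker, Matrix.kronecker_smul, smul_smul, hN]
  have hNN : N * N = 1 := by
    rw [hN, ← Matrix.mul_kronecker_mul, hJdef, tsJ_mul_self, Matrix.smul_kronecker,
      Matrix.kronecker_smul, smul_smul, Matrix.one_kronecker_one]
    norm_num
  -- reindexing
  obtain ⟨rx, hrx⟩ : ∃ rx : Matrix (Fin 2 × Fin 2) (Fin 2 × Fin 2) F → Matrix (Fin 4) (Fin 4) F,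
      ∀ Y, rx Y = Y.submatrix e e := ⟨_, fun _ => rfl⟩
  have rx_mul : ∀ Y Z, rx (Y * Z) = rx Y * rx Z := by
    intro Y Z
    rw [hrx, hrx, hrx]
    exact (Matrix.submatrix_mul_equiv Y Z e e e).symm
  have rx_one : rx 1 = 1 := by
    rw [hrx]
    exact Matrix.submatrix_one_equiv e
  have rx_tr : ∀ Y, rx Yᵀ = (rx Y)ᵀ := by
    intro Y
    rw [hrx, hrx, Matrix.transpose_submatrix]
  have rx_map : ∀ Y, rx (Y.map σ) = (rx Y).map σ := by
    intro Y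
    rw [hrx, hrx, Matrix.submatrix_map]
  have rx_apply : ∀ Y i j, rx Y i j = Y (e i) (e j) := by
    intro Y i j
    rw [hrx]
    rfl
  have rx_inj : ∀ Y Z, rx Y = rx Z → Y = Z := by
    intro Y Z hYZ
    ext x y
    have h1 := congrFun (congrFun hYZ (e.symm x)) (e.symm y)
    rw [rx_apply, rx_apply, Equiv.apply_symm_apply, Equiv.apply_symm_apply] at h1
    exact h1
  have hG' : (P : Matrix (Fin 4) (Fin 4) F)ᵀ * (P : Matrix (Fin 4) (Fin 4) F).map σ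
      = rx (A ⊗ₖ S) := by
    rw [← hG, hrx, Matrix.reindexAlgEquiv_apply, Matrix.reindex_apply, Matrix.submatrix_submatrix]
    simp
  obtain ⟨P', hP'⟩ : ∃ P' : GL (Fin 4) F,
      (P' : Matrix (Fin 4) (Fin 4) F) = (P : Matrix (Fin 4) (Fin 4) F) * rx Q := by
    refine ⟨⟨(P : Matrix (Fin 4) (Fin 4) F) * rx Q,
      rx Qi * ((P⁻¹ : GL (Fin 4) F) : Matrix (Fin 4) (Fin 4) F), ?_, ?_⟩, rfl⟩
    · calc (P : Matrix (Fin 4) (Fin 4) F) * rx Q *
            (rx Qi * ((P⁻¹ : GL (Fin 4) F) : Matrix (Fin 4) (Fin 4) F))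
          = (P : Matrix (Fin 4) (Fin 4) F) * (rx Q * rx Qi) *
            ((P⁻¹ : GL (Fin 4) F) : Matrix (Fin 4) (Fin 4) F) := by simp only [mul_assoc]
        _ = 1 := by
          rw [← rx_mul, hQQi, rx_one, mul_one, ← Units.val_mul, mul_inv_cancel, Units.val_one]
    · calc rx Qi * ((P⁻¹ : GL (Fin 4) F) : Matrix (Fin 4) (Fin 4) F) *
            ((P : Matrix (Fin 4) (Fin 4) F) * rx Q)
          = rx Qi * (((P⁻¹ : GL (Fin 4) F) : Matrix (Fin 4) (Fin 4) F) *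
            (P : Matrix (Fin 4) (Fin 4) F)) * rx Q := by simp only [mul_assoc]
        _ = 1 := by
          rw [← Units.val_mul, inv_mul_cancel, Units.val_one, mul_one, ← rx_mul, hQiQ, rx_one]
  have hGram : (P' : Matrix (Fin 4) (Fin 4) F)ᵀ * (P' : Matrix (Fin 4) (Fin 4) F).map σ
      = rx ((η * η) • N) := by
    rw [hP', Matrix.transpose_mul, Matrix.map_mul, ← rx_tr, ← rx_map, ← hQg, rx_mul, rx_mul,
      ← hG']
    simp only [mul_assoc]
  have hη2 : σ (η * η) = η * η := by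
    have hση : σ η = -η := by
      rw [hηdef, map_sub, h.inv]
      ring
    rw [map_mul, hση]
    ring
  have hJmem : ∀ a c : Fin 2, J a c ∈ F₀ := by
    intro a c
    rw [hJdef]
    fin_cases a <;> fin_cases c
    · show tsJ F 0 0 ∈ F₀
      simp [tsJ]
    · show tsJ F 0 1 ∈ F₀
      simp [tsJ]
    · show tsJ F 1 0 ∈ F₀
      simp [tsJ]
    · show tsJ F 1 1 ∈ F₀
      simp [tsJ]
  have hGmem : ∀ x y : Fin 2 × Fin 2, ((η * η) • N) x y ∈ F₀ := by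
    intro x y
    rw [Matrix.smul_apply, hN, Matrix.kroneckerMap_apply, smul_eq_mul]
    exact mul_mem ((hmem _).mpr hη2) (mul_mem (hJmem _ _) (hJmem _ _))
  have hform : ∀ u v : Fin 4 → F,
      hermForm 4 F q ((P' : Matrix (Fin 4) (Fin 4) F) *ᵥ u)
        ((P' : Matrix (Fin 4) (Fin 4) F) *ᵥ v)
      = ∑ i, ∑ j, u i * (((η * η) • N) (e i) (e j) * σ (v j)) := by
    intro u v
    rw [h.isSesq.apply_mulVec, h.gram_herm, mul_one, hGram]
    simp only [dotProduct, Matrix.mulVec, rx_apply, Finset.mul_sum]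
  refine ⟨F₀, P', by rw [hF, hcardF₀], ?_, ?_, ?_⟩
  · intro u v hu hv
    rw [one_mul, hform]
    refine sum_mem (fun i _ => sum_mem (fun j _ => ?_))
    have hσv : σ (v j) ∈ F₀ := by
      rw [(hmem _).mp (hv j)]
      exact hv j
    exact mul_mem (hu i) (mul_mem (hGmem _ _) hσv)
  · intro h2 u hu
    rw [hform]
    have hσu : ∀ j, σ (u j) = u j := fun j => (hmem _).mp (hu j)
    simp only [hσu]
    obtain ⟨w, hw⟩ : ∃ w : Fin 2 × Fin 2 → F, ∀ i, u i = w (e i) :=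
      ⟨fun x => u (e.symm x), fun i => by simp⟩
    simp only [hw]
    have e1 : ∑ i, ∑ j, w (e i) * (((η * η) • N) (e i) (e j) * w (e j))
        = ∑ x, ∑ y, w x * (((η * η) • N) x y * w y) := by
      rw [← Equiv.sum_comp e (fun x => ∑ y, w x * (((η * η) • N) x y * w y))]
      apply Finset.sum_congr rfl
      intro i _
      exact Equiv.sum_comp e (fun y => w (e i) * (((η * η) • N) (e i) y * w y))
    rw [e1, hN, hJdef]
    simp only [Fintype.sum_prod_type, Fin.sum_univ_two, Matrix.smul_apply,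
      Matrix.kroneckerMap_apply, smul_eq_mul, tsJ]
    simp
    linear_combination (η * η * (w (0, 0) * w (1, 1) - w (0, 1) * w (1, 0))) * h2
  · rintro g ⟨hgT, hgU⟩
    obtain ⟨a, b, hab⟩ := Cfsg.Agent.Helper98.mem_tensorProductSubgroup hgT
    rw [Cfsg.Agent.Helper98.conjReindex_apply] at hab
    obtain ⟨W, hW⟩ : ∃ W : Matrix (Fin 2 × Fin 2) (Fin 2 × Fin 2) F,
        W = (a : Matrix (Fin 2) (Fin 2) F) ⊗ₖ (b : Matrix (Fin 2) (Fin 2) F) := ⟨_, rfl⟩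
    have hab' : (g : Matrix (Fin 4) (Fin 4) F) = (P : Matrix (Fin 4) (Fin 4) F) * rx W *
        ((P⁻¹ : GL (Fin 4) F) : Matrix (Fin 4) (Fin 4) F) := by
      rw [hab, hrx, hW]
      rfl
    obtain ⟨M1, hM1⟩ : ∃ M1, M1 = C1⁻¹ * (a : Matrix (Fin 2) (Fin 2) F) * C1 := ⟨_, rfl⟩
    obtain ⟨M2, hM2⟩ : ∃ M2, M2 = C2⁻¹ * (b : Matrix (Fin 2) (Fin 2) F) * C2 := ⟨_, rfl⟩
    obtain ⟨M1i, hM1i⟩ : ∃ M1i,
        M1i = C1⁻¹ * ((a⁻¹ : GL (Fin 2) F) : Matrix (Fin 2) (Fin 2) F) * C1 := ⟨_, rfl⟩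
    obtain ⟨M2i, hM2i⟩ : ∃ M2i,
        M2i = C2⁻¹ * ((b⁻¹ : GL (Fin 2) F) : Matrix (Fin 2) (Fin 2) F) * C2 := ⟨_, rfl⟩
    have hM1M1i : M1 * M1i = 1 := by
      rw [hM1, hM1i]
      calc C1⁻¹ * (a : Matrix (Fin 2) (Fin 2) F) * C1 *
            (C1⁻¹ * ((a⁻¹ : GL (Fin 2) F) : Matrix (Fin 2) (Fin 2) F) * C1)
          = C1⁻¹ * ((a : Matrix (Fin 2) (Fin 2) F) * (C1 * C1⁻¹) *
            ((a⁻¹ : GL (Fin 2) F) : Matrix (Fin 2) (Fin 2) F)) * C1 := by simp only [mul_assoc]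
        _ = 1 := by
          rw [Matrix.mul_nonsing_inv _ hC1det, mul_one, ← Units.val_mul, mul_inv_cancel,
            Units.val_one, mul_one, Matrix.nonsing_inv_mul _ hC1det]
    have hM2M2i : M2 * M2i = 1 := by
      rw [hM2, hM2i]
      calc C2⁻¹ * (b : Matrix (Fin 2) (Fin 2) F) * C2 *
            (C2⁻¹ * ((b⁻¹ : GL (Fin 2) F) : Matrix (Fin 2) (Fin 2) F) * C2)
          = C2⁻¹ * ((b : Matrix (Fin 2) (Fin 2) F) * (C2 * C2⁻¹) *
            ((b⁻¹ : GL (Fin 2) F) : Matrix (Fin 2) (Fin 2) F)) * C2 := by simp only [mul_assoc]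
        _ = 1 := by
          rw [Matrix.mul_nonsing_inv _ hC2det, mul_one, ← Units.val_mul, mul_inv_cancel,
            Units.val_one, mul_one, Matrix.nonsing_inv_mul _ hC2det]
    obtain ⟨Y, hY⟩ : ∃ Y : Matrix (Fin 2 × Fin 2) (Fin 2 × Fin 2) F, Y = M1 ⊗ₖ M2 := ⟨_, rfl⟩
    obtain ⟨Yi, hYi⟩ : ∃ Yi : Matrix (Fin 2 × Fin 2) (Fin 2 × Fin 2) F, Yi = M1i ⊗ₖ M2i :=
      ⟨_, rfl⟩
    have hYYi : Y * Yi = 1 := by
      rw [hY, hYi, ← Matrix.mul_kronecker_mul, hM1M1i, hM2M2i, Matrix.one_kronecker_one]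
    have hWQ : W * Q = Q * Y := by
      rw [hW, hQ, hY, ← Matrix.mul_kronecker_mul, ← Matrix.mul_kronecker_mul, hM1, hM2]
      congr 1
      · rw [← mul_assoc, ← mul_assoc, Matrix.mul_nonsing_inv _ hC1det, one_mul]
      · rw [← mul_assoc, ← mul_assoc, Matrix.mul_nonsing_inv _ hC2det, one_mul]
    have hgP' : (g : Matrix (Fin 4) (Fin 4) F) * (P' : Matrix (Fin 4) (Fin 4) F)
        = (P' : Matrix (Fin 4) (Fin 4) F) * rx Y := by
      rw [hab', hP']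
      calc (P : Matrix (Fin 4) (Fin 4) F) * rx W *
            ((P⁻¹ : GL (Fin 4) F) : Matrix (Fin 4) (Fin 4) F) *
            ((P : Matrix (Fin 4) (Fin 4) F) * rx Q)
          = (P : Matrix (Fin 4) (Fin 4) F) * rx W *
            (((P⁻¹ : GL (Fin 4) F) : Matrix (Fin 4) (Fin 4) F) *
              (P : Matrix (Fin 4) (Fin 4) F)) * rx Q := by simp only [mul_assoc]
        _ = (P : Matrix (Fin 4) (Fin 4) F) * rx Q * rx Y := by
          rw [← Units.val_mul, inv_mul_cancel, Units.val_one, mul_one, mul_assoc, ← rx_mul, hWQ,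
            rx_mul, mul_assoc]
    have hU := h.GU_matrix g hgU
    have hkey : (rx Y)ᵀ * rx ((η * η) • N) * (rx Y).map σ = rx ((η * η) • N) := by
      rw [← hGram]
      calc (rx Y)ᵀ * ((P' : Matrix (Fin 4) (Fin 4) F)ᵀ *
              (P' : Matrix (Fin 4) (Fin 4) F).map σ) * (rx Y).map σ
          = ((P' : Matrix (Fin 4) (Fin 4) F) * rx Y)ᵀ *
              ((P' : Matrix (Fin 4) (Fin 4) F) * rx Y).map σ := by
            rw [Matrix.transpose_mul, Matrix.map_mul]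
            simp only [mul_assoc]
        _ = ((g : Matrix (Fin 4) (Fin 4) F) * (P' : Matrix (Fin 4) (Fin 4) F))ᵀ *
              ((g : Matrix (Fin 4) (Fin 4) F) * (P' : Matrix (Fin 4) (Fin 4) F)).map σ := by
            rw [hgP']
        _ = (P' : Matrix (Fin 4) (Fin 4) F)ᵀ * ((g : Matrix (Fin 4) (Fin 4) F)ᵀ *
              (g : Matrix (Fin 4) (Fin 4) F).map σ) * (P' : Matrix (Fin 4) (Fin 4) F).map σ := by
            rw [Matrix.transpose_mul, Matrix.map_mul]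
            simp only [mul_assoc]
        _ = (P' : Matrix (Fin 4) (Fin 4) F)ᵀ * (P' : Matrix (Fin 4) (Fin 4) F).map σ := by
            rw [hU, mul_one]
    have hkey2 : Yᵀ * N * Y.map σ = N := by
      have h1 : rx (Yᵀ * ((η * η) • N) * Y.map σ) = rx ((η * η) • N) := by
        rw [rx_mul, rx_mul, rx_tr, rx_map]
        exact hkey
      have h2 := rx_inj _ _ h1
      rw [Matrix.mul_smul, Matrix.smul_mul] at h2
      exact smul_right_injective _ (mul_ne_zero hη0 hη0) h2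
    obtain ⟨δ, hδ⟩ : ∃ δ, δ = M1.det * M2.det := ⟨_, rfl⟩
    have hδ0 : δ ≠ 0 := by
      rw [hδ]
      exact mul_ne_zero (Matrix.det_ne_zero_of_right_inverse hM1M1i)
        (Matrix.det_ne_zero_of_right_inverse hM2M2i)
    have hYNY : Yᵀ * N * Y = δ • N := by
      rw [hY, hN, ts_kron_transpose, ← Matrix.mul_kronecker_mul, ← Matrix.mul_kronecker_mul,
        hJdef, tsJ_conj, tsJ_conj, Matrix.smul_kronecker, Matrix.kronecker_smul, smul_smul, hδ]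
    have hσY : Y.map σ = δ⁻¹ • Y := by
      have e2 : Yᵀ * N * (δ⁻¹ • Y) = N := by
        rw [Matrix.mul_smul, hYNY, smul_smul, inv_mul_cancel₀ hδ0, one_smul]
      have hL : N * Yiᵀ * (Yᵀ * N) = 1 := by
        calc N * Yiᵀ * (Yᵀ * N) = N * (Yiᵀ * Yᵀ) * N := by simp only [mul_assoc]
          _ = 1 := by rw [← Matrix.transpose_mul, hYYi, Matrix.transpose_one, mul_one, hNN]
      calc Y.map σ = N * Yiᵀ * (Yᵀ * N) * Y.map σ := by rw [hL, one_mul]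
        _ = N * Yiᵀ * (Yᵀ * N * Y.map σ) := by simp only [mul_assoc]
        _ = N * Yiᵀ * (Yᵀ * N * (δ⁻¹ • Y)) := by rw [hkey2, e2]
        _ = N * Yiᵀ * (Yᵀ * N) * (δ⁻¹ • Y) := by simp only [mul_assoc]
        _ = δ⁻¹ • Y := by rw [hL, one_mul]
    have hent : ∀ x y, σ (Y x y) = δ⁻¹ * Y x y := by
      intro x y
      have h1 := congrFun (congrFun hσY x) y
      rw [Matrix.map_apply, Matrix.smul_apply, smul_eq_mul] at h1
      exact h1
    have hρ : σ δ⁻¹ * δ⁻¹ = 1 := by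
      have h2 : Y = (σ δ⁻¹ * δ⁻¹) • Y := by
        ext x y
        rw [Matrix.smul_apply, smul_eq_mul, mul_assoc, ← hent, ← map_mul, ← hent, h.inv]
      have h3 : (1 : Matrix (Fin 2 × Fin 2) (Fin 2 × Fin 2) F) = (σ δ⁻¹ * δ⁻¹) • 1 := by
        rw [← hYYi]
        conv_lhs => rw [h2]
        rw [Matrix.smul_mul]
      have h4 := congrFun (congrFun h3 (0, 0)) (0, 0)
      rw [Matrix.smul_apply, Matrix.one_apply_eq, smul_eq_mul, mul_one] at h4
      exact h4.symm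
    obtain ⟨c, hc0, hc⟩ := ts_hilbert90 h δ⁻¹ hρ
    have hyval : (((P'⁻¹ * g * P' : GL (Fin 4) F)) : Matrix (Fin 4) (Fin 4) F) = rx Y := by
      rw [Units.val_mul, Units.val_mul, mul_assoc, hgP', ← mul_assoc, ← Units.val_mul,
        inv_mul_cancel, Units.val_one, one_mul]
    have hy1 : P'⁻¹ * g * P' ∈ subfieldSubgroup F₀ (1 : GL (Fin 4) F) := by
      rw [Cfsg.Agent.Helper97.SF.mem_subfieldSubgroup_one]
      refine ⟨c, hc0, ?_⟩
      intro i j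
      rw [hyval, Matrix.smul_apply, rx_apply, smul_eq_mul, hmem, map_mul, hent, ← mul_assoc, hc]
    rw [subfieldSubgroup, Subgroup.mem_map] at hy1 ⊢
    obtain ⟨y', hy', hy'eq⟩ := hy1
    have hy'' : y' = P'⁻¹ * g * P' := by simpa using hy'eq
    refine ⟨P'⁻¹ * g * P', hy'' ▸ hy', ?_⟩
    simp [MulAut.conj_apply, mul_assoc]

end Cfsg.Agent.Helper47
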