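import Mathlib
import Cfsg.Agent.Helper95.SpBNDefs

/-!
# S2545, piece BIFF: the Borel subgroup of `Sp_2m(F)` is the set of `rk`-upper triangular
symplectic matrices.
-/

set_option autoImplicit false

namespace Cfsg.Agent.Helper47.SpBN

open Matrix Cfsg.Agent.Helper13 Cfsg.Agent.Helper95.SpBN

variable {F : Type*} [Field F] {m : ℕ}

/-- PIECE BIFF -/
theorem p_BIFF (g : symplecticGroup (Fin m) F) : g ∈ spB m F ↔ IsUp g.1 := by
  constructor
  · intro hg
    have hg' : g⁻¹ ∈ spB m F := Subgroup.inv_mem _ hg
    unfold spB at hg hg'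
    rw [sp_borel_iff] at hg hg'
    obtain ⟨hC, hA⟩ := hg
    obtain ⟨-, hA'⟩ := hg'
    intro a b hab
    rcases a with i | i <;> rcases b with j | j
    · rw [rk_inl, rk_inl] at hab
      exact hA i j (Fin.lt_def.mpr hab)
    · have := i.2; have := j.2
      rw [rk_inl, rk_inr] at hab
      omega
    · have h1 := congrFun (congrFun hC i) j
      exact h1
    · have := i.2; have := j.2
      rw [rk_inr, rk_inr] at hab
      have hij : i < j := Fin.lt_def.mpr (by omega)
      have h1 := hA' j i hij
      have h2 : (g⁻¹).1 (Sum.inl j) (Sum.inl i) = 0 := h1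
      rw [sp_inv_apply, tauP_inl, tauP_inl] at h2
      rcases mul_eq_zero.mp h2 with h3 | h3
      · rcases mul_eq_zero.mp h3 with h4 | h4
        · exact absurd h4 (sgnJ_ne_zero _)
        · exact absurd h4 (sgnJ_ne_zero _)
      · exact h3
  · intro h
    unfold spB
    rw [sp_borel_iff]
    constructor
    · ext i j
      have := i.2; have := j.2
      exact h (Sum.inr i) (Sum.inl j) (by rw [rk_inl, rk_inr]; omega)
    · intro i j hij
      exact h (Sum.inl i) (Sum.inl j) (by rw [rk_inl, rk_inl]; exact Fin.lt_def.mp hij)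

end Cfsg.Agent.Helper47.SpBN
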