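import Mathlib
import Cfsg.Agent.Helper95.SpBNDefs

/-!
# S2545, piece SWAPUP: conjugating an upper triangular symplectic matrix with vanishing
`(ra j, rb j)` entry by the `j`-th simple reflection pattern keeps it upper triangular.
-/

set_option autoImplicit false

namespace Cfsg.Agent.Helper47.SpBN

open Matrix Cfsg.Agent.Helper13 Cfsg.Agent.Helper95.SpBN

variable {F : Type*} [Field F] {m : ℕ}

/-- ranks under a transposition -/
theorem rk_swap_cases (a b x : Fin m ⊕ Fin m) :
    (rk x = rk a ∧ rk (Equiv.swap a b x) = rk b) ∨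
    (rk x = rk b ∧ rk (Equiv.swap a b x) = rk a) ∨
    (rk x ≠ rk a ∧ rk x ≠ rk b ∧ rk (Equiv.swap a b x) = rk x) := by
  by_cases h1 : x = a
  · subst h1
    left
    exact ⟨rfl, by rw [Equiv.swap_apply_left]⟩
  · by_cases h2 : x = b
    · subst h2
      right; left
      exact ⟨rfl, by rw [Equiv.swap_apply_right]⟩
    · right; right
      refine ⟨fun h => h1 (rk_injective h), fun h => h2 (rk_injective h), ?_⟩
      rw [Equiv.swap_apply_of_ne_of_ne h1 h2]

theorem rk_ra (j : Fin m) : rk (ra j) = (j : ℕ) := rfl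

theorem rk_rb (j : Fin m) : rk (rb j) = (j : ℕ) + 1 := by
  have := j.2
  unfold rb
  split_ifs with hj
  · rw [rk_inl]
  · rw [rk_inr]; omega

/-- the entry at `(τ rb, τ ra)` vanishes -/
theorem swapup_aux (g : symplecticGroup (Fin m) F) (h : IsUp g.1) (j : Fin m)
    (hd : g.1 (ra j) (ra j) ≠ 0) (h0 : g.1 (ra j) (rb j) = 0) :
    g.1 (tauP m (rb j)) (tauP m (ra j)) = 0 := by
  have hi := isUp_inv g h
  have hne : ra j ≠ rb j := by
    intro he
    have := congrArg rk he
    rw [rk_ra, rk_rb] at this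
    omega
  have h1 : (g * g⁻¹).1 (ra j) (rb j) = 0 := by
    rw [mul_inv_cancel]
    exact Matrix.one_apply_ne hne
  have h2 : (g * g⁻¹).1 = g.1 * (g⁻¹).1 := rfl
  rw [h2, Matrix.mul_apply, Finset.sum_eq_single (ra j)] at h1
  · have h3 : (g⁻¹).1 (ra j) (rb j) = 0 := by
      rcases mul_eq_zero.mp h1 with h4 | h4
      · exact absurd h4 hd
      · exact h4
    rw [sp_inv_apply] at h3
    rcases mul_eq_zero.mp h3 with h4 | h4
    · rcases mul_eq_zero.mp h4 with h5 | h5
      · exact absurd h5 (sgnJ_ne_zero _)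
      · exact absurd h5 (sgnJ_ne_zero _)
    · exact h4
  · intro k _ hk
    have hk' : rk k ≠ rk (ra j) := fun he => hk (rk_injective he)
    by_cases hk1 : rk k < rk (ra j)
    · rw [h _ _ hk1, zero_mul]
    · by_cases hk2 : rk k = rk (rb j)
      · rw [rk_injective hk2, h0, zero_mul]
      · have hk3 : rk (rb j) < rk k := by
          rw [rk_ra] at hk' hk1
          rw [rk_rb] at hk2 ⊢
          omega
        rw [hi _ _ hk3, mul_zero]
  · intro hh; exact absurd (Finset.mem_univ _) hh

/-- PIECE SWAPUP -/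
theorem p_SWAPUP (g : symplecticGroup (Fin m) F) (h : IsUp g.1) (j : Fin m)
    (hd : g.1 (ra j) (ra j) ≠ 0) (h0 : g.1 (ra j) (rb j) = 0) :
    ∀ x y, rk y < rk x → g.1 (sigP j x) (sigP j y) = 0 := by
  intro x y hxy
  have hjm := j.2
  have hra := rk_ra j
  have hrb := rk_rb j
  have hτa : rk (tauP m (ra j)) = 2 * m - 1 - (j : ℕ) := by rw [rk_tauP, hra]
  have hτb : rk (tauP m (rb j)) = 2 * m - 1 - ((j : ℕ) + 1) := by rw [rk_tauP, hrb]
  have hx2 := rk_lt x
  have hy2 := rk_lt y
  by_cases hj : (j : ℕ) + 1 < m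
  · -- short case
    have hσ : ∀ z, sigP j z =
        Equiv.swap (ra j) (rb j) (Equiv.swap (tauP m (ra j)) (tauP m (rb j)) z) := by
      intro z
      unfold sigP
      rw [if_pos hj]
      rfl
    have key : rk (sigP j y) < rk (sigP j x) ∨
        (rk (sigP j x) = rk (ra j) ∧ rk (sigP j y) = rk (rb j)) ∨
        (rk (sigP j x) = rk (tauP m (rb j)) ∧ rk (sigP j y) = rk (tauP m (ra j))) := by
      rw [hσ x, hσ y]
      have hx1 := rk_swap_cases (tauP m (ra j)) (tauP m (rb j)) x
      have hy1 := rk_swap_cases (tauP m (ra j)) (tauP m (rb j)) y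
      have hx3 := rk_swap_cases (ra j) (rb j)
        (Equiv.swap (tauP m (ra j)) (tauP m (rb j)) x)
      have hy3 := rk_swap_cases (ra j) (rb j)
        (Equiv.swap (tauP m (ra j)) (tauP m (rb j)) y)
      rw [hτa, hτb] at hx1 hy1 ⊢
      rw [hra, hrb] at hx3 hy3 ⊢
      omega
    rcases key with k1 | ⟨k1, k2⟩ | ⟨k1, k2⟩
    · exact h _ _ k1
    · rw [rk_injective k1, rk_injective k2]; exact h0
    · rw [rk_injective k1, rk_injective k2]; exact swapup_aux g h j hd h0
  · -- long case
    have hσ : ∀ z, sigP j z = Equiv.swap (ra j) (rb j) z := by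
      intro z
      unfold sigP
      rw [if_neg hj]
    have key : rk (sigP j y) < rk (sigP j x) ∨
        (rk (sigP j x) = rk (ra j) ∧ rk (sigP j y) = rk (rb j)) := by
      rw [hσ x, hσ y]
      have hx3 := rk_swap_cases (ra j) (rb j) x
      have hy3 := rk_swap_cases (ra j) (rb j) y
      rw [hra, hrb] at hx3 hy3 ⊢
      omega
    rcases key with k1 | ⟨k1, k2⟩
    · exact h _ _ k1
    · rw [rk_injective k1, rk_injective k2]; exact h0

end Cfsg.Agent.Helper47.SpBN
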