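import Mathlib
import Cfsg.Agent.Helper13.TLDefs
import Cfsg.Agent.Helper20.TLUXFER

/-!
# CALL S5954, piece UXFERSUB (helper47)

A nondegenerate subspace of a Hermitian space over a finite field is isometric to the standard
Hermitian space of its dimension (UXFER on the restricted form).
-/

set_option autoImplicit false

namespace Cfsg.Agent.Helper47.TI5954

open Module Polynomial
open Cfsg.Agent.Helper13.TIu Cfsg.Agent.Helper13.TIsp
open Cfsg.Agent.Helper20.TI5954

section geom2

variable {F : Type*} [Field F] {σ : F →+* F} {V : Type*} [AddCommGroup V] [Module F V]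
  [FiniteDimensional F V] (B : V →ₛₗ[σ] V →ₗ[F] F)

/-- UXFERSUB (uses UXFER on the restricted form `B.domRestrict₁₂ U U`). -/
theorem u_xfer_sub [Finite F] (hσ2 : ∀ a, σ (σ a) = a) (hσne : σ ≠ RingHom.id F) (hS : B.IsSymm)
    (U : Submodule F V) (hU : UNd B U) :
    ∃ Φ : U ≃ₗ[F] (Fin (finrank F U) → F),
      ∀ u v : U, stdH σ (finrank F U) (Φ u) (Φ v) = B (u : V) (v : V) := by
  have hnd : UNd (B.domRestrict₁₂ U U) ⊤ := by
    intro v _ hv
    apply Subtype.ext
    apply hU v.1 v.2
    intro w hw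
    have := hv ⟨w, hw⟩ Submodule.mem_top
    rwa [LinearMap.domRestrict₁₂_apply] at this
  obtain ⟨Φ, hΦ⟩ := u_xfer (B.domRestrict₁₂ U U) hσ2 hσne (hS.domRestrict U) hnd (finrank F U) rfl
  refine ⟨Φ, fun u v => ?_⟩
  rw [hΦ, LinearMap.domRestrict₁₂_apply]

end geom2

end Cfsg.Agent.Helper47.TI5954
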