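import Mathlib
import Cfsg.Agent.Helper97.TMDefs

/-!
# S2415, piece DIAG: a diagonal torus element of the Levi subgroup `SL_k`.
-/

set_option autoImplicit false

universe u

namespace Cfsg.Agent.Helper47

open Cfsg Matrix Cfsg.Agent.Helper45 Cfsg.Agent.Helper98 Cfsg.Agent.Helper97.TM

section minus

variable {k : ℕ} {F : Type u} [Field F] {a b : F}

/-- DIAG -/
theorem tm_diag (a b : F) (i0 i1 i2 : Fin k) (h01 : i0 ≠ i1) (h02 : i0 ≠ i2) (h12 : i1 ≠ i2)
    (t : F) (ht : t ≠ 0) :
    ∃ A : Matrix.SpecialLinearGroup (Fin k) F,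
      mv ⇑(QM k F a b) (iotaM k F a b A) (eM k F i2) = t • eM k F i2 ∧
      mv ⇑(QM k F a b) (iotaM k F a b A) (fM k F i2) = t⁻¹ • fM k F i2 ∧
      mv ⇑(QM k F a b) (iotaM k F a b A) (eM k F i0) = eM k F i0 ∧
      mv ⇑(QM k F a b) (iotaM k F a b A) (fM k F i0) = fM k F i0 := by
  classical
  have hprod : ∀ s : F, s ≠ 0 →
      (Matrix.diagonal (fun i : Fin k => if i = i2 then s else if i = i1 then s⁻¹ else 1)).det
        = 1 := by
    intro s hs
    rw [Matrix.det_diagonal]
    have h1 : ∀ i : Fin k, (if i = i2 then s else if i = i1 then s⁻¹ else 1)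
        = (if i = i2 then s else 1) * (if i = i1 then s⁻¹ else 1) := by
      intro i
      by_cases hi2 : i = i2
      · have hi1 : i ≠ i1 := fun h => h12 (h.symm.trans hi2)
        rw [if_pos hi2, if_pos hi2, if_neg hi1, mul_one]
      · rw [if_neg hi2, if_neg hi2, one_mul]
    rw [Finset.prod_congr rfl (fun i _ => h1 i), Finset.prod_mul_distrib,
      Finset.prod_ite_eq', Finset.prod_ite_eq', if_pos (Finset.mem_univ _),
      if_pos (Finset.mem_univ _)]
    exact mul_inv_cancel₀ hs
  obtain ⟨d, hd⟩ : ∃ d : Fin k → F, d = fun i => if i = i2 then t else if i = i1 then t⁻¹ else 1 :=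
    ⟨_, rfl⟩
  obtain ⟨d', hd'⟩ : ∃ d' : Fin k → F,
      d' = fun i => if i = i2 then t⁻¹ else if i = i1 then t⁻¹⁻¹ else 1 := ⟨_, rfl⟩
  have hdet : (Matrix.diagonal d).det = 1 := by rw [hd]; exact hprod t ht
  have hdet' : (Matrix.diagonal d').det = 1 := by rw [hd']; exact hprod t⁻¹ (inv_ne_zero ht)
  have hdd : ∀ i, d i * d' i = 1 := by
    intro i
    rw [hd, hd']
    by_cases hi2 : i = i2
    · simp only [if_pos hi2]; exact mul_inv_cancel₀ ht
    · by_cases hi1 : i = i1
      · simp only [if_neg hi2, if_pos hi1]; exact mul_inv_cancel₀ (inv_ne_zero ht)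
      · simp only [if_neg hi2, if_neg hi1]; exact mul_one 1
  obtain ⟨A, hA⟩ : ∃ A : Matrix.SpecialLinearGroup (Fin k) F,
      (A : Matrix (Fin k) (Fin k) F) = Matrix.diagonal d := ⟨⟨_, hdet⟩, rfl⟩
  obtain ⟨B, hB⟩ : ∃ B : Matrix.SpecialLinearGroup (Fin k) F,
      (B : Matrix (Fin k) (Fin k) F) = Matrix.diagonal d' := ⟨⟨_, hdet'⟩, rfl⟩
  have hAB : A⁻¹ = B := by
    apply inv_eq_of_mul_eq_one_right
    apply Subtype.ext
    rw [Matrix.SpecialLinearGroup.coe_mul, hA, hB, Matrix.diagonal_mul_diagonal]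
    have h2 : (fun i => d i * d' i) = fun _ => (1 : F) := funext hdd
    rw [h2, Matrix.diagonal_one]
    rfl
  have hd2 : d i2 = t := by rw [hd]; simp
  have hd2' : d' i2 = t⁻¹ := by rw [hd']; simp
  have hd0 : d i0 = 1 := by rw [hd]; simp [h02, h01]
  have hd0' : d' i0 = 1 := by rw [hd']; simp [h02, h01]
  refine ⟨A, ?_, ?_, ?_, ?_⟩
  · rw [mv_iotaM, hAB, hA, hB]
    funext idx
    rcases idx with (j | j) | j
    · by_cases hj : j = i2
      · subst hj
        simp [Matrix.mulVec_diagonal, hd2]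
      · simp [Matrix.mulVec_diagonal, hj]
    · simp [Matrix.diagonal_transpose, Matrix.mulVec_diagonal]
    · simp
  · rw [mv_iotaM, hAB, hA, hB]
    funext idx
    rcases idx with (j | j) | j
    · simp [Matrix.mulVec_diagonal]
    · by_cases hj : j = i2
      · subst hj
        simp [Matrix.diagonal_transpose, Matrix.mulVec_diagonal, hd2']
      · simp [Matrix.diagonal_transpose, Matrix.mulVec_diagonal, hj]
    · simp
  · rw [mv_iotaM, hAB, hA, hB]
    funext idx
    rcases idx with (j | j) | j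
    · by_cases hj : j = i0
      · subst hj
        simp [Matrix.mulVec_diagonal, hd0]
      · simp [Matrix.mulVec_diagonal, hj]
    · simp [Matrix.diagonal_transpose, Matrix.mulVec_diagonal]
    · simp
  · rw [mv_iotaM, hAB, hA, hB]
    funext idx
    rcases idx with (j | j) | j
    · simp [Matrix.mulVec_diagonal]
    · by_cases hj : j = i0
      · subst hj
        simp [Matrix.diagonal_transpose, Matrix.mulVec_diagonal, hd0']
      · simp [Matrix.diagonal_transpose, Matrix.mulVec_diagonal, hj]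
    · simp

end minus

end Cfsg.Agent.Helper47
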