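import Mathlib
import Cfsg.Agent.Helper97.TNDefs

/-!
# Helper47: PIECE ROOT of CALL S2413 (helper97).
-/

set_option autoImplicit false

universe u

namespace Cfsg.Agent.Helper47

open Cfsg Matrix Cfsg.Agent.Helper45 Cfsg.Agent.Helper98 Cfsg.Agent.Helper97.TM
  Cfsg.Agent.Helper97.TN

section generic

variable {ι : Type} [Fintype ι] [DecidableEq ι] {F : Type u} [Field F]
  (Q : QuadraticForm F (ι → F))

/-- ROOT -/
theorem tn_root_full [Fintype F] (hsq : ∀ c : F, ∃ x y : F, c = x ^ 2 + y ^ 2)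
    (M : Subgroup ↥(isometryGroup F ⇑Q)) (u y : ι → F) (hu : Q u = 0)
    (huy : QuadraticMap.polar ⇑Q u y = 0) (δ : ↥(isometryGroup F ⇑Q)) (hδ : δ ∈ M)
    (k : Fˣ) (hk : ∀ x : Fˣ, x ∈ Subgroup.zpowers k)
    (hδu : mv ⇑Q δ u = ((k : F) ^ 2) • u) (hδy : mv ⇑Q δ y = y)
    (h1 : eichO Q u y hu huy ∈ M) : y ∈ tD Q M u hu := by
  classical
  have hp : ∀ c : F, QuadraticMap.polar ⇑Q u (c • y) = 0 := fun c => by
    rw [QuadraticMap.polar_smul_right, huy, smul_zero]
  -- the predicate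
  have hP1 : eichO Q u ((1 : F) • y) hu (hp 1) ∈ M := by
    rw [eichO_congr Q hu (hp 1) huy (one_smul F y)]
    exact h1
  have hP0 : eichO Q u ((0 : F) • y) hu (hp 0) ∈ M := by
    have h0 : QuadraticMap.polar ⇑Q u 0 = 0 := QuadraticMap.polar_zero_right _ _
    rw [eichO_congr Q hu (hp 0) h0 (zero_smul F y), eichO_zero Q u hu h0]
    exact M.one_mem
  have hPadd : ∀ a b : F, eichO Q u (a • y) hu (hp a) ∈ M → eichO Q u (b • y) hu (hp b) ∈ M →
      eichO Q u ((a + b) • y) hu (hp (a + b)) ∈ M := by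
    intro a b ha hb
    have h3 : QuadraticMap.polar ⇑Q u (a • y + b • y) = 0 := by
      rw [QuadraticMap.polar_add_right, hp a, hp b, add_zero]
    have e := eichO_mul Q u (a • y) (b • y) hu (hp a) (hp b) h3
    rw [eichO_congr Q hu (hp (a + b)) h3 (add_smul a b y), ← e]
    exact M.mul_mem ha hb
  have hPk : ∀ c : F, eichO Q u (c • y) hu (hp c) ∈ M →
      eichO Q u (((k : F) ^ 2 * c) • y) hu (hp _) ∈ M := by
    intro c hc
    have key : ∀ (u' b' : ι → F) (hu' : Q u' = 0) (hub' : QuadraticMap.polar ⇑Q u' b' = 0),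
        u' = ((k : F) ^ 2) • u → b' = c • y →
        eichO Q u' b' hu' hub' = eichO Q u (((k : F) ^ 2 * c) • y) hu (hp _) := by
      intro u' b' hu' hub' e1 e2
      subst e1 e2
      have h4 : QuadraticMap.polar ⇑Q u (((k : F) ^ 2) • (c • y)) = 0 := by
        rw [QuadraticMap.polar_smul_right, hp c, smul_zero]
      rw [eichO_smul_left Q ((k : F) ^ 2) u (c • y) hu hu' hub' h4]
      exact eichO_congr Q hu h4 (hp _) (smul_smul _ _ _)
    have hu' : Q (mv ⇑Q δ u) = 0 := by rw [mv_quad ⇑Q δ u, hu]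
    have hub' : QuadraticMap.polar ⇑Q (mv ⇑Q δ u) (mv ⇑Q δ (c • y)) = 0 := by
      rw [mv_polar, hp c]
    have e := conj_eichO Q δ u (c • y) hu (hp c) hu' hub'
    rw [key _ _ hu' hub' hδu (by rw [mv_smul, hδy])] at e
    rw [← e]
    exact M.mul_mem (M.mul_mem hδ hc) (M.inv_mem hδ)
  have hPpow : ∀ j : ℕ, eichO Q u ((((k : F) ^ 2) ^ j) • y) hu (hp _) ∈ M := by
    intro j
    induction j with
    | zero =>
      rw [eichO_congr Q hu (hp _) (hp 1) (by rw [pow_zero])]
      exact hP1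
    | succ j ih =>
      have h := hPk _ ih
      rw [eichO_congr Q hu (hp _) (hp _) (by rw [pow_succ, mul_comm])]
      exact h
  have hPsq : ∀ r : F, eichO Q u ((r ^ 2) • y) hu (hp _) ∈ M := by
    intro r
    by_cases hr : r = 0
    · rw [eichO_congr Q hu (hp _) (hp 0) (by rw [hr]; simp)]
      exact hP0
    · have hmem : Units.mk0 r hr ∈ Submonoid.powers k :=
        (mem_powers_iff_mem_zpowers).mpr (hk _)
      obtain ⟨n, hn⟩ := hmem
      have hrn : r = (k : F) ^ n := by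
        have := congrArg (fun z : Fˣ => (z : F)) hn
        simpa using this.symm
      rw [eichO_congr Q hu (hp _) (hp ((((k : F) ^ 2) ^ n))) (by rw [hrn, ← pow_mul, ← pow_mul, mul_comm])]
      exact hPpow n
  refine ⟨huy, fun c => ?_⟩
  obtain ⟨a, b, hc⟩ := hsq c
  have h := hPadd _ _ (hPsq a) (hPsq b)
  rw [eichO_congr Q hu _ (hp (a ^ 2 + b ^ 2)) (by rw [hc])]
  exact h

end generic

end Cfsg.Agent.Helper47
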