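import Mathlib
import Cfsg.Agent.Helper97.TNDefs

/-!
# Helper47: PIECE TOR of CALL S2413 (helper97).
-/

set_option autoImplicit false

universe u

namespace Cfsg.Agent.Helper47

open Cfsg Matrix Cfsg.Agent.Helper45 Cfsg.Agent.Helper98 Cfsg.Agent.Helper97.TM
  Cfsg.Agent.Helper97.TN

section odd

variable {m : ℕ} {F : Type u} [Field F]

/-- TOR (two statements) -/
theorem tn_mv_tor (i : Fin m) (l : Fˣ) (x : Unit ⊕ (Fin m ⊕ Fin m) → F) :
    mv ⇑(QO m F) (tor i l) x =
      x + (((l : F) ^ 2 - 1) * x (Sum.inr (Sum.inl i))) • eO m F i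
        + ((((l⁻¹ : Fˣ) : F) ^ 2 - 1) * x (Sum.inr (Sum.inr i))) • fO m F i := by
  have hl : (l : F) ≠ 0 := l.ne_zero
  unfold tor
  rw [mv_mul, mv_reflO, mv_reflO, QO_tor1, QO_tor2]
  simp only [QuadraticMap.polar_sub_left, QuadraticMap.polar_smul_left, polar_eO_left,
    polar_fO_left, smul_eq_mul]
  funext idx
  rcases idx with u0 | j | j
  · cases u0
    simp
  · by_cases hj : j = i
    · subst hj
      simp
      field_simp
      ring
    · simp [hj]
  · by_cases hj : j = i
    · subst hj
      simp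
      field_simp
      ring
    · simp [hj]

theorem tn_tor_mul_aux (i : Fin m) (l l' : Fˣ) :
    tor (F := F) i l * tor i l' = tor i (l * l') := by
  apply ext_mv
  intro x
  rw [mv_mul, tn_mv_tor, tn_mv_tor, tn_mv_tor]
  funext idx
  rcases idx with u0 | j | j
  · cases u0
    simp
  · by_cases hj : j = i
    · subst hj
      simp
      ring
    · simp [hj]
  · by_cases hj : j = i
    · subst hj
      simp
      ring
    · simp [hj]

theorem tn_tor_one_aux (i : Fin m) : tor (F := F) i 1 = 1 := by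
  apply ext_mv
  intro x
  rw [tn_mv_tor, mv_one]
  simp

theorem tn_tor_pow_aux (i : Fin m) (l : Fˣ) (j : ℕ) :
    (tor (F := F) i l) ^ j = tor i (l ^ j) := by
  induction j with
  | zero => rw [pow_zero, pow_zero, tn_tor_one_aux]
  | succ j ih => rw [pow_succ, pow_succ, ih, tn_tor_mul_aux]

theorem tn_tor_pow [Fintype F] (i : Fin m) (l : Fˣ) :
    (tor (F := F) i l) ^ (Fintype.card F - 1) = 1 := by
  classical
  rw [tn_tor_pow_aux]
  have h : l ^ (Fintype.card F - 1) = 1 := by
    rw [← Fintype.card_units]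
    exact pow_card_eq_one
  rw [h, tn_tor_one_aux]

end odd

end Cfsg.Agent.Helper47
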