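import Mathlib
import Cfsg.Agent.Helper95.UBNDefs

/-!
# S2546, piece BASE (and the unit-rows lemma for matrices fixing the first `k` hyperbolic pairs).
-/

set_option autoImplicit false

namespace Cfsg.Agent.Helper47.UBN

open Matrix Cfsg.Agent.Helper95.UBN

variable {F : Type*} [Field F] {n : ℕ}

/-- the inverse of a matrix fixing `e_i` fixes `e_i` -/
theorem fixk_inv (k : ℕ) (g : Matrix.SpecialLinearGroup (Fin n) F) (hfix : Fixk k g.1) :
    Fixk k (g⁻¹).1 := by
  intro i hi a
  have h1 : (g⁻¹).1 * g.1 = 1 := by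
    have : (g⁻¹ * g).1 = 1 := by rw [inv_mul_cancel]; rfl
    exact this
  have h2 := congrFun (congrFun h1 a) i
  rw [Matrix.mul_apply, Matrix.one_apply] at h2
  rw [← h2]
  rw [Finset.sum_eq_single i]
  · rw [hfix i hi i, if_pos rfl, mul_one]
  · intro l _ hl
    rw [hfix i hi l, if_neg hl, mul_zero]
  · intro h; exact absurd (Finset.mem_univ _) h

/-- the rows in the fixed range of a unitary matrix fixing the first `k` hyperbolic pairs are
unit rows -/
theorem fixk_rows (τ : F →+* F) (k : ℕ) (g : Matrix.SpecialLinearGroup (Fin n) F)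
    (hg : g ∈ UG τ n) (hfix : Fixk k g.1) (a : Fin n) (ha : a.1 < k ∨ n ≤ a.1 + k) (b : Fin n) :
    g.1 a b = if a = b then 1 else 0 := by
  have hra : (Fin.rev a).1 < k ∨ n ≤ (Fin.rev a).1 + k := by
    rw [Fin.val_rev]
    have := a.2
    rcases ha with h | h
    · right; omega
    · left; omega
  have h1 := fixk_inv k g hfix (Fin.rev a) hra (Fin.rev b)
  rw [inv_apply hg, Fin.rev_rev, Fin.rev_rev] at h1
  by_cases hab : a = b
  · rw [if_pos hab]
    rw [if_pos (by rw [hab])] at h1
    apply τ.injective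
    rw [h1, map_one]
  · rw [if_neg hab]
    rw [if_neg (fun h => hab (Fin.rev_injective h).symm)] at h1
    apply τ.injective
    rw [h1, map_zero]

/-- PIECE BASE -/
theorem p_BASE (τ : F →+* F) (k : ℕ) (hk : n ≤ 2 * k + 1)
    (g : Matrix.SpecialLinearGroup (Fin n) F) (hg : g ∈ UG τ n) (hfix : Fixk k g.1) :
    Pat g.1 1 := by
  intro a b hab
  show a = b
  by_cases hb : b.1 < k ∨ n ≤ b.1 + k
  · have h1 := hfix b hb a
    by_contra hne
    rw [if_neg hne] at h1
    exact hab h1
  · by_cases ha : a.1 < k ∨ n ≤ a.1 + k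
    · have h1 := fixk_rows τ k g hg hfix a ha b
      by_contra hne
      rw [if_neg hne] at h1
      exact hab h1
    · push Not at ha hb
      apply Fin.ext
      omega

end Cfsg.Agent.Helper47.UBN
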