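import Mathlib
import Cfsg.Agent.Helper95.UBNDefs

/-!
# S2546, piece BIFF: the Borel subgroup of the unitary group in a Witt basis is the set of
upper triangular unitary matrices.
-/

set_option autoImplicit false

namespace Cfsg.Agent.Helper47.UBN

open Matrix Cfsg.Agent.Helper95.UBN

variable {F : Type*} [Field F] {n : ℕ}

/-- PIECE BIFF -/
theorem p_BIFF (τ : F →+* F) (g : ↥(UG τ n)) : g ∈ uB τ n ↔ IsUp g.1.1 := by
  constructor
  · intro hg
    unfold uB at hg
    induction hg using Subgroup.closure_induction with
    | mem x hx => exact hx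
    | one =>
      intro a b hab
      show (1 : Matrix (Fin n) (Fin n) F) a b = 0
      exact Matrix.one_apply_ne (ne_of_gt hab)
    | mul x y _ _ hx hy =>
      intro a b hab
      show (x.1.1 * y.1.1) a b = 0
      rw [Matrix.mul_apply]
      apply Finset.sum_eq_zero
      intro k _
      by_cases hk : k < a
      · rw [hx a k hk, zero_mul]
      · rw [hy k b (lt_of_lt_of_le hab (not_lt.mp hk)), mul_zero]
    | inv x _ hx =>
      intro a b hab
      show (x.1⁻¹).1 a b = 0
      rw [inv_apply x.2, hx (Fin.rev b) (Fin.rev a) (Fin.rev_lt_rev.mpr hab), map_zero]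
  · intro h
    exact Subgroup.subset_closure h

end Cfsg.Agent.Helper47.UBN
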