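import Mathlib
import Cfsg.Agent.Helper95.UBNDefs

/-!
# S2546, pieces NCONJX / NCONJY: conjugating root-group shapes by monomial matrices.
-/

set_option autoImplicit false

namespace Cfsg.Agent.Helper47.UBN

open Matrix Cfsg.Agent.Helper95.UBN

variable {F : Type*} [Field F] {n : ℕ}

/-- a monomial matrix of determinant one has a nonzero entry in each column -/
theorem pat_col_ne_zero (g : Matrix.SpecialLinearGroup (Fin n) F) (π : Equiv.Perm (Fin n))
    (h : Pat g.1 π) (b : Fin n) : g.1 (π b) b ≠ 0 := by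
  intro h0
  have h1 : (g⁻¹).1 * g.1 = 1 := by
    have : (g⁻¹ * g).1 = 1 := by rw [inv_mul_cancel]; rfl
    exact this
  have h2 := congrFun (congrFun h1 b) b
  rw [Matrix.mul_apply, Matrix.one_apply_eq] at h2
  have h3 : ∑ k, (g⁻¹).1 b k * g.1 k b = 0 := by
    apply Finset.sum_eq_zero
    intro k _
    by_cases hk : g.1 k b = 0
    · rw [hk, mul_zero]
    · have := h k b hk
      rw [this] at hk
      exact absurd h0 hk
  rw [h3] at h2
  exact zero_ne_one h2

/-- the inverse of a monomial matrix is monomial (PATINV argument) -/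
theorem pat_inv_aux (g : Matrix.SpecialLinearGroup (Fin n) F) (π : Equiv.Perm (Fin n))
    (h : Pat g.1 π) : Pat (g⁻¹).1 π⁻¹ := by
  intro a b hab
  have h1 : g.1 * (g⁻¹).1 = 1 := by
    have : (g * g⁻¹).1 = 1 := by rw [mul_inv_cancel]; rfl
    exact this
  have h2 := congrFun (congrFun h1 (π a)) b
  rw [Matrix.mul_apply, Finset.sum_eq_single a] at h2
  · have h3 : g.1 (π a) a * (g⁻¹).1 a b ≠ 0 := mul_ne_zero (pat_col_ne_zero g π h a) hab
    rw [h2, Matrix.one_apply] at h3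
    have h4 : π a = b := by
      by_contra hne
      rw [if_neg hne] at h3
      exact h3 rfl
    rw [← h4]
    simp
  · intro k _ hk
    by_cases hk0 : g.1 (π a) k = 0
    · rw [hk0, zero_mul]
    · exact absurd (π.injective (h _ _ hk0)).symm hk
  · intro h0
    exact absurd (Finset.mem_univ a) h0

/-- a nonzero entry of a triple product `A * X * B` with `A`, `B` monomial -/
theorem triple_ne_zero (A X B : Matrix (Fin n) (Fin n) F) (π ρ : Equiv.Perm (Fin n))
    (hA : Pat A π) (hB : Pat B ρ) (c d : Fin n) (h : (A * X * B) c d ≠ 0) :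
    ∃ k : Fin n, c = π k ∧ X k (ρ d) ≠ 0 := by
  rw [Matrix.mul_apply] at h
  obtain ⟨l, -, hl⟩ := Finset.exists_ne_zero_of_sum_ne_zero h
  have hl1 : (A * X) c l ≠ 0 := left_ne_zero_of_mul hl
  have hl2 : B l d ≠ 0 := right_ne_zero_of_mul hl
  rw [Matrix.mul_apply] at hl1
  obtain ⟨k, -, hk⟩ := Finset.exists_ne_zero_of_sum_ne_zero hl1
  have hk1 : A c k ≠ 0 := left_ne_zero_of_mul hk
  have hk2 : X k l ≠ 0 := right_ne_zero_of_mul hk
  refine ⟨k, hA c k hk1, ?_⟩
  rw [← hB l d hl2]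
  exact hk2

/-- PIECE NCONJX -/
theorem p_NCONJX (π σ : Equiv.Perm (Fin n)) (nn : Matrix.SpecialLinearGroup (Fin n) F)
    (hp : Pat nn.1 π) (x : Matrix.SpecialLinearGroup (Fin n) F) (hx : XSh σ x.1)
    (hmono : ∀ e f : Fin n, e < f → σ f < σ e → π⁻¹ e < π⁻¹ f) : IsUp (nn⁻¹ * x * nn).1 := by
  intro c d hdc
  by_contra h
  have h' : ((nn⁻¹).1 * x.1 * nn.1) c d ≠ 0 := h
  obtain ⟨k, hck, hk⟩ := triple_ne_zero _ _ _ π⁻¹ π (pat_inv_aux nn π hp) hp c d h'
  have hk' : k = π c := by rw [hck]; simp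
  rw [hk'] at hk
  have hne : π c ≠ π d := fun h0 => (ne_of_gt hdc) (π.injective h0)
  obtain ⟨h1, h2⟩ := hx.2 (π c) (π d) hne hk
  have h3 := hmono (π c) (π d) h1 h2
  simp at h3
  exact absurd h3 (not_lt.mpr hdc.le)

/-- PIECE NCONJY -/
theorem p_NCONJY (π σ : Equiv.Perm (Fin n)) (nn : Matrix.SpecialLinearGroup (Fin n) F)
    (hp : Pat nn.1 π) (y : Matrix.SpecialLinearGroup (Fin n) F) (hy : YSh σ y.1)
    (hmono : ∀ e f : Fin n, e < f → σ f < σ e → π⁻¹ f < π⁻¹ e) : IsUp (nn⁻¹ * y * nn).1 := by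
  intro c d hdc
  by_contra h
  have h' : ((nn⁻¹).1 * y.1 * nn.1) c d ≠ 0 := h
  obtain ⟨k, hck, hk⟩ := triple_ne_zero _ _ _ π⁻¹ π (pat_inv_aux nn π hp) hp c d h'
  have hk' : k = π c := by rw [hck]; simp
  rw [hk'] at hk
  have hne : π c ≠ π d := fun h0 => (ne_of_gt hdc) (π.injective h0)
  obtain ⟨h1, h2⟩ := hy.2 (π c) (π d) hne hk
  have h3 := hmono (π d) (π c) h1 h2
  simp at h3
  exact absurd h3 (not_lt.mpr hdc.le)

end Cfsg.Agent.Helper47.UBN
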