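import Mathlib
import Cfsg.Agent.Helper95.UBNDefs
import Cfsg.Agent.Helper47.UBNNCONJX

/-!
# S2546, pieces SCONJ / CNE: conjugation by a monomial lift of a simple reflection.
-/

set_option autoImplicit false

namespace Cfsg.Agent.Helper47.UBN

open Matrix Cfsg.Agent.Helper95.UBN

variable {F : Type*} [Field F] {n : ℕ}

/-- the simple reflections are involutions (SGSQ argument) -/
theorem sigP_sq_aux (j : Fin (n / 2)) : sigP j * sigP j = 1 := by
  unfold sigP
  split_ifs with hj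
  · have hd : Equiv.Perm.Disjoint (Equiv.swap (ia j) (ib j))
        (Equiv.swap (Fin.rev (ia j)) (Fin.rev (ib j))) := by
      apply Equiv.Perm.disjoint_swap_swap
      have hb : ib j = ⟨j.1 + 1, by omega⟩ := by
        unfold ib
        rw [dif_pos hj]
      rw [hb]
      simp only [List.nodup_cons, List.mem_cons, List.not_mem_nil, or_false, not_or,
        List.nodup_nil, and_true, not_false_eq_true]
      refine ⟨⟨?_, ?_, ?_⟩, ⟨?_, ?_⟩, ?_⟩ <;>
        · intro h
          have h' := congrArg Fin.val h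
          simp only [ia, Fin.val_rev] at h'
          omega
    have hc := hd.commute
    calc Equiv.swap (ia j) (ib j) * Equiv.swap (Fin.rev (ia j)) (Fin.rev (ib j)) *
          (Equiv.swap (ia j) (ib j) * Equiv.swap (Fin.rev (ia j)) (Fin.rev (ib j)))
        = (Equiv.swap (ia j) (ib j) * Equiv.swap (ia j) (ib j)) *
          (Equiv.swap (Fin.rev (ia j)) (Fin.rev (ib j)) *
            Equiv.swap (Fin.rev (ia j)) (Fin.rev (ib j))) := by
          rw [mul_assoc, ← mul_assoc (Equiv.swap (Fin.rev (ia j)) (Fin.rev (ib j))), ← hc.eq,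
            mul_assoc, mul_assoc]
      _ = 1 := by rw [Equiv.swap_mul_self, Equiv.swap_mul_self, mul_one]
  · exact Equiv.swap_mul_self _ _

theorem sigP_sigP_aux (j : Fin (n / 2)) (y : Fin n) : sigP j (sigP j y) = y := by
  have h := congrArg (fun p : Equiv.Perm (Fin n) => p y) (sigP_sq_aux j)
  simpa using h

theorem sigP_inv_aux (j : Fin (n / 2)) : (sigP j)⁻¹ = sigP j := by
  rw [inv_eq_iff_mul_eq_one]
  exact sigP_sq_aux j

/-- PIECE SCONJ -/
theorem p_SCONJ (j : Fin (n / 2)) (s : Matrix.SpecialLinearGroup (Fin n) F)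
    (hp : Pat s.1 (sigP j)) (g : Matrix.SpecialLinearGroup (Fin n) F) (hup : IsUp g.1)
    (h0 : ∀ a b, a < b → sigP j b < sigP j a → g.1 a b = 0) : IsUp (s * g * s⁻¹).1 := by
  intro x y hyx
  by_contra h
  have h' : (s.1 * g.1 * (s⁻¹).1) x y ≠ 0 := h
  obtain ⟨k, hxk, hk⟩ := triple_ne_zero _ _ _ (sigP j) (sigP j)⁻¹ hp (pat_inv_aux s _ hp) x y h'
  rw [sigP_inv_aux] at hk
  have hk' : k = sigP j x := by rw [hxk, sigP_sigP_aux]
  rw [hk'] at hk
  rcases lt_trichotomy (sigP j x) (sigP j y) with h1 | h1 | h1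
  · apply hk
    apply h0 _ _ h1
    rw [sigP_sigP_aux, sigP_sigP_aux]
    exact hyx
  · exact (ne_of_gt hyx) ((sigP j).injective h1)
  · exact hk (hup _ _ h1)

/-- PIECE CNE -/
theorem p_CNE (j : Fin (n / 2)) (s : Matrix.SpecialLinearGroup (Fin n) F)
    (hp : Pat s.1 (sigP j)) (x : Matrix.SpecialLinearGroup (Fin n) F) (hx : XSh (sigP j) x.1)
    (hx1 : x ≠ 1) : ¬ IsUp (s * x * s).1 := by
  intro hup
  have hne : x.1 ≠ 1 := fun h => hx1 (Subtype.ext h)
  obtain ⟨e₀, f₀, hef⟩ : ∃ e₀ f₀, x.1 e₀ f₀ ≠ (1 : Matrix (Fin n) (Fin n) F) e₀ f₀ := by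
    by_contra hcon
    push Not at hcon
    exact hne (Matrix.ext hcon)
  have hef' : e₀ ≠ f₀ := by
    intro h
    rw [h, hx.1 f₀, Matrix.one_apply_eq] at hef
    exact hef rfl
  rw [Matrix.one_apply_ne hef'] at hef
  obtain ⟨h1, h2⟩ := hx.2 e₀ f₀ hef' hef
  have hz := hup (sigP j e₀) (sigP j f₀) h2
  have hz' : (s.1 * x.1 * s.1) (sigP j e₀) (sigP j f₀) = 0 := hz
  rw [Matrix.mul_apply, Finset.sum_eq_single f₀, Matrix.mul_apply, Finset.sum_eq_single e₀] at hz'
  · have ha : s.1 (sigP j e₀) e₀ ≠ 0 := pat_col_ne_zero s _ hp e₀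
    have hb : s.1 f₀ (sigP j f₀) ≠ 0 := by
      have := pat_col_ne_zero s _ hp (sigP j f₀)
      rwa [sigP_sigP_aux] at this
    exact (mul_ne_zero (mul_ne_zero ha hef) hb) hz'
  · intro k _ hk
    by_cases hk0 : s.1 (sigP j e₀) k = 0
    · rw [hk0, zero_mul]
    · exact absurd ((sigP j).injective (hp _ _ hk0)).symm hk
  · intro h; exact absurd (Finset.mem_univ _) h
  · intro l _ hl
    by_cases hl0 : s.1 l (sigP j f₀) = 0
    · rw [hl0, mul_zero]
    · have := hp _ _ hl0
      rw [sigP_sigP_aux] at this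
      exact absurd this hl
  · intro h; exact absurd (Finset.mem_univ _) h

end Cfsg.Agent.Helper47.UBN
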